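/-
S3320, chunk `F0`: a ten dimensional irreducible module for `SL₅(2)` is the exterior square or its dual.
-/
import Cfsg.Agent.H10.RG.I0
import Cfsg.Agent.H22.GC1
import Cfsg.Agent.H11.SL

set_option autoImplicit false
set_option linter.unusedSectionVars false
open Cfsg Matrix H10.RG Equiv
namespace H8.RG
universe u
abbrev Z2 := ZMod 2
abbrev P5 := Perm (Fin 5)
variable {a b : Fin 5} {i k : Fin 4} {σ w : P5} {g u : S5}

theorem z2 : ∀ x : Z2, x ≠ 0 → x = 1 := by decide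
/-- invertible matrices have determinant one -/
def toS : GL (Fin 5) Z2 →* S5 := MonoidHom.mk' (fun g => ⟨g.1, z2 _ g.det_ne_zero⟩) fun _ _ => rfl
/-- permutation matrices -/
def pm : P5 →* S5 := toS.comp (H22.GC.pm Z2)
/-- the underlying matrix -/
def mv (g : S5) : Matrix (Fin 5) (Fin 5) Z2 := g.1
theorem mv_mul (g h : S5) : mv (g * h) = mv g * mv h := rfl
theorem mv_ext {h : S5} (e : ∀ i j, mv g i j = mv h i j) : g = h := Subtype.ext (Matrix.ext e)
theorem pm_apply (σ : P5) (i j : Fin 5) : mv (pm σ) i j = if i = σ j then 1 else 0 := H22.GC.pm_apply σ i j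
/-- upper triangular matrices -/
def U : Subgroup S5 := (H22.GC.PP Z2 id).comap SpecialLinearGroup.toGL
theorem mem_U : u ∈ U ↔ ∀ i j, j < i → mv u i j = 0 := ⟨fun h _ _ l => h l, fun h _ _ l => h _ _ l⟩
theorem bruhat (g : S5) : ∃ x ∈ U, ∃ y ∈ U, ∃ σ, g = x * pm σ * y :=
  let ⟨x, hx, y, hy, σ, e⟩ := H22.GC.bruhat (SpecialLinearGroup.toGL g)
  ⟨toS x, hx, toS y, hy, σ, Subtype.ext (congrArg Units.val e)⟩
theorem diag (h : u ∈ U) (i : Fin 5) : mv u i i = 1 := z2 _ fun e => by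
  have : (mv u).det = 1 := u.2
  rw [det_of_isUpperTriangular (M := mv u) h, Finset.prod_eq_zero (f := fun i => mv u i i) (Finset.mem_univ i) e] at this
  exact zero_ne_one this
theorem pU : IsPGroup 2 U := fun u => ⟨3, Subtype.ext (Subtype.ext (by
  have := (mv u).aeval_self_charpoly
  simp only [charpoly_of_isUpperTriangular (mv u) u.2, diag u.2, Finset.prod_const, map_pow, map_sub, Polynomial.aeval_X,
    map_one, Finset.card_univ, Fintype.card_fin] at this
  have e := sub_pow_char_pow_of_commute 2 3 (Commute.one_right (mv u))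
  rw [show 2 ^ 3 = 5 + 3 from rfl, pow_add, this, zero_mul, one_pow, eq_comm, sub_eq_zero] at e
  exact e))⟩

theorem tv_eq (h : a ≠ b) : tv a b = SpecialLinearGroup.transvection h 1 := dif_neg h
theorem tv_val (h : a ≠ b) : mv (tv a b) = transvection a b 1 := by rw [tv_eq h]; rfl
theorem tv_U (h : a < b) : tv a b ∈ U := mem_U.2 fun i j l => by
  rw [tv_val h.ne, transvection, Matrix.add_apply, one_apply_ne l.ne', single_apply_of_ne, add_zero]
  rintro ⟨rfl, rfl⟩; exact h.not_gt l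
theorem tv_sq : ∀ a b, tv a b * tv a b = 1 := by decide +kernel
theorem pm_swap : ∀ a b, pm (swap a b) = tv a b * tv b a * tv a b := by decide +kernel
theorem pm_tv (σ : P5) (a b : Fin 5) : pm σ * tv a b = tv (σ a) (σ b) * pm σ := by
  by_cases h : a = b
  · simp [h, tv]
  refine mv_ext fun i j => ?_
  simp only [mv_mul, tv_val h, tv_val (σ.injective.ne h), transvection, mul_add, add_mul, mul_one,
    one_mul, Matrix.add_apply]
  simp only [mul_apply, pm_apply, single_apply]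
  simp [ite_and, eq_comm]
  split_ifs <;> rfl
theorem tv_ind (P : S5 → Prop) (ht : ∀ a b, P (tv a b)) (hm : ∀ g h, P g → P h → P (g * h)) (g : S5) : P g :=
  H11.sl_transvection_induction P (tv_sq 0 0 ▸ hm _ _ (ht 0 0) (ht 0 0)) (fun a b h c => by
    by_cases e : c = 0
    · rw [e, SpecialLinearGroup.transvection_coeff_zero, ← tv_sq 0 0]; exact hm _ _ (ht 0 0) (ht 0 0)
    · rw [z2 c e, ← tv_eq h]; exact ht a b) hm g

/-- the simple reflections -/
def sw (i : Fin 4) : P5 := swap i.castSucc i.succ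
/-- the simple root elements -/
def xx (i : Fin 4) : S5 := tv i.castSucc i.succ
/-- the negative simple root elements -/
def yy (i : Fin 4) : S5 := tv i.succ i.castSucc
theorem xU (i : Fin 4) : xx i ∈ U := tv_U i.castSucc_lt_succ
theorem n_eq (i : Fin 4) : pm (sw i) = xx i * yy i * xx i := pm_swap _ _
theorem n_eq' (i : Fin 4) : pm (sw i) = yy i * xx i * yy i := by rw [sw, Equiv.swap_comm]; exact pm_swap _ _
theorem cj_U (h : u ∈ U) (e : mv u i.castSucc i.succ = 0) : pm (sw i)⁻¹ * u * pm (sw i) ∈ U := mem_U.2 fun a b l => by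
  have : ∀ σ : P5, mv (pm σ⁻¹ * u * pm σ) a b = mv u (σ a) (σ b) := fun σ => by
    simp only [mv_mul, mul_apply, pm_apply]
    simp [Equiv.eq_symm_apply]
  rw [this]
  rcases (by decide +kernel : ∀ i a b, b < a → sw i b < sw i a ∨ sw i a = i.castSucc ∧ sw i b = i.succ) i a b l with k | k
  exacts [mem_U.1 h _ _ k, by rw [k.1, k.2, e]]

/-- the lexicographic height -/
def ht (σ : P5) : ℕ := σ 0 * 625 + σ 1 * 125 + σ 2 * 25 + σ 3 * 5 + σ 4
theorem ht_lt : ∀ σ, ht σ < 3125 := by decide +kernel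
theorem ht_inj {τ : P5} (h : ht σ = ht τ) : σ = τ := by
  unfold ht at h
  ext i
  have := (σ 0).2; have := (σ 1).2; have := (σ 2).2; have := (σ 3).2; have := (σ 4).2
  have := (τ 0).2; have := (τ 1).2; have := (τ 2).2; have := (τ 3).2; have := (τ 4).2
  fin_cases i <;> simp <;> omega
/-- ascents -/
abbrev As (w : P5) (i : Fin 4) : Prop := w i.castSucc < w i.succ
theorem ht_sw : ∀ w i, (As w i → ht w < ht (w * sw i) ∧ ¬ As (w * sw i) i) ∧ (¬ As w i → ht (w * sw i) < ht w) := by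
  decide +kernel
/-- stabilizers of initial segments -/
abbrev Pr (k : Fin 4) (w : P5) : Prop := ∀ j, j ≤ k.castSucc → w j ≤ k.castSucc
theorem w0 : (Fin.revPerm * Fin.revPerm : P5) = 1 := by decide +kernel
/-- products of four transpositions -/
def pw (a b c d : Fin 5) : P5 := swap 0 a * swap 1 b * swap 2 c * swap 3 d
/-- eleven flags in almost general position -/
def rr : Fin 11 → P5 := ![pw 4 3 2 3, pw 3 1 2 4, pw 0 4 2 4, pw 3 4 3 4, pw 2 4 4 4, pw 0 3 2 3, pw 1 3 3 3, pw 0 1 4 3, pw 1 2 4 3, pw 1 1 2 4, pw 2 2 3 4]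
theorem rr_ne : ∀ a b k l, k ≠ l → Pr k ((rr a)⁻¹ * rr b) → Pr l ((rr a)⁻¹ * rr b) → a = b := by decide +kernel

variable {V : Type u} [AddCommGroup V] [Module Z2 V] {ρ : Representation Z2 S5 V} {m v : V} {f : V →ₗ[Z2] Z2}

theorem vv (v : V) : v + v = 0 := by rw [← two_smul Z2, show (2 : Z2) = 0 from rfl, zero_smul]
theorem add0 {v' : V} : v + v' = 0 ↔ v = v' := ⟨fun h => by rw [← add_zero v, ← vv v', ← add_assoc, h, zero_add], fun h => h ▸ vv v⟩
theorem rm (g h : S5) (v : V) : ρ (g * h) v = ρ g (ρ h v) := by rw [map_mul]; rfl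
variable (ρ) in
/-- fixed by the upper triangular matrices -/
def Fx (m : V) : Prop := ∀ u ∈ U, ρ u m = m
theorem exFx (ρ : Representation Z2 S5 V) [Finite V] [Nontrivial V] : ∃ m ≠ 0, Fx ρ m := by
  letI : MulAction U V := MulAction.compHom V (ρ.comp U.subtype)
  obtain ⟨v, hv⟩ := exists_ne (0 : V)
  obtain ⟨m, h, e⟩ := pU.exists_fixed_point_of_prime_dvd_card_of_fixed_point V
    (addOrderOf_eq_prime ((two_nsmul v).trans (vv v)) hv ▸ addOrderOf_dvd_natCard v) (a := 0) fun u => map_zero (ρ u)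
  exact ⟨m, e.symm, fun u hu => h ⟨u, hu⟩⟩
variable (ρ) in
/-- the Hecke operators -/
def T (i : Fin 4) (m : V) : V := ρ (pm (sw i)) m + ρ (xx i * pm (sw i)) m
theorem T_eq (h : ρ (xx i) m = m) : T ρ i m = ρ (pm (sw i)) m + ρ (yy i) m := by
  rw [T, n_eq, ← mul_assoc, ← mul_assoc, xx, tv_sq, one_mul, rm (yy i), ← xx, h]
theorem Fx.T (h : Fx ρ m) (i : Fin 4) : Fx ρ (T ρ i m) := fun u hu => by
  have k0 : ∀ u ∈ U, mv u i.castSucc i.succ = 0 → ρ u (ρ (pm (sw i)) m) = ρ (pm (sw i)) m := fun u hu e => by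
    conv_rhs => rw [← h _ (cj_U hu e), ← rm, ← mul_assoc, ← mul_assoc, ← map_mul, mul_inv_cancel, map_one, one_mul, rm]
  have k1 : ∀ u ∈ U, mv u i.castSucc i.succ = 1 → ρ u (ρ (pm (sw i)) m) = ρ (xx i * pm (sw i)) m := fun u hu e => by
    conv_rhs => rw [rm, ← k0 _ (mul_mem (xU i) hu) (by
      rw [mv_mul, xx, tv_val i.castSucc_lt_succ.ne, transvection_mul_apply_same, e, diag hu]; rfl),
      ← rm, ← mul_assoc, xx, tv_sq, one_mul]
  have e : mv (u * xx i) i.castSucc i.succ = mv u i.castSucc i.succ + 1 := by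
    rw [mv_mul, xx, tv_val i.castSucc_lt_succ.ne, mul_transvection_apply_same, diag hu, mul_one]
  rw [RG.T, map_add, ← rm u (_ * _), ← mul_assoc, rm (u * _)]
  by_cases c : mv u i.castSucc i.succ = 0
  · rw [k0 u hu c, k1 _ (mul_mem hu (xU i)) (by rw [e, c, zero_add])]
  · rw [k1 u hu (z2 _ c), k0 _ (mul_mem hu (xU i)) (by rw [e, z2 _ c]; rfl), add_comm]

variable (ρ) in
/-- irreducibility -/
def Irr : Prop := ∀ W : Submodule Z2 V, (∀ g, ∀ v ∈ W, ρ g v ∈ W) → W = ⊥ ∨ W = ⊤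

section
variable (ir : Irr ρ) (f0 : f ≠ 0) (hf : ∀ u ∈ U, ∀ v, f (ρ u v) = f v)
include hf in
theorem fT (h : Fx ρ m) (w : P5) (i : Fin 4) :
    f (ρ (pm w) (T ρ i m)) = if As w i then 0 else f (ρ (pm (w * sw i)) m) + f (ρ (pm w) m) := by
  split_ifs with c
  · rw [T, map_add, map_add, ← rm, ← rm, ← mul_assoc, xx, pm_tv, mul_assoc, rm (tv _ _), hf _ (tv_U c), vv]
  · rw [T_eq (h _ (xU i)), map_add, map_add, ← rm, ← rm, ← map_mul, yy, pm_tv, rm (tv _ _), hf _ (tv_U
      (lt_of_le_of_ne (not_lt.1 c) (w.injective.ne i.castSucc_lt_succ.ne')))]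
include ir f0 hf
theorem inj (h : Fx ρ m) (e : ∀ w, f (ρ (pm w) m) = 0) : m = 0 := by
  refine ((ir (⨅ g, LinearMap.ker (f ∘ₗ ρ g)) fun g v hv => ?_).resolve_right fun k => f0 (LinearMap.ext fun v => ?_)).le
    (Submodule.mem_iInf _ |>.2 fun g => ?_)
  · simp only [Submodule.mem_iInf, LinearMap.mem_ker, LinearMap.comp_apply, ← rm] at hv ⊢
    exact fun _ => hv _
  · simpa using (Submodule.mem_iInf _).1 (k.ge Submodule.mem_top : v ∈ _) 1
  · obtain ⟨x, hx, y, hy, σ, rfl⟩ := bruhat g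
    rw [LinearMap.mem_ker, LinearMap.comp_apply, rm, rm, h y hy, hf x hx, e]

theorem eig [Finite V] [Nontrivial V] : ∃ m ≠ 0, Fx ρ m ∧ ∀ i, T ρ i m = 0 ∨ T ρ i m = m := by
  obtain ⟨n, ⟨m, m0, h, e⟩, k⟩ : ∃ n, (∃ m ≠ 0, Fx ρ m ∧ ∀ w, ht w < n → f (ρ (pm w) m) = 0) ∧
      ¬ ∃ m ≠ 0, Fx ρ m ∧ ∀ w, ht w < n + 1 → f (ρ (pm w) m) = 0 := by
    by_contra! c
    have : ∀ n, ∃ m ≠ 0, Fx ρ m ∧ ∀ w, ht w < n → f (ρ (pm w) m) = 0 := fun n => by
      induction n with
      | zero => exact (exFx ρ).imp fun _ h => ⟨h.1, h.2, by simp⟩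
      | succ n ih => exact c n ih
    obtain ⟨m, m0, h, e⟩ := this 3125
    exact m0 (inj ir f0 hf h fun w => e w (ht_lt w))
  refine ⟨m, m0, h, fun i => ?_⟩
  by_cases c : ∃ w, ht w = n ∧ As w i
  · refine .inl (by_contra fun e' => k ⟨_, e', h.T i, fun w l => ?_⟩)
    obtain ⟨w', e1, e2⟩ := c
    rw [fT hf h]
    split_ifs with d
    · rfl
    have : ht w ≠ n := fun e => d (ht_inj (e1.trans e.symm) ▸ e2)
    rw [e _ (by have := (ht_sw w i).2 d; omega), e w (by omega), add_zero]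
  · refine .inr (add0.1 (by_contra fun e' => k ⟨_, e', fun u hu => by rw [map_add, h.T i u hu, h u hu], fun w l => ?_⟩))
    rw [map_add, map_add, fT hf h]
    split_ifs with d
    · rw [e w (by have : ht w ≠ n := fun e => c ⟨w, e, d⟩; omega), add_zero]
    · rw [e _ (by have := (ht_sw w i).2 d; omega), zero_add, vv]

omit ir f0 in
theorem supp (h : Fx ρ m) (e : ∀ i, T ρ i m = 0 ∨ T ρ i m = m) (w : P5) (c : f (ρ (pm w) m) ≠ 0) :
    f (ρ (pm Fin.revPerm) m) ≠ 0 ∧ ∀ k, T ρ k m = m → Pr k (Fin.revPerm * w) := by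
  induction hn : 3125 - ht w using Nat.strong_induction_on generalizing w with
  | _ n ih =>
  rcases (by decide +kernel : ∀ w : P5, w = Fin.revPerm ∨ ∃ i, As w i) w with rfl | ⟨i, hi⟩
  · exact ⟨c, fun k _ j l => by simpa using l⟩
  have n : T ρ i m ≠ m := fun k => c (by rw [← k, fT hf h, if_pos hi])
  have := fT hf h (w * sw i) i
  rw [(e i).resolve_right n, map_zero, map_zero, if_neg ((ht_sw w i).1 hi).2, mul_assoc, sw, Equiv.swap_mul_self, mul_one,
    eq_comm, add0] at this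
  obtain ⟨k1, k2⟩ := ih _ (by have := ((ht_sw w i).1 hi).1; have := ht_lt (w * sw i); omega) (w * sw i) (this ▸ c) rfl
  refine ⟨k1, fun k l j hj => ?_⟩
  have := k2 k l (sw i j) ((by decide +kernel : ∀ i k, i ≠ k → Pr k (sw i)) i k (fun e => n (e ▸ l)) j hj)
  simpa [sw] using this

theorem one [Finite V] (c : Nat.card V = 1024) (m0 : m ≠ 0) (h : Fx ρ m) (e : ∀ i, T ρ i m = 0 ∨ T ρ i m = m) {l : Fin 4}
    (h1 : T ρ k m = m) (h2 : T ρ l m = m) : k = l := by_contra fun n => by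
  obtain ⟨w, hw⟩ := not_forall.1 (mt (inj ir f0 hf h) m0)
  have := Nat.card_le_card_of_injective (Fintype.linearCombination Z2 fun b => ρ (pm (rr b)) m)
    (Function.LeftInverse.injective (g := fun v a => f (ρ (pm (Fin.revPerm * (rr a)⁻¹)) v)) fun c => funext fun a => by
      simp only [Fintype.linearCombination_apply, map_sum, map_smul, ← rm, ← map_mul]
      rw [Finset.sum_eq_single a (fun b _ ne => ?_) (by simp), inv_mul_cancel_right, z2 _ (supp hf h e w hw).1, smul_eq_mul,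
        mul_one]
      refine smul_eq_zero_of_right _ (by_contra fun d => ne (rr_ne a b k l n ?_ ?_).symm)
      · simpa [← mul_assoc, w0] using (supp hf h e _ d).2 k h1
      · simpa [← mul_assoc, w0] using (supp hf h e _ d).2 l h2)
  rw [c] at this
  simp at this
end

section main
variable (hU : ∀ a b, a < b → ρ (tv a b) m = m) (hy : ∀ i ≠ k, ρ (yy i) m = m)
include hU hy
theorem fixP (σ : P5) (h : Pr k σ) : ρ (pm σ) m = m := by
  induction hn : ht σ using Nat.strong_induction_on generalizing σ with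
  | _ n ih =>
  rcases (by decide +kernel : ∀ k σ, Pr k σ → σ = 1 ∨ ∃ i, i ≠ k ∧ ht (σ * sw i) < ht σ ∧ Pr k (σ * sw i)) k σ h with
    rfl | ⟨i, e, l, p⟩
  · rw [map_one, map_one, Module.End.one_apply]
  have := ih _ (hn ▸ l) _ p rfl
  rwa [map_mul, rm, n_eq, rm, rm, xx, hU _ _ i.castSucc_lt_succ, hy i e, hU _ _ i.castSucc_lt_succ] at this
theorem c_eq {τ : P5} (h : Pr k (τ⁻¹ * σ)) : ρ (pm σ) m = ρ (pm τ) m := by
  conv_rhs => rw [← fixP hU hy _ h, ← rm, ← map_mul, mul_inv_cancel_left]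
theorem tv_m {ε : Z2} (e : ρ (yy k) m = m + ε • ρ (pm (sw k)) m) (a b : Fin 5) :
    ρ (tv a b) m = m + if k.castSucc < a ∧ b ≤ k.castSucc then ε • ρ (pm (swap a b)) m else 0 := by
  split_ifs with c
  · obtain ⟨σ, p, rfl, rfl⟩ := (by decide +kernel : ∀ (k : Fin 4) a b, k.castSucc < a ∧ b ≤ k.castSucc →
      ∃ σ, Pr k σ ∧ σ k.succ = a ∧ σ k.castSucc = b) k a b c
    conv_lhs => rw [← fixP hU hy σ p, ← rm, ← pm_tv, rm, ← yy, e, map_add, fixP hU hy σ p, map_smul, ← rm, ← map_mul, sw,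
      Equiv.mul_swap_eq_swap_mul, map_mul, rm, fixP hU hy σ p, Equiv.swap_comm]
  rw [add_zero]
  rcases (by decide +kernel : ∀ (k : Fin 4) a b, ¬ (k.castSucc < a ∧ b ≤ k.castSucc) → a < b ∨ a = b ∨
    b < a ∧ Pr k (swap a b)) k a b c with l | rfl | ⟨l, p⟩
  · exact hU a b l
  · simp [tv]
  · have := pm_tv (swap a b) b a
    rw [swap_apply_right, swap_apply_left] at this
    conv_lhs => rw [← fixP hU hy _ p, ← rm, ← this, rm, hU _ _ l, fixP hU hy _ p]
theorem tv_c {ε : Z2} (e : ρ (yy k) m = m + ε • ρ (pm (sw k)) m) (a b : Fin 5) (σ : P5) :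
    ρ (tv (σ a) (σ b)) (ρ (pm σ) m) = ρ (pm σ) m +
      if k.castSucc < a ∧ b ≤ k.castSucc then ε • ρ (pm (σ * swap a b)) m else 0 := by
  rw [← rm, ← pm_tv, rm, tv_m hU hy e, map_add]
  split_ifs
  · rw [map_smul, ← rm, ← map_mul]
  · rw [map_zero]
theorem span_c (ir : Irr ρ) (m0 : m ≠ 0) {ε : Z2} (e : ρ (yy k) m = m + ε • ρ (pm (sw k)) m) {W : Submodule Z2 V}
    (h : ∀ σ, ρ (pm σ) m ∈ W) : W = ⊤ := by
  refine top_le_iff.1 (((ir (Submodule.span Z2 (Set.range fun σ => ρ (pm σ) m)) fun g => ?_).resolve_left fun k => m0 ?_).ge.trans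
    (Submodule.span_le.2 (Set.range_subset_iff.2 h)))
  · refine tv_ind (fun g => ∀ v ∈ _, ρ g v ∈ _) (fun a b v hv => ?_) (fun g h h1 h2 v hv => rm g h v ▸ h1 _ (h2 v hv)) g
    refine Submodule.mem_comap.1 (Submodule.span_le.2 (Set.range_subset_iff.2 fun σ => ?_) hv)
    obtain ⟨a, rfl⟩ := σ.surjective a
    obtain ⟨b, rfl⟩ := σ.surjective b
    rw [SetLike.mem_coe, Submodule.mem_comap, tv_c hU hy e]
    refine add_mem (Submodule.subset_span ⟨σ, rfl⟩) ?_
    split_ifs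
    exacts [Submodule.smul_mem _ _ (Submodule.subset_span ⟨_, rfl⟩), zero_mem _]
  · simpa using k.le (Submodule.subset_span ⟨1, rfl⟩)
end main

/-- the conclusion -/
def Wg (ρ : Representation Z2 S5 V) : Prop := ∃ β : V5 →ₗ[Z2] V5 →ₗ[Z2] V, (∀ u, β u u = 0) ∧ (∀ u w, β u w = β w u) ∧
  Submodule.span Z2 (Set.range fun p : V5 × V5 => β p.1 p.2) = ⊤ ∧ ∀ g u w, ρ g (β u w) = β (mv g *ᵥ u) (mv g *ᵥ w)

theorem k0 [Finite V] (c : Nat.card V = 1024) (ir : Irr ρ) (m0 : m ≠ 0) (hU : ∀ a b, a < b → ρ (tv a b) m = m)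
    (hy : ∀ i ≠ 0, ρ (yy i) m = m) {ε : Z2} (e : ρ (yy 0) m = m + ε • ρ (pm (sw 0)) m) : False := by
  have := Nat.card_le_card_of_surjective _ (LinearMap.range_eq_top.1 (span_c hU hy ir m0 e
    (W := LinearMap.range (Fintype.linearCombination Z2 fun j => ρ (pm (swap 0 j)) m)) fun σ => ⟨Pi.single (σ 0) 1, by
      rw [Fintype.linearCombination_apply_single, one_smul]
      exact (c_eq hU hy ((by decide +kernel : ∀ σ : P5, Pr 0 ((swap 0 (σ 0))⁻¹ * σ)) σ)).symm⟩))
  rw [c] at this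
  simp at this

/-- a permutation with prescribed first two values -/
def sg (i j : Fin 5) : P5 := swap 0 i * swap 1 (swap 0 i j)
theorem k1 (ir : Irr ρ) (m0 : m ≠ 0) (hU : ∀ a b, a < b → ρ (tv a b) m = m) (hy : ∀ i ≠ 1, ρ (yy i) m = m)
    (e : ρ (yy 1) m = m + (1 : Z2) • ρ (pm (sw 1)) m) : Wg ρ := by
  let b : Fin 5 → Fin 5 → V := fun i j => if i = j then 0 else ρ (pm (sg i j)) m
  have cb : ∀ σ : P5, ρ (pm σ) m = b (σ 0) (σ 1) ∧ ρ (pm σ) m = b (σ 1) (σ 0) := fun σ => by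
    have n : σ 0 ≠ σ 1 := σ.injective.ne (by decide)
    have := (by decide +kernel : ∀ σ : P5, Pr 1 ((sg (σ 0) (σ 1))⁻¹ * σ) ∧ Pr 1 ((sg (σ 1) (σ 0))⁻¹ * σ)) σ
    exact ⟨(c_eq hU hy this.1).trans (if_neg n).symm, (c_eq hU hy this.2).trans (if_neg n.symm).symm⟩
  have ex : ∀ i j : Fin 5, i ≠ j → ∃ σ : P5, σ 0 = i ∧ σ 1 = j := by decide +kernel
  have b0 : ∀ i, b i i = 0 := fun i => if_pos rfl
  have bs : ∀ i j, b i j = b j i := fun i j => by
    by_cases h : i = j
    · rw [h]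
    obtain ⟨σ, rfl, rfl⟩ := ex i j h
    exact (cb σ).1.symm.trans (cb σ).2
  let B := Pi.basisFun Z2 (Fin 5)
  let β : V5 →ₗ[Z2] V5 →ₗ[Z2] V := B.constr Z2 fun i => B.constr Z2 (b i)
  have βb : ∀ i j, β (B i) (B j) = b i j := fun i j => by simp only [β, Module.Basis.constr_basis]
  have sy : ∀ u w, β u w = β w u := fun u w => LinearMap.congr_fun₂ (LinearMap.ext_basis B B fun i j => by
    rw [βb, LinearMap.flip_apply, βb, bs] : β = β.flip) u w
  refine ⟨β, fun u => ?_, sy, span_c hU hy ir m0 e fun σ => Submodule.subset_span ⟨(B _, B _), (βb _ _).trans (cb σ).1.symm⟩,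
    tv_ind _ (fun a d u w => ?_) fun g h h1 h2 u w => by rw [rm, h2, h1, mv_mul, mulVec_mulVec, mulVec_mulVec]⟩
  · induction B.mem_span u using Submodule.span_induction with
    | mem _ h => obtain ⟨i, rfl⟩ := h; rw [βb, b0]
    | zero => rw [map_zero]
    | add x y _ _ h1 h2 => simp only [map_add, LinearMap.add_apply, h1, h2, zero_add, add_zero, sy x y, vv]
    | smul c x _ h => simp only [map_smul, LinearMap.smul_apply, h, smul_zero]
  by_cases ad : a = d
  · have : mv 1 = 1 := rfl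
    simp [ad, tv, this]
  have tb : ∀ j, mv (tv a d) *ᵥ B j = B j + if j = d then B a else 0 := fun j => by
    simp only [B, Pi.basisFun_apply]
    exact (by decide +kernel : ∀ a d j : Fin 5, a ≠ d → mv (tv a d) *ᵥ Pi.single j 1 =
      Pi.single j 1 + if j = d then Pi.single a 1 else 0) a d j ad
  refine LinearMap.congr_fun₂ (LinearMap.ext_basis B B fun i j => ?_ : β.compr₂ (ρ (tv a d)) =
    β.compl₁₂ (mulVecLin (mv (tv a d))) (mulVecLin (mv (tv a d)))) u w
  rw [LinearMap.compr₂_apply, LinearMap.compl₁₂_apply, mulVecLin_apply, mulVecLin_apply, tb, tb, βb]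
  by_cases h : i = j
  · subst h
    split_ifs <;> simp [βb, b0, bs a i, vv]
  obtain ⟨σ, rfl, rfl⟩ := ex i j h
  obtain ⟨a, rfl⟩ := σ.surjective a
  obtain ⟨d, rfl⟩ := σ.surjective d
  rw [← (cb σ).1, tv_c hU hy e, (cb σ).1, (cb (σ * _)).1, one_smul]
  simp only [σ.injective.eq_iff] at ad ⊢
  fin_cases a <;> fin_cases d <;> simp [βb, b0, swap_apply_def] at ad ⊢

/-- the graph automorphism -/
def gr : S5 →* S5 := MonoidHom.mk' (fun g => pm Fin.revPerm * (g⁻¹).transpose * (pm Fin.revPerm)⁻¹) fun g h => by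
  have : ∀ g h : S5, (g * h).transpose = h.transpose * g.transpose := fun g h => Subtype.ext (transpose_mul (mv g) (mv h))
  rw [conj_mul, _root_.mul_inv_rev, this]
theorem gr_tv (a b : Fin 5) : gr (tv a b) = tv b.rev a.rev := by
  change pm _ * (tv a b)⁻¹.transpose * _ = _
  rw [inv_eq_of_mul_eq_one_right (tv_sq a b), (by decide +kernel : ∀ a b, (tv a b).transpose = tv b a), pm_tv,
    mul_inv_cancel_right]; rfl
theorem gr_gr (g : S5) : gr (gr g) = g :=
  tv_ind (fun g => gr (gr g) = g) (fun a b => by simp [gr_tv]) (fun g h h1 h2 => by simp [h1, h2]) g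
theorem gr_y (i : Fin 4) : gr (yy i) = yy i.rev ∧ gr (pm (sw i)) = pm (sw i.rev) := by
  simp [n_eq, xx, yy, gr_tv, Fin.rev_succ, Fin.rev_castSucc]

theorem main [Finite V] (c : Nat.card V = 1024) (ir : Irr ρ) : Wg ρ ∨ Wg (ρ.comp gr) := by
  have : Nontrivial V := Finite.one_lt_card_iff_nontrivial.1 (by omega)
  have : Finite (Module.Dual Z2 V) := Finite.of_injective _ DFunLike.coe_injective
  obtain ⟨f, f0, hf⟩ := exFx ρ.dual
  replace hf : ∀ u ∈ U, ∀ v, f (ρ u v) = f v := fun u hu v => by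
    simpa [Representation.dual_apply, Module.Dual.transpose_apply] using LinearMap.congr_fun (hf _ (inv_mem hu)) v
  obtain ⟨m, m0, h, e⟩ := eig ir f0 hf
  have y0 : ∀ i, T ρ i m ≠ m → ρ (yy i) m = m := fun i n => by
    have k := add0.1 (T_eq (h _ (xU i)) ▸ (e i).resolve_right n)
    have k' := k
    rw [n_eq, rm, rm, h _ (xU i)] at k'
    rw [← k, n_eq', rm, rm, k', ← rm, yy, tv_sq, map_one, Module.End.one_apply]
  have y1 : ∀ i, T ρ i m = m → ρ (yy i) m = m + (1 : Z2) • ρ (pm (sw i)) m := fun i k => by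
    rw [one_smul, ← add0, ← add_assoc, add_rotate, add_rotate, ← T_eq (h _ (xU i)), k, vv]
  have hU : ∀ a b, a < b → ρ (tv a b) m = m := fun a b l => h _ (tv_U l)
  by_cases k : ∃ k, T ρ k m = m
  swap
  · exact (k0 c ir m0 hU (fun i _ => y0 i fun e => k ⟨i, e⟩) (ε := 0) (by simpa using y0 0 fun e => k ⟨0, e⟩)).elim
  obtain ⟨k, hk⟩ := k
  have hy : ∀ i ≠ k, ρ (yy i) m = m := fun i n => y0 i fun d => n (one ir f0 hf c m0 h e d hk)
  have ir' : Irr (ρ.comp gr) := fun W h => ir W fun g v hv => gr_gr g ▸ h (gr g) v hv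
  have hU' : ∀ a b, a < b → (ρ.comp gr) (tv a b) m = m := fun a b l => by
    rw [MonoidHom.comp_apply, gr_tv, hU _ _ (Fin.rev_lt_rev.2 l)]
  have hy' : ∀ i ≠ k.rev, (ρ.comp gr) (yy i) m = m := fun i n => by
    rw [MonoidHom.comp_apply, (gr_y i).1, hy _ (Fin.rev_ne_iff.2 n)]
  have e' : (ρ.comp gr) (yy k.rev) m = m + (1 : Z2) • (ρ.comp gr) (pm (sw k.rev)) m := by
    rw [MonoidHom.comp_apply, MonoidHom.comp_apply, (gr_y _).1, (gr_y _).2, Fin.rev_rev, y1 k hk]
  fin_cases k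
  exacts [(k0 c ir m0 hU hy (y1 _ hk)).elim, .inl (k1 ir m0 hU hy (y1 _ hk)), .inr (k1 ir' m0 hU' hy' e'),
    (k0 c ir' m0 hU' hy' e').elim]

open Subgroup H19 H10.RF in
theorem f0 : F0.{u} := fun {G} _ _ A sq c ⟨e⟩ ir => by
  letI : CommGroup A := { (inferInstance : Group A) with mul_comm := fun a b => Subtype.ext (csq sq a.2 b.2) }
  letI := AddCommGroup.zmodModule (G := Additive A) (n := 2) fun x => (two_nsmul x).trans (Subtype.ext (sq _ x.toMul.2))
  let θ : N(A) →* S5 := e.toMonoidHom.comp (qmk A)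
  let ψ : Quo A →* MulAut A := QuotientGroup.lift _ A.normalizerMonoidHom fun n hn => MulEquiv.ext fun a =>
    Subtype.ext (cjc (cent_le_cent1 a.2 (ab_sq sq hn)))
  let ρ : Representation Z2 S5 (Additive A) :=
    { toFun := fun g => (MonoidHom.toAdditive (ψ (e.symm g)).toMonoidHom).toZModLinearMap 2
      map_one' := by rw [map_one, map_one]; rfl
      map_mul' := fun g h => by rw [map_mul, map_mul]; rfl }
  have hρ : ∀ (n : N(A)) v, ((ρ (θ n) v).toMul : G) = n * (v.toMul : G) * (n : G)⁻¹ := fun n v => by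
    change ((ψ (e.symm (e (qmk A n))) v.toMul : A) : G) = _
    rw [e.symm_apply_apply]; rfl
  have su : Function.Surjective θ := e.surjective.comp (qmk_surj A)
  have key : ∀ τ : S5 →* S5, (∀ g, τ (τ g) = g) → Wg (ρ.comp τ) → ∃ θ β, WG A θ β := fun τ t ⟨β, h1, h2, h3, h4⟩ => by
    refine ⟨τ.comp θ, fun u w => (β u w).toMul, (Function.RightInverse.surjective t).comp su, fun g => ?_,
      fun u u' w => by rw [map_add]; rfl, fun u => by rw [h1]; rfl, fun u w => by rw [h2], fun u w => (β u w).toMul.2,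
      fun a ha => ?_, fun g u w => by rw [← hρ, ← t (θ g)]; exact congrArg (fun v => ((Additive.toMul v : A) : G)) (h4 _ u w)⟩
    · rw [MonoidHom.comp_apply, map_eq_one_iff _ (Function.LeftInverse.injective t), ← qmk_eq_one]
      exact map_eq_one_iff _ e.injective
    have : ∀ v ∈ Submodule.span Z2 (Set.range fun p : V5 × V5 => β p.1 p.2),
        (v.toMul : G) ∈ closure (Set.range fun p : V5 × V5 => ((β p.1 p.2).toMul : G)) := fun v hv => by
      induction hv using Submodule.span_induction with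
      | mem _ h => obtain ⟨p, rfl⟩ := h; exact subset_closure ⟨p, rfl⟩
      | zero => exact one_mem _
      | add x y _ _ h1 h2 => exact mul_mem h1 h2
      | smul c x _ h =>
        by_cases k : c = 0
        · rw [k, zero_smul]; exact one_mem _
        · rwa [z2 c k, one_smul]
    exact this (.ofMul ⟨a, ha⟩) (h3.ge Submodule.mem_top)
  refine (main (ρ := ρ) c fun W h => ?_).elim (key (.id _) fun _ => rfl) (key gr gr_gr)
  let W' : Subgroup G := (AddSubgroup.toSubgroup' W.toAddSubgroup).map A.subtype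
  refine (ir W' (map_subtype_le _) fun n hn => mem_norm_of_cj_le fun y hy => ?_).imp
    (fun k => eq_bot_iff.2 fun v hv => Subtype.ext (k.le ⟨v.toMul, hv, rfl⟩)) fun k => eq_top_iff.2 fun v _ => ?_
  · obtain ⟨_, ⟨v, hv, rfl⟩, rfl⟩ := mem_cj'.1 hy
    exact ⟨_, h (θ ⟨n, hn⟩) (.ofMul v) hv, hρ _ _⟩
  · obtain ⟨v', hv, k⟩ := k.ge v.toMul.2
    exact (show Additive.ofMul v' = v from Subtype.ext k) ▸ hv

end H8.RG
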