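import Cfsg.Agent.H8.SB7
import Cfsg.Agent.H17.PermMod

/-!
Weight vectors for groups with a split BN-pair in the defining characteristic (Curtis, Richen).
-/

namespace H8

open H28 Cfsg Module

theorem exists_common_eigenvector {k V α : Type*} [Field k] [IsAlgClosed k] [AddCommGroup V] [Module k V]
    [FiniteDimensional k V] (f : α → End k V) (hc : ∀ a b v, f a (f b v) = f b (f a v)) (W : Submodule k V)
    (hW : W ≠ ⊥) (hf : ∀ a, ∀ v ∈ W, f a v ∈ W) : ∃ v ∈ W, v ≠ 0 ∧ ∀ a, ∃ c : k, f a v = c • v := by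
  obtain ⟨W₀, ⟨h0, h1, h2⟩, hm⟩ := (wellFounded_lt (α := Submodule k V)).has_min
    {X | X ≤ W ∧ X ≠ ⊥ ∧ ∀ a, ∀ v ∈ X, f a v ∈ X} ⟨W, le_rfl, hW, hf⟩
  obtain ⟨v, hv, hne⟩ := (Submodule.ne_bot_iff _).1 h1
  refine ⟨v, h0 hv, hne, fun a => ?_⟩
  have : Nontrivial W₀ := Submodule.nontrivial_iff_ne_bot.2 h1
  obtain ⟨c, hc'⟩ := End.exists_eigenvalue ((f a).restrict (h2 a))
  obtain ⟨⟨w, hw⟩, h3, h4⟩ := hc'.exists_hasEigenvector
  have h5 : f a w = c • w := congrArg Subtype.val (End.mem_eigenspace_iff.1 h3)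
  have : W₀ ⊓ (f a).eigenspace c = W₀ := by
    by_contra h
    refine hm (W₀ ⊓ (f a).eigenspace c) ⟨inf_le_left.trans h0, (Submodule.ne_bot_iff _).2
      ⟨w, ⟨hw, End.mem_eigenspace_iff.2 h5⟩, fun e => h4 (Subtype.ext e)⟩, fun b x hx => ⟨h2 b x hx.1, ?_⟩⟩
      (lt_of_le_of_ne inf_le_left h)
    rw [SetLike.mem_coe, End.mem_eigenspace_iff, hc, End.mem_eigenspace_iff.1 hx.2, map_smul]
  exact ⟨c, End.mem_eigenspace_iff.1 (this.ge hv).2⟩

namespace SB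

open Classical

variable {p : ℕ} {G : Type*} [Group G] [Fintype G] {κ : Type*} (S : SB p G κ) {k : Type*} [Field k]
  {V : Type*} [AddCommGroup V] [Module k V]

/-- the operators `T_i` -/
noncomputable def Tv (ρ : G →* End k V) (i : κ) (v : V) : V := ∑ x : S.X i, ρ (x * S.s i) v

/-- weight vectors -/
structure Wv (ρ : G →* End k V) (χ : S.H →* kˣ) (μ : κ → k) (v : V) : Prop where
  fix : ∀ u ∈ S.U, ρ u v = v
  tor : ∀ h : S.H, ρ h v = (χ h : k) • v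
  T : ∀ i, S.Tv ρ i v = μ i • v

/-- spherical functions -/
structure Gd (χ : S.H →* kˣ) (μ : κ → k) (φ : G → k) : Prop where
  left : ∀ u ∈ S.U, ∀ g, φ (u * g) = φ g
  right : ∀ u ∈ S.U, ∀ g, φ (g * u) = φ g
  tor : ∀ (h : S.H) g, φ (g * h) = χ h * φ g
  T : ∀ i g, ∑ x : S.X i, φ (g * x * S.s i) = μ i * φ g

/-- torus parts of the rank one Bruhat decomposition -/
def IsEta (η : κ → G → S.H) : Prop :=
  ∀ i, ∀ y ∈ S.X i, y ≠ 1 → ∃ a ∈ S.X i, ∃ b ∈ S.U, S.s i * y * S.s i = a * S.s i * η i y * b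

/-- the nonzero eigenvalue of `T_i` -/
noncomputable def cv (η : κ → G → S.H) (χ : S.H →* kˣ) (i : κ) : k :=
  ∑ y : S.X i with y ≠ 1, (χ (η i y) : k)

variable {S} {ρ : G →* End k V} {χ : S.H →* kˣ} {μ : κ → k} {φ ψ : G → k} {v : V} {η : κ → G → S.H}
  {i : κ} {n g : G}

omit [Fintype G] in
theorem exists_isEta (S : SB p G κ) : ∃ η, S.IsEta η := by
  have : ∀ i y, ∃ h : S.H, y ∈ S.X i → y ≠ 1 → ∃ a ∈ S.X i, ∃ b ∈ S.U, S.s i * y * S.s i = a * S.s i * h * b := by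
    intro i y
    by_cases hy : y ∈ S.X i ∧ y ≠ 1
    · obtain ⟨a, ha, h, hh, b, hb, e⟩ := S.rank1 i y hy.1 hy.2
      refine ⟨⟨_, mul_mem (S.s_sq i) hh⟩, fun _ _ => ⟨_, H_X' (S.s_sq i) ha, b, S.X_le i hb, ?_⟩⟩
      rw [show S.s i * y * S.s i = S.s i * S.s i * ((S.s i)⁻¹ * y * S.s i) by group, e]
      group
    · exact ⟨1, fun a b => absurd ⟨a, b⟩ hy⟩
  choose η hη using this
  exact ⟨η, fun i y => hη i y⟩

theorem Tv_smul (c : k) : S.Tv ρ i (c • v) = c • S.Tv ρ i v := by simp [Tv, Finset.smul_sum]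

theorem X_mul_Tv {a : G} (ha : a ∈ S.X i) : ρ a (S.Tv ρ i v) = S.Tv ρ i v := by
  rw [Tv, map_sum]
  exact Fintype.sum_equiv (Equiv.mulLeft ⟨a, ha⟩) _ _ fun x => by simp [mul_assoc]

variable [Fact p.Prime] [CharP k p]

theorem card_X_eq_zero (i : κ) : (Fintype.card (S.X i) : k) = 0 := by
  rw [CharP.cast_eq_zero_iff k p, ← Nat.card_eq_fintype_card]
  exact ((S.pU.to_le (S.X_le i)).card_eq_or_dvd.resolve_left fun h => S.X_ne i (Subgroup.card_eq_one.1 h))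

theorem Tv_Tv (hη : S.IsEta η) (h1 : ∀ u ∈ S.U, ρ u v = v) (h2 : ∀ h : S.H, ρ h v = (χ h : k) • v) (i : κ) :
    S.Tv ρ i (S.Tv ρ i v) = S.cv η χ i • S.Tv ρ i v := by
  have e1 : S.Tv ρ i (S.Tv ρ i v) = ∑ y : S.X i, ∑ x : S.X i, ρ x (ρ (S.s i * y * S.s i) v) := by
    rw [Finset.sum_comm, Tv]
    refine Finset.sum_congr rfl fun x _ => ?_
    rw [Tv, map_sum]
    simp [mul_assoc]
  rw [e1, ← Finset.sum_filter_add_sum_filter_not _ (· = 1), cv, Finset.sum_smul, Finset.filter_eq', if_pos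
    (Finset.mem_univ _), Finset.sum_singleton]
  have e2 : ∀ x : S.X i, ρ x (ρ (S.s i * (1 : S.X i) * S.s i) v) = (χ ⟨_, S.s_sq i⟩ : k) • v := fun x => by
    rw [OneMemClass.coe_one, mul_one, h2 ⟨_, S.s_sq i⟩, map_smul, h1 _ (S.X_le i x.2)]
  simp only [e2, Finset.sum_const, Finset.card_univ]
  rw [← Nat.cast_smul_eq_nsmul k, card_X_eq_zero, zero_smul, zero_add]
  refine Finset.sum_congr rfl fun y hy => ?_
  obtain ⟨a, ha, b, hb, e⟩ := hη i y y.2 (by simpa using hy)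
  rw [e, ← Tv_smul, Tv]
  refine Fintype.sum_equiv (Equiv.mulRight ⟨a, ha⟩) _ _ fun x => ?_
  simp [h1 b hb, h2]

theorem Wv.cases (hη : S.IsEta η) (h : S.Wv ρ χ μ v) (hv : v ≠ 0) (i : κ) : μ i = 0 ∨ μ i = S.cv η χ i := by
  have := Tv_Tv hη h.fix h.tor i
  rw [h.T, Tv_smul, h.T, smul_smul, smul_smul, ← sub_eq_zero, ← sub_smul, smul_eq_zero, or_iff_left hv,
    ← sub_mul, mul_eq_zero, sub_eq_zero] at this
  exact this.symm

omit [Fact p.Prime] [CharP k p] in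
theorem Wv.gd (h : S.Wv ρ χ μ v) {l : Dual k V} (hl : ∀ u ∈ S.U, ∀ w, l (ρ u w) = l w) :
    S.Gd χ μ fun g => l (ρ g v) where
  left u hu g := by simp [hl u hu]
  right u hu g := by simp [h.fix u hu]
  tor t g := by simp [h.tor]
  T i g := by
    have := congrArg (fun w => l (ρ g w)) (h.T i)
    simpa [Tv, mul_assoc] using this

omit [Fact p.Prime] [CharP k p] in
theorem Gd.sub (h : S.Gd χ μ φ) (h' : S.Gd χ μ ψ) (a b : k) : S.Gd χ μ fun g => a * φ g - b * ψ g where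
  left u hu g := by rw [h.left u hu, h'.left u hu]
  right u hu g := by rw [h.right u hu, h'.right u hu]
  tor t g := by rw [h.tor, h'.tor]; ring
  T i g := by rw [Finset.sum_sub_distrib, ← Finset.mul_sum, ← Finset.mul_sum, h.T, h'.T]; ring

omit [Fact p.Prime] [CharP k p] in
theorem Gd.mul_B (h : S.Gd χ μ φ) (h0 : φ g = 0) {b : G} (hb : b ∈ S.B) : φ (g * b) = 0 := by
  obtain ⟨u, hu, t, ht, rfl⟩ := mem_B.1 hb
  rw [← mul_assoc, h.tor ⟨t, ht⟩, h.right u hu, h0, mul_zero]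

omit [CharP k p] in
theorem Gd.eq_zero (h : S.Gd χ μ φ) (h0 : φ S.n0 = 0) (g : G) : φ g = 0 := by
  have key : ∀ m ∈ S.N, φ (S.n0 * m⁻¹) = 0 := fun m hm => by
    refine N_induction (P := fun m => φ (S.n0 * m⁻¹) = 0) (fun t ht => h.mul_B h0 (H_le_B (inv_mem ht))) ?_ hm
    intro m hm i hi h1
    have hs := mul_mem (S.s_mem i) hm
    have h2 : S.Pos (S.s i * m * S.n0⁻¹) i := by
      rw [show S.s i * m * S.n0⁻¹ = S.s i * m * S.n0 * (S.n0 * S.n0)⁻¹ by group, pos_mul_H (inv_mem n0_sq),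
        pos_mul_n0 hs]
      exact not_pos_s_mul hm hi
    have h3 : φ (S.n0 * (S.s i * m)⁻¹ * (S.s i)⁻¹) = 0 := by
      have := h.mul_B h1 (H_le_B (inv_mem (S.s_sq i)))
      rwa [show S.n0 * m⁻¹ * (S.s i * S.s i)⁻¹ = S.n0 * (S.s i * m)⁻¹ * (S.s i)⁻¹ by group] at this
    have h4 := h.T i (S.n0 * (S.s i * m)⁻¹ * (S.s i)⁻¹)
    rw [h3, mul_zero, Finset.sum_eq_single 1 (fun x _ hx => ?_) (by simp)] at h4
    · simpa using h4
    obtain ⟨y, hy, b, hb, e⟩ := cell_s_iff.1 (cell_s_conj x.2 (by simpa using hx))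
    have := h.mul_B ((h.left _ (h2 y hy) _).trans h1) hb
    rwa [show (S.s i * m * S.n0⁻¹)⁻¹ * y * (S.s i * m * S.n0⁻¹) * (S.n0 * m⁻¹) * b =
      S.n0 * (S.s i * m)⁻¹ * (y * S.s i * b) by group, ← e, ← mul_assoc, ← mul_assoc] at this
  obtain ⟨u, hu, n, hn, w, hw, rfl⟩ := S.bruhat g
  rw [h.right w hw, h.left u hu]
  simpa using key (n⁻¹ * S.n0) (mul_mem (inv_mem hn) S.n0_mem)

section Tn

variable (S ρ) in
/-- sums over double cosets -/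
noncomputable def Tn (n : G) (v : V) : V :=
  ∑ c : G ⧸ S.U with ∃ u ∈ S.U, c = ((u * n : G) : G ⧸ S.U), ρ c.out v

omit [Fact p.Prime] [CharP k p] [Fintype G] in
theorem out_smul (h1 : ∀ u ∈ S.U, ρ u v = v) (g : G) (c : G ⧸ S.U) : ρ (g • c).out v = ρ g (ρ c.out v) := by
  obtain ⟨u, hu⟩ := QuotientGroup.mk_out_eq_mul S.U (g * c.out)
  rw [← smul_eq_mul, ← MulAction.Quotient.smul_mk, QuotientGroup.out_eq'] at hu
  rw [hu]
  simp [h1 u u.2]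

omit [Fact p.Prime] [CharP k p] in
theorem Tn_one (h1 : ∀ u ∈ S.U, ρ u v = v) : S.Tn ρ 1 v = v := by
  rw [Tn, Finset.sum_eq_single ((1 : G) : G ⧸ S.U)]
  · obtain ⟨u, hu⟩ := QuotientGroup.mk_out_eq_mul S.U (1 : G)
    rw [hu, one_mul, h1 u u.2]
  · rintro c hc hne
    obtain ⟨u, hu, rfl⟩ := (Finset.mem_filter.1 hc).2
    exact absurd (QuotientGroup.eq.2 (by simpa using hu)) hne
  · intro h
    exact absurd (Finset.mem_filter.2 ⟨Finset.mem_univ _, 1, one_mem _, by simp⟩) h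

omit [Fact p.Prime] [CharP k p] in
theorem B_Tn (h1 : ∀ u ∈ S.U, ρ u v = v) {b : G} (hb : b ∈ S.B) : ρ b (S.Tn ρ n v) = S.Tn ρ (b * n) v := by
  rw [Tn, Tn, map_sum]
  refine Finset.sum_equiv (MulAction.toPerm b) (fun c => ?_) fun c _ => (out_smul h1 b c).symm
  simp only [Finset.mem_filter, Finset.mem_univ, true_and, MulAction.toPerm_apply]
  constructor
  · rintro ⟨u, hu, rfl⟩
    exact ⟨b * u * b⁻¹, by simpa using B_cin_U (inv_mem hb) u hu, by simp [mul_assoc]⟩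
  · rintro ⟨u, hu, e⟩
    exact ⟨b⁻¹ * u * b, B_cin_U hb u hu, by rw [← inv_smul_smul b c, e]; simp [mul_assoc]⟩

omit [Fact p.Prime] [CharP k p] in
theorem Tn_U_mul {u : G} (hu : u ∈ S.U) : S.Tn ρ (u * n) v = S.Tn ρ n v := by
  rw [Tn, Tn]
  congr 2
  ext c
  exact ⟨fun ⟨a, ha, e⟩ => ⟨a * u, mul_mem ha hu, by rw [e, mul_assoc]⟩,
    fun ⟨a, ha, e⟩ => ⟨a * u⁻¹, mul_mem ha (inv_mem hu), by rw [e]; simp [mul_assoc]⟩⟩

omit [Fact p.Prime] [CharP k p] in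
theorem Tn_mul_H (h1 : ∀ u ∈ S.U, ρ u v = v) (h2 : ∀ h : S.H, ρ h v = (χ h : k) • v) (t : S.H) :
    S.Tn ρ (n * t) v = (χ t : k) • S.Tn ρ n v := by
  have hf : ∀ a : G, ρ (a : G ⧸ S.U).out v = ρ a v := fun a => by
    obtain ⟨u, hu⟩ := QuotientGroup.mk_out_eq_mul S.U a
    simp [hu, h1 u u.2]
  have hq : ∀ s : S.H, ∀ a b : G, (a : G ⧸ S.U) = b → ((a * s : G) : G ⧸ S.U) = (b * s : G) := fun s a b e => by
    rw [QuotientGroup.eq] at e ⊢
    simpa [mul_assoc] using S.H_U s s.2 _ e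
  rw [Tn, Tn, Finset.smul_sum]
  symm
  refine Finset.sum_nbij' (fun c => ((c.out * t : G) : G ⧸ S.U)) (fun c => ((c.out * (t⁻¹ : S.H) : G) : G ⧸ S.U)) ?_ ?_ ?_ ?_ ?_
  · intro c hc
    obtain ⟨u, hu, rfl⟩ := (Finset.mem_filter.1 hc).2
    exact Finset.mem_filter.2 ⟨Finset.mem_univ _, u, hu, by rw [hq t _ _ (QuotientGroup.out_eq' _), mul_assoc]⟩
  · intro c hc
    obtain ⟨u, hu, rfl⟩ := (Finset.mem_filter.1 hc).2
    exact Finset.mem_filter.2 ⟨Finset.mem_univ _, u, hu, by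
      rw [hq _ _ _ (QuotientGroup.out_eq' _)]; simp [mul_assoc]⟩
  · intro c _
    rw [hq _ _ _ (QuotientGroup.out_eq' _)]; simp
  · intro c _
    rw [hq _ _ _ (QuotientGroup.out_eq' _)]; simp
  · intro c _
    simp [hf, h2]

omit [CharP k p] in
theorem Tv_Tn (h1 : ∀ u ∈ S.U, ρ u v = v) (hn : n ∈ S.N) (hi : S.Pos n i) :
    S.Tv ρ i (S.Tn ρ n v) = S.Tn ρ (S.s i * n) v := by
  simp only [Tv, Tn, map_sum]
  rw [← Finset.sum_product']
  refine Finset.sum_bij (fun a _ => (a.1 * S.s i : G) • a.2) ?_ ?_ ?_ fun a _ => (out_smul h1 _ _).symm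
  · rintro ⟨x, c⟩ ha
    obtain ⟨u, hu, rfl⟩ := (Finset.mem_filter.1 (Finset.mem_product.1 ha).2).2
    obtain ⟨w, hw, y, hy, rfl⟩ := exists_VX i hu
    refine Finset.mem_filter.2 ⟨Finset.mem_univ _, x * (S.s i * w * (S.s i)⁻¹), mul_mem (S.X_le i x.2)
      (V_le (by simpa using s_inv_cin_V w hw)), QuotientGroup.eq.2 ?_⟩
    simpa [mul_assoc] using inv_mem (hi y hy)
  · rintro ⟨x, c⟩ ha ⟨x', c'⟩ ha' e
    obtain ⟨u, hu, rfl⟩ := (Finset.mem_filter.1 (Finset.mem_product.1 ha).2).2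
    obtain ⟨u', hu', rfl⟩ := (Finset.mem_filter.1 (Finset.mem_product.1 ha').2).2
    have hx : x = x' := by
      by_contra hne
      have h2 := (cell_s_conj (mul_mem (inv_mem x'.2) x.2) fun e => hne (Subtype.ext (inv_mul_eq_one.1 e).symm)).mul
        hn hi (cell_self.U_mul hu)
      have h3 : S.Cell n ((S.s i)⁻¹ * (x'⁻¹ * x) * S.s i * (u * n)) := by
        have := (cell_self (S := S) (n := n)).U_mul hu' |>.mul_B (U_le_B (QuotientGroup.eq.1 e.symm))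
        simpa [mul_assoc] using this
      exact not_pos_s_mul hn hi (h3.pos (mul_mem (S.s_mem i) hn) h2 hi)
    subst hx
    exact Prod.ext rfl (MulAction.injective _ e)
  · intro c hc
    obtain ⟨u, hu, rfl⟩ := (Finset.mem_filter.1 hc).2
    obtain ⟨y, hy, w, hw, rfl⟩ := exists_XV i hu
    exact ⟨(⟨y, hy⟩, (((S.s i)⁻¹ * w * S.s i * n : G) : G ⧸ S.U)), Finset.mem_product.2 ⟨Finset.mem_univ _,
      Finset.mem_filter.2 ⟨Finset.mem_univ _, _, (mem_V.1 hw).2, rfl⟩⟩, by simp [mul_assoc]⟩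

end Tn

theorem exists_wv [IsAlgClosed k] [FiniteDimensional k V] [Nontrivial V] (S : SB p G κ) (ρ : G →* End k V) :
    ∃ χ μ v, v ≠ 0 ∧ S.Wv ρ χ μ v := by
  obtain ⟨η, hη⟩ := S.exists_isEta
  let W : Submodule k V := ⟨⟨⟨{v | ∀ u ∈ S.U, ρ u v = v}, fun ha hb u hu => by rw [map_add, ha u hu, hb u hu]⟩,
    fun u _ => map_zero _⟩, fun c x hx u hu => by rw [map_smul, hx u hu]⟩
  obtain ⟨v₀, -, h0, h1⟩ := H17.exists_fixed_vec ρ S.U S.pU ⊤ (fun _ _ _ _ => trivial) top_ne_bot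
  obtain ⟨v, hv, hne, h2⟩ := exists_common_eigenvector (fun h : S.H => ρ h) (fun a b v => by
    rw [← End.mul_apply, ← map_mul, S.commH a a.2 b b.2, map_mul, End.mul_apply]) W
    ((Submodule.ne_bot_iff _).2 ⟨v₀, h1, h0⟩) (fun a v hv u hu => by
      have := hv _ (S.H_U a a.2 u hu)
      conv_rhs => rw [← this]
      simp [← End.mul_apply, ← map_mul, mul_assoc])
  have mk : ∀ w, w ≠ 0 → (∀ t : S.H, ∃ c : k, ρ t w = c • w) → ∃ χ : S.H →* kˣ, ∀ t : S.H, ρ t w = (χ t : k) • w := by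
    intro w hw h
    choose c hc using h
    refine ⟨MonoidHom.toHomUnits ⟨⟨c, smul_left_injective k hw ?_⟩, fun a b => smul_left_injective k hw ?_⟩, hc⟩
    · simp [← hc]
    · simp only [← hc, Subgroup.coe_mul, map_mul, End.mul_apply, mul_smul]
      rw [hc b, map_smul, hc a, smul_comm]
  obtain ⟨χ, hχ⟩ := mk v hne h2
  have h3 : ∀ n, ∀ u ∈ S.U, ρ u (S.Tn ρ n v) = S.Tn ρ n v := fun n u hu => by
    rw [B_Tn hv (U_le_B hu), Tn_U_mul hu]
  have h4 : ∀ n ∈ S.N, ∀ t : S.H, ∃ c : k, ρ t (S.Tn ρ n v) = c • S.Tn ρ n v := fun n hn t =>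
    ⟨_, by rw [B_Tn hv (H_le_B t.2), ← Tn_mul_H hv hχ ⟨_, S.N_H n hn t t.2⟩]; simp [mul_assoc]⟩
  obtain ⟨n, ⟨hn, h5⟩, hm⟩ := (measure fun n => Nat.card (S.D n)).wf.has_min {n | n ∈ S.N ∧ S.Tn ρ n v ≠ 0}
    ⟨1, one_mem _, by rwa [Tn_one hv]⟩
  obtain ⟨χ', hχ'⟩ := mk _ h5 (h4 n hn)
  have h6 : ∀ i, ∃ c : k, S.Tv ρ i (S.Tn ρ n v) = c • S.Tn ρ n v := fun i => by
    by_cases hi : S.Pos n i
    · refine ⟨0, ?_⟩
      rw [Tv_Tn hv hn hi, zero_smul]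
      by_contra h
      exact hm _ ⟨mul_mem (S.s_mem i) hn, h⟩ (card_D_lt hn hi)
    · have hn' := mul_mem (inv_mem (S.s_mem i)) hn
      have e := Tv_Tn (ρ := ρ) hv hn' (pos_s_inv_mul.2 ((pos_s_mul hn).2 hi))
      rw [mul_inv_cancel_left] at e
      obtain ⟨χ'', h7⟩ := mk (S.Tn ρ ((S.s i)⁻¹ * n) v) (fun h => h5 (by rw [← e, h]; simp [Tv])) (h4 _ hn')
      exact ⟨_, by rw [← e, Tv_Tv hη (h3 _) h7]⟩
  choose μ hμ using h6
  exact ⟨χ', μ, _, h5, h3 n, hχ', hμ⟩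

end SB

end H8
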