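import Cfsg.Agent.H8.CR1
import Cfsg.Agent.H21.Mod3
import Cfsg.Agent.H7.Quot

/-!
The number of `p`-regular classes of a group with a split BN-pair of characteristic `p` is the number of weights.
-/

namespace H8

open H28 Cfsg Module MonoidAlgebra H21 H5 H7

section Wed

variable {G : Type*} [Group G] {p : ℕ} {M : Ideal AlgInt} (W : Wed G M)

theorem wed_L_eq [Finite G] (hM : IsPModular p M) :
    W.L = Nat.card {c : ConjClasses G // ∃ g, ConjClasses.mk g = c ∧ (orderOf g).Coprime p} := by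
  classical
  set T := {c : ConjClasses G // ∃ g, ConjClasses.mk g = c ∧ (orderOf g).Coprime p}
  have := Fintype.ofFinite T
  choose r hr hr' using fun c : T => c.2
  have hc : ∀ g : G, (orderOf g).Coprime p ↔ ¬ p ∣ orderOf g := fun g => by
    rw [Nat.coprime_comm, hM.1.coprime_iff_not_dvd]
  have ho : ∀ g h : G, orderOf (h * g * h⁻¹) = orderOf g := fun g h =>
    (SemiconjBy.orderOf_eq h (by simp [SemiconjBy])).symm
  have hk : ∀ g h : G, ConjClasses.mk (h * g * h⁻¹) = ConjClasses.mk g := fun g h =>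
    ConjClasses.mk_eq_mk_iff_isConj.2 (isConj_iff.2 ⟨h, rfl⟩).symm
  let b : Fin W.L → T → ℂ := fun j c => W.φ hM j (r c)
  have h1 : LinearIndependent ℂ b := by
    refine Fintype.linearIndependent_iff.2 fun a ha => Fintype.linearIndependent_iff.1 (W.linearIndependent_φ hM) a ?_
    ext g
    simp only [Finset.sum_apply, Pi.smul_apply, Pi.zero_apply]
    by_cases hg : p ∣ orderOf g
    · exact Finset.sum_eq_zero fun j _ => by rw [← W.rp_φ hM j, rp_of_dvd _ hg, smul_zero]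
    · have e := congrFun ha ⟨_, g, rfl, (hc g).2 hg⟩
      obtain ⟨h, hh⟩ := isConj_iff.1 (ConjClasses.mk_eq_mk_iff_isConj.1 (hr ⟨_, g, rfl, (hc g).2 hg⟩))
      simp only [Finset.sum_apply, Pi.smul_apply, Pi.zero_apply, b] at e
      rw [← e]
      exact Finset.sum_congr rfl fun j _ => by rw [← W.isClassFunction_φ hM j (r _) h, hh]
  have h2 : ⊤ ≤ Submodule.span ℂ (Set.range b) := by
    intro f _
    let τ : G → ℂ := fun g => if h : (orderOf g).Coprime p then f ⟨_, g, rfl, h⟩ else 0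
    have hτ : IsClassFunction G τ := fun g h => by simp only [τ, ho, hk]
    refine (Submodule.mem_span_range_iff_exists_fun ℂ).2 ⟨fun j => ev τ (W.i j), funext fun c => ?_⟩
    have := congrFun (W.rp_eq_sum_φ hM hτ) (r c)
    rw [rp_of_reg _ ((hc _).1 (hr' c))] at this
    simp only [Finset.sum_apply, Pi.smul_apply, τ, dif_pos (hr' c), hr] at this ⊢
    exact this.symm
  have := finrank_eq_card_basis (Basis.mk h1 h2)
  rw [finrank_pi, Fintype.card_fin] at this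
  rw [Nat.card_eq_fintype_card, this]

/-- the simple modules -/
noncomputable def wedA (j : Fin W.L) : (kk M)[G] →ₐ[kk M] End (kk M) (Fin (W.n j) → kk M) :=
  Matrix.toLinAlgEquiv'.toAlgHom.comp ((Pi.evalAlgHom (kk M) _ j).comp W.π)

/-- the simple modules as representations -/
noncomputable def wedR (j : Fin W.L) : G →* End (kk M) (Fin (W.n j) → kk M) :=
  (wedA W j).toMonoidHom.comp (of (kk M) G)

variable {W}

theorem wedR_apply (j : Fin W.L) (g : G) : wedR W j g = wedA W j (of (kk M) G g) := rfl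

theorem wedA_apply (j : Fin W.L) (a : (kk M)[G]) (v : Fin (W.n j) → kk M) : wedA W j a v = (W.π a j).mulVec v := rfl

theorem wed_dense {j : Fin W.L} {l : Dual (kk M) (Fin (W.n j) → kk M)} {v : Fin (W.n j) → kk M} (hl : l ≠ 0)
    (hv : v ≠ 0) : ∃ a, l (wedA W j a v) ≠ 0 ∧ ∀ j', j' ≠ j → wedA W j' a = 0 := by
  classical
  obtain ⟨w, hw⟩ := DFunLike.ne_iff.1 hl
  obtain ⟨m, hm⟩ := not_forall.1 (mt (forall_dual_apply_eq_zero_iff (kk M) v).1 hv)
  obtain ⟨a, ha⟩ := W.surj (Pi.single j (LinearMap.toMatrix' (m.smulRight w)))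
  refine ⟨a, ?_, fun j' h => LinearMap.ext fun x => ?_⟩
  · rw [wedA_apply, ha, Pi.single_eq_same, LinearMap.toMatrix'_mulVec]
    simpa [hm] using hw
  · rw [wedA_apply, ha, Pi.single_eq_of_ne h]
    simp

theorem lin_eq_zero {k : Type*} [Field k] (f : k[G] →ₗ[k] k) (h : ∀ g, f (of k G g) = 0) (a : k[G]) : f a = 0 := by
  induction a using MonoidAlgebra.induction_on with
  | of g => exact h g
  | add a b ha hb => rw [map_add, ha, hb, add_zero]
  | smul c a ha => rw [map_smul, ha, smul_zero]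

/-- matrix coefficients -/
noncomputable def coefA (j : Fin W.L) (l : Dual (kk M) (Fin (W.n j) → kk M)) (v : Fin (W.n j) → kk M) :
    (kk M)[G] →ₗ[kk M] kk M := l ∘ₗ LinearMap.applyₗ v ∘ₗ (wedA W j).toLinearMap

theorem exists_coef_ne {j : Fin W.L} {l : Dual (kk M) (Fin (W.n j) → kk M)} {v : Fin (W.n j) → kk M} (hl : l ≠ 0)
    (hv : v ≠ 0) : ∃ g, l (wedR W j g v) ≠ 0 := by
  by_contra h
  push Not at h
  obtain ⟨a, ha, -⟩ := wed_dense hl hv
  exact ha (lin_eq_zero (coefA j l v) h a)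

theorem exists_common_ker {I : Ideal (kk M)[G]} (hI : I ≠ ⊤) :
    ∃ j, ∃ v : Fin (W.n j) → kk M, v ≠ 0 ∧ ∀ a ∈ I, wedA W j a v = 0 := by
  obtain ⟨e, he, h⟩ := IsSemisimpleRing.ideal_eq_span_idempotent (I.map W.π)
  have h1 : e ≠ 1 := by
    rintro rfl
    obtain ⟨a, ha, e⟩ := (Ideal.mem_map_iff_of_surjective W.π W.surj).1 (h.ge (Ideal.subset_span rfl))
    have := (W.nil (1 - a) (by rw [map_sub, e, map_one, sub_self])).isUnit_one_sub
    exact hI (Ideal.eq_top_of_isUnit_mem _ ha (by simpa using this))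
  obtain ⟨j, hj⟩ := Function.ne_iff.1 h1
  obtain ⟨w, hw⟩ : ∃ w, (1 - e j).mulVec w ≠ 0 := by
    by_contra h
    push Not at h
    exact hj (sub_eq_zero.1 (Matrix.ext_of_mulVec_single fun i => (h _).trans (Matrix.zero_mulVec _).symm)).symm
  refine ⟨j, _, hw, fun a ha => ?_⟩
  obtain ⟨b, hb⟩ := Ideal.mem_span_singleton'.1 (h ▸ Ideal.mem_map_of_mem W.π ha)
  rw [wedA_apply, ← hb, Matrix.mulVec_mulVec, Pi.mul_apply, mul_assoc, mul_sub, mul_one,
    show e j * e j = e j from congrFun he j, sub_self, mul_zero, Matrix.zero_mulVec]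

end Wed

namespace SB

open Classical

variable {p : ℕ} {G : Type*} [Group G] [Fintype G] {κ : Type*} {S : SB p G κ} {M : Ideal AlgInt} {W : Wed G M}
  {χ χ' : S.H →* (kk M)ˣ} {μ μ' : κ → kk M} [Fact p.Prime] [CharP (kk M) p]

instance wed_nontrivial (j : Fin W.L) : Nontrivial (Fin (W.n j) → kk M) :=
  have : Nonempty (Fin (W.n j)) := ⟨W.o j⟩
  inferInstance

theorem Wv.weight_eq {j : Fin W.L} {v v' : Fin (W.n j) → kk M} (h : S.Wv (wedR W j) χ μ v)
    (h' : S.Wv (wedR W j) χ' μ' v') (hv : v ≠ 0) (hv' : v' ≠ 0) : χ = χ' ∧ μ = μ' := by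
  obtain ⟨χ₀, μ₀, l, hl, h0⟩ := S.exists_wv (Representation.dual (wedR W j))
  have key : ∀ w, (∀ u ∈ S.U, wedR W j u w = w) → l (wedR W j S.n0⁻¹ w) = 0 → w = 0 := fun w hw e => by
    by_contra hne
    obtain ⟨g, hg⟩ := exists_coef_ne hl hne
    refine hg ?_
    simpa [Dual.transpose_apply] using (h0.gd (l := Dual.eval _ _ w) fun u hu f => by
      simp [Dual.transpose_apply, hw _ (inv_mem hu)]).eq_zero e g⁻¹
  have h1 := mt (key v h.fix) hv
  have h2 := key (l (wedR W j S.n0⁻¹ v') • v - l (wedR W j S.n0⁻¹ v) • v')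
    (fun u hu => by simp [h.fix u hu, h'.fix u hu]) (by simp [mul_comm])
  obtain ⟨c, rfl⟩ : ∃ c : kk M, v' = c • v := ⟨(l (wedR W j S.n0⁻¹ v))⁻¹ * l (wedR W j S.n0⁻¹ v'), by
    rw [mul_smul, sub_eq_zero.1 h2, smul_smul, inv_mul_cancel₀ h1, one_smul]⟩
  refine ⟨MonoidHom.ext fun t => Units.ext (smul_left_injective _ hv' ?_),
    funext fun i => smul_left_injective _ hv' ?_⟩
  · simp only [← h'.tor, map_smul, h.tor]
    rw [smul_comm]
  · simp only [← h'.T, Tv_smul, h.T]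
    rw [smul_comm]

theorem exists_fixed_dual (S : SB p G κ) (j : Fin W.L) : ∃ l : Dual (kk M) (Fin (W.n j) → kk M), l ≠ 0 ∧
    ∀ u ∈ S.U, ∀ w, l (wedR W j u w) = l w := by
  obtain ⟨χ₀, μ₀, l, hl, h0⟩ := S.exists_wv (Representation.dual (wedR W j))
  exact ⟨l, hl, fun u hu w => by simpa [Dual.transpose_apply] using DFunLike.congr_fun (h0.fix _ (inv_mem hu)) w⟩

theorem Wv.index_eq {j j' : Fin W.L} {v : Fin (W.n j) → kk M} {v' : Fin (W.n j') → kk M}
    (h : S.Wv (wedR W j) χ μ v) (h' : S.Wv (wedR W j') χ μ v') (hv : v ≠ 0) (hv' : v' ≠ 0) : j = j' := by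
  by_contra hne
  obtain ⟨l, hl, h1⟩ := S.exists_fixed_dual j
  obtain ⟨l', hl', h1'⟩ := S.exists_fixed_dual j'
  obtain ⟨a, ha, h2⟩ := wed_dense hl hv
  obtain ⟨g, hg⟩ := exists_coef_ne hl' hv'
  have h3 := lin_eq_zero (l' (wedR W j' S.n0 v') • coefA j l v - l (wedR W j S.n0 v) • coefA j' l' v')
    (((h.gd h1).sub (h'.gd h1') _ _).eq_zero (by ring)) a
  simp only [coefA, LinearMap.sub_apply, LinearMap.smul_apply, LinearMap.comp_apply, AlgHom.toLinearMap_apply,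
    LinearMap.applyₗ_apply_apply, h2 j' (Ne.symm hne), LinearMap.zero_apply, map_zero, smul_zero, sub_zero,
    smul_eq_mul, mul_zero, mul_eq_zero, or_iff_left ha] at h3
  exact hg ((h'.gd h1').eq_zero h3 g)

omit [Fact p.Prime] [CharP (kk M) p] in
theorem Gd.exists_wv {φ : G → kk M} (h : S.Gd χ μ φ) (hφ : φ ≠ 0) (W : Wed G M) :
    ∃ j v, v ≠ 0 ∧ S.Wv (wedR W j) χ μ v := by
  let f : (kk M)[G] →ₗ[kk M] kk M := Finsupp.linearCombination _ φ ∘ₗ (coeffLinearEquiv (kk M)).toLinearMap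
  have hf : ∀ g, f (of _ G g) = φ g := fun g => by simp [f]
  let I : Ideal (kk M)[G] := ⟨⟨⟨{a | ∀ b, f (b * a) = 0}, fun ha hb c => by rw [mul_add, map_add, ha, hb, add_zero]⟩,
    fun c => by simp⟩, fun c a ha b => by rw [smul_eq_mul, ← mul_assoc, ha]⟩
  have mem : ∀ a, (∀ g, f (of _ G g * a) = 0) → a ∈ I := fun a ha b =>
    lin_eq_zero (f ∘ₗ LinearMap.mulRight _ a) ha b
  obtain ⟨j, v, hv, h1⟩ := exists_common_ker (W := W) (I := I) fun e => hφ (funext fun g => by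
    simpa [hf, -of_apply] using e.ge (Submodule.mem_top (x := 1)) (of _ G g))
  refine ⟨j, v, hv, fun u hu => ?_, fun t => ?_, fun i => ?_⟩
  · have := h1 _ (mem (of (kk M) G u - 1) fun g => by
      rw [mul_sub, map_sub, mul_one, ← map_mul, hf, hf, h.right u hu, sub_self])
    rwa [map_sub, map_one, LinearMap.sub_apply, sub_eq_zero] at this
  · have := h1 _ (mem (of (kk M) G t - (χ t : kk M) • 1) fun g => by
      rw [mul_sub, map_sub, mul_smul_comm, mul_one, ← map_mul, map_smul, hf, hf, h.tor, smul_eq_mul, sub_self])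
    rwa [map_sub, map_smul, map_one, LinearMap.sub_apply, sub_eq_zero] at this
  · have := h1 _ (mem (∑ x : S.X i, of (kk M) G (x * S.s i) - μ i • 1) fun g => by
      rw [mul_sub, map_sub, mul_smul_comm, mul_one, Finset.mul_sum, map_sum, map_smul, hf, smul_eq_mul, ← h.T,
        sub_eq_zero]
      exact Finset.sum_congr rfl fun x _ => by rw [← map_mul, hf, mul_assoc])
    rwa [map_sub, map_smul, map_one, LinearMap.sub_apply, sub_eq_zero, map_sum, LinearMap.sum_apply] at this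

theorem card_reg (S : SB p G κ) (hM : IsPModular p M) :
    Nat.card {c : ConjClasses G // ∃ g, ConjClasses.mk g = c ∧ (orderOf g).Coprime p} =
      Nat.card {w : (S.H →* (kk M)ˣ) × (κ → kk M) // ∃ φ ≠ 0, S.Gd w.1 w.2 φ} := by
  obtain ⟨W⟩ := exists_wed G M
  rw [← wed_L_eq W hM, ← Nat.card_fin W.L]
  choose χ μ v hv h using fun j => S.exists_wv (wedR W j)
  refine Nat.card_congr (Equiv.ofBijective (fun j => ⟨(χ j, μ j), ?_⟩) ⟨fun j j' e => ?_, ?_⟩)
  · obtain ⟨l, hl, h1⟩ := S.exists_fixed_dual j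
    obtain ⟨g, hg⟩ := exists_coef_ne hl (hv j)
    exact ⟨_, Function.ne_iff.2 ⟨g, hg⟩, (h j).gd h1⟩
  · obtain ⟨e1, e2⟩ := Prod.ext_iff.1 (Subtype.ext_iff.1 e)
    exact (h j).index_eq (by rw [show χ j = χ j' from e1, show μ j = μ j' from e2]; exact h j') (hv j) (hv j')
  · rintro ⟨⟨a, b⟩, φ, h0, hφ⟩
    obtain ⟨j, w, hw, h1⟩ := hφ.exists_wv h0 W
    obtain ⟨e1, e2⟩ := (h j).weight_eq h1 (hv j) hw
    exact ⟨j, Subtype.ext (Prod.ext e1 e2)⟩

theorem Gd.cases {η : κ → G → S.H} (hη : S.IsEta η) {φ : G → kk M} (h : S.Gd χ μ φ) (hφ : φ ≠ 0) (i : κ) :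
    μ i = 0 ∨ μ i = S.cv η χ i := by
  obtain ⟨W⟩ := exists_wed G M
  obtain ⟨j, v, hv, h1⟩ := h.exists_wv hφ W
  exact h1.cases hη hv i

theorem exists_gd {k : Type*} [Field k] [CharP k p] {η : κ → G → S.H} (hη : S.IsEta η) {P : Subgroup G}
    (hP : S.B ≤ P) (ψ : P →* kˣ) (hX : ∀ i, S.s i ∉ P → ∀ g ∈ P, Cin (S.X i) S.U g) :
    ∃ φ ≠ 0, S.Gd (ψ.comp (Subgroup.inclusion (H_le_B.trans hP)))
      (fun i => if S.s i ∈ P then 0 else S.cv η (ψ.comp (Subgroup.inclusion (H_le_B.trans hP))) i) φ := by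
  have hU := U_le_B.trans hP
  have h0 : ∀ a : P, (∃ n, a.1 ^ p ^ n = 1) → ψ a = 1 := by
    rintro a ⟨n, hn⟩
    have : (ψ a : k) ^ p ^ n = 1 := by
      rw [← Units.val_pow_eq_pow_val, ← map_pow, show a ^ p ^ n = 1 from Subtype.ext hn, map_one, Units.val_one]
    exact Units.ext (by rwa [← sub_eq_zero, ← one_pow (p ^ n), ← sub_pow_char_pow, pow_eq_zero_iff
      (pow_ne_zero _ (Fact.out : p.Prime).ne_zero), sub_eq_zero] at this)
  have h1 : ∀ u ∈ S.U, ∀ g, ∃ n, (g⁻¹ * u * g) ^ p ^ n = 1 := fun u hu g => by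
    obtain ⟨n, hn⟩ := S.pU ⟨u, hu⟩
    exact ⟨n, by rw [show g⁻¹ * u * g = g⁻¹ * u * g⁻¹⁻¹ by simp, conj_pow, show u ^ p ^ n = 1 from
      congrArg Subtype.val hn]; simp⟩
  let φ : G → k := fun g => if h : ∃ a : P, ∃ u ∈ S.U, g = u * S.n0 * a then ψ h.choose else 0
  have e0 : ∀ g, (¬ ∃ a : P, ∃ u ∈ S.U, g = u * S.n0 * a) → φ g = 0 := fun g h => dif_neg h
  have e1 : ∀ (a : P), ∀ u ∈ S.U, φ (u * S.n0 * a) = ψ a := fun a u hu => by
    have h : ∃ b : P, ∃ v ∈ S.U, u * S.n0 * a = v * S.n0 * b := ⟨a, u, hu, rfl⟩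
    obtain ⟨v, hv, e⟩ := h.choose_spec
    simp only [φ, dif_pos h]
    generalize h.choose = b at e
    have := h0 (b * a⁻¹) (by
      rw [show (b * a⁻¹).1 = S.n0⁻¹ * (v⁻¹ * u) * S.n0 by
        rw [Subgroup.coe_mul, Subgroup.coe_inv, mul_inv_eq_iff_eq_mul, mul_assoc, mul_assoc, mul_assoc,
          ← mul_assoc u, e]; group]
      exact h1 _ (mul_mem (inv_mem hv) hu) _)
    rw [map_mul, map_inv, mul_inv_eq_one] at this
    rw [this]
  have e2 : ∀ g (a : P), φ (g * a) = ψ a * φ g := fun g a => by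
    by_cases h : ∃ b : P, ∃ u ∈ S.U, g = u * S.n0 * b
    · obtain ⟨b, u, hu, rfl⟩ := h
      rw [mul_assoc, ← Subgroup.coe_mul, e1 _ u hu, e1 _ u hu, map_mul, Units.val_mul, mul_comm]
    · rw [e0 _ h, e0, mul_zero]
      rintro ⟨b, u, hu, e⟩
      exact h ⟨b * a⁻¹, u, hu, by rw [Subgroup.coe_mul, ← mul_assoc, ← e]; simp⟩
  have e3 : ∀ u ∈ S.U, ∀ g, φ (u * g) = φ g := fun v hv g => by
    by_cases h : ∃ b : P, ∃ u ∈ S.U, g = u * S.n0 * b
    · obtain ⟨b, u, hu, rfl⟩ := h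
      rw [← mul_assoc, ← mul_assoc, e1 _ u hu, e1 _ _ (mul_mem hv hu)]
    · rw [e0 _ h, e0]
      rintro ⟨b, u, hu, e⟩
      exact h ⟨b, v⁻¹ * u, mul_mem (inv_mem hv) hu, by rw [mul_assoc, mul_assoc, ← mul_assoc u, ← e]; simp⟩
  have e4 : ∀ u ∈ S.U, ∀ g, φ (g * u) = φ g := fun u hu g => by
    rw [e2 g ⟨u, hU hu⟩, h0 ⟨u, hU hu⟩ (by simpa using h1 u hu 1), Units.val_one, one_mul]
  refine ⟨φ, Function.ne_iff.2 ⟨1 * S.n0 * (1 : P), by rw [e1 1 1 (one_mem _)]; simp⟩, e3, e4,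
    fun t g => e2 g ⟨t, hP (H_le_B t.2)⟩, fun i g => ?_⟩
  split_ifs with hi
  · have : ∀ x : S.X i, φ (g * x * S.s i) = ψ ⟨_, hi⟩ * φ g := fun x => by
      rw [e2 _ ⟨_, hi⟩, e4 _ (S.X_le i x.2)]
    simp only [this, Finset.sum_const, Finset.card_univ, nsmul_eq_mul, card_X_eq_zero, zero_mul]
  have e5 : ∀ n, S.Pos n⁻¹ i → φ n = 0 := fun n hn => e0 _ (by
    rintro ⟨a, u, hu, rfl⟩
    obtain ⟨y, hy, hne⟩ := S.exists_ne_one i
    have := S.opp _ (hX i hi _ (inv_mem a.2) y hy) (by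
      have h2 := B_cin_U (H_le_B n0_sq) _ (B_cin_U (U_le_B hu) _ (hn y hy))
      simpa [mul_assoc] using h2)
    exact hne (by simpa [mul_inv_eq_iff_eq_mul] using this))
  obtain ⟨u, hu, n, hn, w, hw, rfl⟩ := S.bruhat g
  obtain ⟨a, ha, b, hb, rfl⟩ := exists_XV i hw
  have e6 : ∑ x : S.X i, φ (u * n * (a * b) * x * S.s i) = ∑ x : S.X i, φ (n * x * S.s i) := by
    refine Fintype.sum_equiv (Equiv.mulLeft ⟨a, ha⟩) _ _ fun x => ?_
    rw [← e4 _ (mem_V.1 (U_cin_V (S.X_le i x.2) b hb)).2 (n * _ * S.s i), ← e3 u hu (n * _ * _ * _)]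
    congr 1
    simp [mul_assoc]
  rw [e6, e4 _ hw, e3 u hu]
  by_cases hp : S.Pos n⁻¹ i
  · have : ∀ x : S.X i, φ (n * x * S.s i) = φ (n * S.s i) := fun x => by
      rw [← e3 _ (hp x x.2) (n * S.s i)]; simp [mul_assoc]
    simp only [this, Finset.sum_const, Finset.card_univ, nsmul_eq_mul, card_X_eq_zero, zero_mul, e5 n hp, mul_zero]
  have h2 : S.Pos (n * S.s i)⁻¹ i := by
    rw [mul_inv_rev, pos_s_inv_mul, pos_s_mul (inv_mem hn)]; exact hp
  have h3 : S.Pos (n * (S.s i)⁻¹)⁻¹ i := by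
    rw [mul_inv_rev, inv_inv, pos_s_mul (inv_mem hn)]; exact hp
  rw [← Finset.sum_filter_add_sum_filter_not _ (· = 1), cv, Finset.sum_mul, Finset.filter_eq', if_pos
    (Finset.mem_univ _), Finset.sum_singleton, OneMemClass.coe_one, mul_one, e5 _ h2, zero_add]
  refine Finset.sum_congr rfl fun y hy => ?_
  obtain ⟨c, hc, d, hd, e⟩ := hη i y y.2 (by simpa using hy)
  rw [show n * y * S.s i = n * (S.s i)⁻¹ * (S.s i * y * S.s i) by group, e,
    show n * (S.s i)⁻¹ * (c * S.s i * η i y * d) = (n * (S.s i)⁻¹)⁻¹⁻¹ * c * (n * (S.s i)⁻¹)⁻¹ * (n * η i y) * d by group,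
    e4 d hd, e3 _ (h3 c hc)]
  exact e2 n ⟨_, hP (H_le_B (η i y).2)⟩

end SB

end H8
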