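import Cfsg.Agent.H8.CR2
import Cfsg.Agent.H8.LieSt
import Cfsg.Agent.H11.Sub
import Cfsg.Agent.H14.Fld

/-!
Steinberg's count of the semisimple classes of a universal Chevalley group.
-/

namespace H8

open Cfsg H14 H14.RootSys H14.St H14.PreSt H14.St.Tw H11 H5 H7

variable {ι κ : Type*} [Fintype κ] [DecidableEq κ] [Fintype ι] [DecidableEq ι] {R : RootSys ι κ} {C : Chev R}
  {K G : Type*} [Field K] [Group G] {S : St C K G}

theorem mem_of_H_inf (hC : COk C.toPreChev) (hS : S.Sep) {J : Set κ} {M : Subgroup G}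
    (hM : ∀ j ∈ J, ∀ t, t ≠ 0 → S.h (R.simple j) t ∈ M) {a : G} (ha : a ∈ S.H)
    (h : a ∈ S.U {r | R.pos r ∨ R.InJ J r}) : a ∈ M := by
  classical
  let J' : Finset κ := Finset.univ.filter (· ∈ J)
  have hJ : (J' : Set κ) = J := by ext; simp [J']
  let S' := (subE R J').st hC S
  have hS' : S'.Sep := (subE R J').sep hC hS
  have hp : ∀ r, (sub R J').pos r ↔ R.pos r := fun r => ⟨fun h j => by
    by_cases hj : j ∈ J'
    · exact h ⟨j, hj⟩
    · exact (r.2 j hj).ge, fun h j => h j⟩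
  have hU : S'.U {r | (sub R J').pos r} ≤ S.U {r | R.pos r} := U_le.2 fun r hr t => x_mem_U ((hp r).1 hr) t
  have hH : S'.H ≤ S.H := (subE R J').preSt_H _
  have hB : S'.B ≤ S.B := sup_le_sup hU hH
  rw [show {r | R.pos r ∨ R.InJ J r} = {r | R.pos r ∧ ¬ R.InJ J r} ∪ {r | R.InJ J r} by
    ext r; simp only [Set.mem_setOf_eq, Set.mem_union]; tauto, U_union, ← SetLike.mem_coe,
    Subgroup.coe_mul_of_right_le_normalizer_left _ _ ((U_inJ_le_P J).trans (P_le_normalizer J))] at h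
  obtain ⟨ρ, hρ, l, hl, rfl⟩ := h
  have hρ' : ρ ∈ S.U {r | R.pos r} := U_mono (fun _ h => h.1) hρ
  have h1 : l ∈ S'.U Set.univ := by
    erw [REmb.preSt_U, subE_image, hJ]; exact hl
  obtain ⟨w, b, hb, n, hn, u, hu, rfl⟩ := exists_cell h1
  have h2 : n ∈ S.B := by
    have := mul_mem (mul_mem (inv_mem (hB hb)) (mul_mem (inv_mem (U_le_B hρ')) (H_le_B ha)))
      (inv_mem (U_le_B (hU hu)))
    simpa [mul_assoc] using this
  obtain rfl : w = 1 := (sub R J').eq_one_of_pos (NW.mem_W hn) fun r hr => by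
    obtain ⟨c, hc, e⟩ := NW.act hn r
    have := B_conj_mem_U h2 (hU (x_mem_U hr 1))
    rw [e, mul_inv_cancel_right] at this
    exact (hp _).2 (hS.pos_of_x_mem (by simpa) this)
  obtain ⟨v, hv, t, ht, e⟩ := mem_B_iff.1 (mul_mem (mul_mem hb (H_le_B (mem_H_of_NW hn))) (U_le_B hu))
  have h3 : ρ * v = 1 := hS.eq_one_of_mem_H (mul_mem hρ' (hU hv)) (by
    have := mul_mem ha (inv_mem (hH ht))
    simpa [e, mul_assoc] using this)
  simp only [e, ← mul_assoc, h3, one_mul]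
  refine H_le_of_simple (S := S') (fun j s hs => ?_) ht
  erw [REmb.preSt_h]
  exact hM j (Finset.mem_filter.1 j.2).2 s hs

theorem exists_ext_P (hC : COk C.toPreChev) (hS : S.Sep) {J : Set κ} {A : Type*} [CommGroup A] (χ : S.H →* A)
    (hχ : ∀ j ∈ J, ∀ t (ht : t ≠ 0), χ ⟨_, h_mem_H (R.simple j) ht⟩ = 1) :
    ∃ ψ : S.P J →* A, ψ.comp (Subgroup.inclusion (H_le_B.trans (B_le_P J))) = χ := by
  have h1 : ∀ g : S.P J, ∃ t : S.H, ∃ u ∈ S.U {r | R.pos r ∨ R.InJ J r}, g = u * t := fun g => by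
    obtain ⟨u, hu, t, ht, e⟩ := mem_U_sup_H_iff.1 (((P_eq (S := S) J).trans (sup_comm _ _)).le g.2)
    exact ⟨⟨t, ht⟩, u, hu, e⟩
  choose τ h1 using h1
  have h2 : ∀ (g : S.P J) (t : S.H), ∀ u ∈ S.U {r | R.pos r ∨ R.InJ J r}, g = u * t → χ (τ g) = χ t := by
    intro g t u hu e
    obtain ⟨v, hv, e'⟩ := h1 g
    obtain ⟨s, hs, e2⟩ := mem_of_H_inf hC hS (M := χ.ker.map S.H.subtype)
      (fun j hj s hs => ⟨_, hχ j hj s hs, rfl⟩) (τ g * t⁻¹).2 (by
        rw [Subgroup.coe_mul, Subgroup.coe_inv, eq_inv_mul_of_mul_eq e'.symm, e, mul_assoc, mul_inv_cancel_right]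
        exact mul_mem (inv_mem hv) hu)
    rwa [Subtype.ext e2, SetLike.mem_coe, MonoidHom.mem_ker, map_mul, map_inv, mul_inv_eq_one] at hs
  refine ⟨MonoidHom.mk' (fun g => χ (τ g)) fun a b => ?_, MonoidHom.ext fun t => h2 _ t 1 (one_mem _) (by simp)⟩
  obtain ⟨u, hu, e⟩ := h1 a
  obtain ⟨v, hv, e'⟩ := h1 b
  rw [← map_mul]
  exact h2 _ _ _ (mul_mem hu (H_conj_mem_U (τ a).2 hv)) (by rw [Subgroup.coe_mul, e, e']; simp [mul_assoc])

variable (hS : S.Sep) (hG : S.U Set.univ = ⊤) (hh : S.HMul) [Finite K] [Fintype G] (p : ℕ) [Fact p.Prime] [CharP K p]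

theorem id_s_NW (i : κ) : (((twE_id hS hG hh).sb p).s i, R.sr i) ∈ S.NW := by
  have h0 := (twE_id hS hG hh).s_NW i
  rw [← w0_single, ← id_orb hS hG]
  exact h0

open Classical in
theorem exists_eta_id (k : Type*) [Field k] [CharP k p] : ∃ η, ((twE_id hS hG hh).sb p).IsEta η ∧
    ∀ (χ : ((twE_id hS hG hh).sb p).H →* kˣ) i, ((twE_id hS hG hh).sb p).cv η χ i ≠ 0 ↔
      ∀ t (ht : t ≠ 0), χ ⟨_, h_mem_H (S := S.toPreSt) (R.simple i) ht⟩ = 1 := by
  have := Fintype.ofFinite K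
  set B := (twE_id hS hG hh).sb p
  have hX : ∀ i y, y ∈ B.X i ↔ ∃ t, y = S.x (R.simple i) t := fun i => id_up hS hG i
  have key : ∀ i, ∃ d : Kˣ, ∃ a : B.H, ∀ t : Kˣ, ∃ x ∈ B.X i, ∃ b ∈ B.U,
      B.s i * S.x (R.simple i) t * B.s i = x * B.s i * (S.h (R.simple i) (d * t : Kˣ) * a) * b := by
    intro i
    have h0 := id_s_NW hS hG hh p i
    have hs := B.s_sq i
    change (B.s i, _) ∈ _ at h0
    generalize B.s i = s at h0 hs
    obtain ⟨d, hd, e1⟩ := NW.act h0 (R.simple i)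
    have a0 := NW.inv_mul_mem_H h0 (n_mem_NW (R.simple i) one_ne_zero)
    have e3 : ∀ c, c ≠ 0 → S.h (R.simple i) c * s = s * S.h (R.simple i) c⁻¹ := fun c hc => by
      have a2 := S.n_conj_h' (R.simple i) (R.simple i) (inv_ne_zero hc)
      rw [hh _ _ _ (inv_ne_zero hc) (zpow_ne_zero _ (inv_ne_zero hc)),
        show c⁻¹ * c⁻¹ ^ (-R.pair (R.simple i) (R.simple i)) = c by rw [pair_self, zpow_neg]; field_simp] at a2
      have a3 := hh.comm _ a0 _ (h_mem_H (R.simple i) (inv_ne_zero hc))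
      rw [← a2, ← mul_left_inj (s⁻¹ * S.n (R.simple i) 1), mul_assoc s, ← a3]
      group
    refine ⟨-Units.mk0 d hd, ⟨_, mul_mem a0 hs⟩, fun t => ⟨_, (hX i _).2 ⟨(d * t)⁻¹, rfl⟩, _,
      B.H_U _ hs _ (B.X_le i ((hX i _).2 ⟨(d * t)⁻¹, rfl⟩)), ?_⟩⟩
    have hdt : -(d * t)⁻¹ ≠ 0 := neg_ne_zero.2 (inv_ne_zero (mul_ne_zero hd t.ne_zero))
    rw [e1, refl_self, x_neg_eq, n_eq_h_mul, show ((-Units.mk0 d hd * t : Kˣ) : K) = (-(d * t)⁻¹)⁻¹ by simp,
      mul_assoc (S.x _ _) s, ← mul_assoc s (S.h _ _), ← e3 _ hdt]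
    group
  choose d a key using key
  let η : κ → G → B.H := fun i y => if h : ∃ t : Kˣ, y = S.x (R.simple i) t then
    ⟨_, h_mem_H (S := S.toPreSt) (R.simple i) (d i * h.choose).ne_zero⟩ * a i else 1
  have hη : ∀ i (t : Kˣ), η i (S.x (R.simple i) t) =
      ⟨_, h_mem_H (S := S.toPreSt) (R.simple i) (d i * t).ne_zero⟩ * a i := fun i t => by
    have h : ∃ u : Kˣ, S.x (R.simple i) t = S.x (R.simple i) u := ⟨t, rfl⟩
    simp only [η, dif_pos h, ← Units.ext (hS.x_inj h.choose_spec)]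
  refine ⟨η, fun i y hy hne => ?_, fun χ i => ?_⟩
  · obtain ⟨t, rfl⟩ := (hX i y).1 hy
    lift t to Kˣ using isUnit_iff_ne_zero.2 fun e => hne (by rw [e, x_zero])
    rw [hη]
    exact key i t
  · let f : Kˣ →* k := (Units.coeHom k).comp (χ.comp ((hh.hhom (R.simple i)).codRestrict B.H fun t =>
      h_mem_H (S := S.toPreSt) _ t.ne_zero))
    have e : B.cv η χ i = (∑ t, f t) * χ (a i) := by
      rw [SB.cv, ← Equiv.sum_comp (Equiv.mulLeft (d i)), Finset.sum_mul]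
      symm
      refine Finset.sum_bij (fun t _ => ⟨_, (hX i _).2 ⟨t, rfl⟩⟩) (fun t _ => ?_)
        (fun t _ u _ e => Units.ext (hS.x_inj (congrArg Subtype.val e))) (fun y hy => ?_) fun t _ => ?_
      · exact Finset.mem_filter.2 ⟨Finset.mem_univ _, fun e => t.ne_zero (hS.x_eq_one.1 (congrArg Subtype.val e))⟩
      · obtain ⟨t, e⟩ := (hX i y).1 y.2
        lift t to Kˣ using isUnit_iff_ne_zero.2 fun e' => (Finset.mem_filter.1 hy).2
          (Subtype.ext (by rw [e, e', x_zero]; rfl))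
        exact ⟨t, Finset.mem_univ _, Subtype.ext e.symm⟩
      · rw [hη, map_mul, Units.val_mul]; rfl
    have hq : (Fintype.card Kˣ : k) ≠ 0 := by
      obtain ⟨n, -, hn⟩ := FiniteField.card K p
      rw [Fintype.card_units, Nat.cast_sub Fintype.card_pos, hn, Nat.cast_pow, CharP.cast_eq_zero k p,
        zero_pow n.ne_zero]
      simp
    rw [e, sum_hom_units]
    constructor
    · intro h t ht
      split_ifs at h with h1
      · exact Units.ext (DFunLike.congr_fun h1 (Units.mk0 t ht))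
      · simp at h
    · intro h
      rw [if_pos (show f = 1 from MonoidHom.ext fun t => congrArg Units.val (h t t.ne_zero))]
      exact mul_ne_zero hq (Units.ne_zero _)

include hS hG in
theorem card_reg_st (hC : COk C.toPreChev) (hi : Function.Injective hh.tor) :
    Nat.card {c : ConjClasses G // ∃ g, ConjClasses.mk g = c ∧ (orderOf g).Coprime p} =
      Nat.card K ^ Fintype.card κ := by
  classical
  obtain ⟨M, hM⟩ := exists_isPModular (Fact.out : p.Prime)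
  have := charP_kk hM
  let B := (twE_id hS hG hh).sb p
  obtain ⟨η, hη, hc⟩ := exists_eta_id hS hG hh p (kk M)
  let T : κ → Kˣ →* B.H := fun i => (hh.hhom (R.simple i)).codRestrict B.H fun t =>
    h_mem_H (S := S.toPreSt) _ t.ne_zero
  have hc' : ∀ (χ : B.H →* (kk M)ˣ) i, B.cv η χ i ≠ 0 ↔ χ.comp (T i) = 1 := fun χ i => (hc χ i).trans
    ⟨fun h => MonoidHom.ext fun t : Kˣ => h t t.ne_zero,
      fun (h : χ.comp (T i) = 1) t ht => DFunLike.congr_fun h (Units.mk0 t ht)⟩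
  have h1 : ∀ w : (B.H →* (kk M)ˣ) × (κ → kk M), (∃ φ ≠ 0, B.Gd w.1 w.2 φ) ↔
      ∀ i, w.2 i = 0 ∨ w.2 i = B.cv η w.1 i := by
    rintro ⟨χ, μ⟩
    refine ⟨fun ⟨φ, h0, h⟩ => h.cases hη h0, fun h => ?_⟩
    let J := {i | μ i = 0 ∧ B.cv η χ i ≠ 0}
    obtain ⟨ψ, hψ⟩ := exists_ext_P hC hS (J := J) χ fun j hj => (hc χ j).1 hj.2
    have hs : ∀ i, i ∈ J → B.s i ∈ S.P J := fun i hi => NW.mem_P (id_s_NW hS hG hh p i) (R.sr_mem_WJ hi)
    have hX : ∀ i, i ∉ J → ∀ g ∈ S.P J, Cin (B.X i) B.U g := fun i hi g hg y hy => by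
      obtain ⟨t, rfl⟩ := (id_up hS hG i y).1 hy
      have := (Subgroup.mem_normalizer_iff''.1 (P_le_normalizer J hg) _).1
        (x_mem_U (S := S.toPreSt) (r := R.simple i) (And.intro (R.pos_simple i) (mt R.inJ_simple.1 hi)) t)
      exact U_mono (fun _ h => h.1) this
    obtain ⟨φ, h0, hφ⟩ := SB.exists_gd hη (P := S.P J) (sup_le (U_le_B.trans (B_le_P J)) (H_le_B.trans (B_le_P J)))
      ψ fun i hi => hX i (mt (hs i) hi)
    erw [hψ] at hφ
    refine ⟨φ, h0, ?_⟩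
    convert hφ using 2 with i
    by_cases hi : i ∈ J
    · rw [if_pos (hs i hi)]; exact hi.1
    · rw [if_neg fun h2 => ?_]
      · exact (h i).elim (fun e => e.trans (not_not.1 fun e' => hi ⟨e, e'⟩).symm) id
      · obtain ⟨y, hy, hne⟩ := B.exists_ne_one i
        exact hne (SB.eq_one_of_X hy (SB.U_le_B (hX i hi _ h2 y hy)))
  let e : (κ → Kˣ) ≃* B.H := (MonoidHom.ofInjective hi).trans (MulEquiv.subgroupCongr hh.range_tor)
  have he : ∀ i t, e (Pi.mulSingle i t) = T i t := fun i t => Subtype.ext (hh.tor_single i t)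
  let E : (B.H →* (kk M)ˣ) ≃ (κ → (Kˣ →* (kk M)ˣ)) :=
    (e.symm.monoidHomCongrLeft.trans (Pi.monoidHomMulEquiv _ _)).toEquiv
  have hE : ∀ χ i, E χ i = χ.comp (T i) := fun χ i => MonoidHom.ext fun t => congrArg χ (he i t)
  rw [B.card_reg hM, Nat.card_congr (Equiv.subtypeEquivRight h1)]
  have hq : (Nat.card Kˣ : kk M) ≠ 0 := by
    have := Fintype.ofFinite K
    obtain ⟨n, -, hn⟩ := FiniteField.card K p
    rw [Nat.card_units, Nat.cast_sub Nat.card_pos, Nat.card_eq_fintype_card, hn, Nat.cast_pow,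
      CharP.cast_eq_zero _ p, zero_pow n.ne_zero]
    simp
  have : NeZero ((Monoid.exponent Kˣ : ℕ) : kk M) := ⟨by rwa [IsCyclic.exponent_eq_card]⟩
  have : Finite (Kˣ →* (kk M)ˣ) := Nat.finite_of_card_ne_zero (by
    rw [CommGroup.card_monoidHom_of_hasEnoughRootsOfUnity]; exact Nat.card_pos.ne')
  have h2 : Nat.card (κ → Option (Kˣ →* (kk M)ˣ)) = Nat.card K ^ Fintype.card κ := by
    rw [Nat.card_fun, Finite.card_option, CommGroup.card_monoidHom_of_hasEnoughRootsOfUnity, Nat.card_units,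
      Nat.sub_add_cancel Nat.card_pos, Nat.card_eq_fintype_card (α := κ)]
  rw [← h2]
  refine Nat.card_congr (Equiv.ofBijective (fun w i => if w.1.2 i = 0 then some (E w.1.1 i) else none) ⟨?_, ?_⟩)
  · rintro ⟨⟨χ, μ⟩, h⟩ ⟨⟨χ', μ'⟩, h'⟩ e
    have h3 : ∀ i, E χ i = E χ' i ∧ (μ i = 0 ↔ μ' i = 0) := fun i => by
      have := congrFun e i
      dsimp only at this
      split_ifs at this with a b
      · exact ⟨Option.some.inj this, iff_of_true a b⟩
      · rw [hE, hE, (hc' χ i).1 ((h i).resolve_left a ▸ a), (hc' χ' i).1 ((h' i).resolve_left ‹_› ▸ ‹¬ μ' i = 0›)]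
        exact ⟨rfl, iff_of_false a ‹_›⟩
    obtain rfl : χ = χ' := E.injective (funext fun i => (h3 i).1)
    refine Subtype.ext (Prod.ext rfl (funext fun i => ?_))
    by_cases a : μ i = 0
    · exact a.trans ((h3 i).2.1 a).symm
    · exact ((h i).resolve_left a).trans ((h' i).resolve_left (mt (h3 i).2.2 a)).symm
  · intro f
    refine ⟨⟨(E.symm fun i => (f i).getD 1, fun i => if f i = none then B.cv η (E.symm fun i => (f i).getD 1) i
      else 0), fun i => ?_⟩, funext fun i => ?_⟩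
    · dsimp only
      split_ifs <;> simp
    · have := hc' (E.symm fun i => (f i).getD 1) i
      rw [← hE, Equiv.apply_symm_apply] at this
      simp only [Equiv.apply_symm_apply]
      cases hf : f i with
      | none => rw [if_pos rfl, if_neg (this.2 (by rw [hf]; rfl))]
      | some a => simp

omit [Fintype G] in
theorem card_reg_good {D : Lie.ChevalleyDatum} (X : Good D) (h : Nat.card (mpow Kˣ X.R.A).ker = 1) :
    Nat.card {c : ConjClasses (D.group K) // ∃ g, ConjClasses.mk g = c ∧ (orderOf g).Coprime p} =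
      Nat.card K ^ D.rank := by
  have := Fintype.ofFinite (D.group K)
  rw [card_reg_st (X.SG_sep K) (X.SG_top K) (X.SG_hmul K) p (cok_good X)
    (X.tor_inj fun c hc => Subgroup.mem_bot.1 ((Subgroup.card_eq_one.1 h).le hc)), Fintype.card_fin]

end H8
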