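import Cfsg.Agent.H28.ZN

/-! Subnormal subgroups of shape `2-group . 3` with a four-group `W_K` are normalized (on `W_K`) by
the maximal elementary abelian subgroups. -/

set_option autoImplicit false

open Cfsg Subgroup H9 H28
open scoped Pointwise commutatorElement

namespace H8.JC

local notation:max "#" H:max => Nat.card H

variable {G : Type*} [Group G]

theorem inf_cs {O K W : Subgroup G} (hO1 : O ≤ K) (h3 : O.relIndex K = 3) (hc : O ≤ 𝐂 W)
    (hf : W ⊓ 𝐂 K = ⊥) {y : G} (hy : y ∈ K) (hyO : y ∉ O) : W ⊓ centralizer {y} = ⊥ := by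
  rw [eq_bot_iff, ← hf]
  refine le_inf inf_le_left ?_
  conv_rhs => rw [← sup_zpowers_eq_of_relIndex_prime (h3 ▸ Nat.prime_three) hO1 hy hyO,
    H28.centralizer_sup, H28.centralizer_zpowers]
  exact le_inf (inf_le_left.trans (le_centralizer_comm.1 hc)) inf_le_right

variable [Finite G]

theorem card_le_four {O K W A X : Subgroup G} (hO1 : O ≤ K) (hO2 : K ≤ 𝐍 O)
    (h3' : O.relIndex K = 3) (hW : IsElementaryAbelian 2 W)
    (hWX : W ≤ X) (hA : MaxAb 2 X A) (hAK : A ≤ 𝐍 K) (hAO : A ≤ 𝐍 O) (hAW : A ≤ 𝐍 W)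
    (hKW : K ≤ 𝐍 W) (hc : O ≤ 𝐂 W) (hf : W ⊓ 𝐂 K = ⊥) {a : G} (ha : a ∈ A)
    (haC : a ∉ Cz O K) : #W ≤ 4 := by
  obtain ⟨x, hx, hxO⟩ := SetLike.not_le_iff_exists.1 (show ¬ K ≤ O from fun e => by
    rw [relIndex_eq_one.2 e] at h3'; omega)
  have hWc := ea_le_centralizer hW
  have hW' := abE_iff_ea.2 hW
  have hidx := relIndex_Cz hO1 hO2 h3' hAO hAK fun e => haC (e ha)
  -- key estimate for subgroups `B` of `A ∩ Cz`
  have key : ∀ B, B ≤ A ⊓ Cz O K →
      #B * #↥(W ⊓ 𝐂 B ⊓ centralizer {a}) ^ 2 ≤ #A * #↥(W ⊓ 𝐂 A) := by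
    intro B hB
    refine le_trans (Nat.mul_le_mul_left _ ?_) (hA.best hWX hW' B (hB.trans inf_le_left))
    refine sq_le_card (x := x) (inf_le_left.trans (hWc.trans (centralizer_anti inf_le_left)))
      inf_le_left ?_ ?_
    · refine mem_normalizer_of_cj_le ?_
      rintro _ ⟨w, ⟨h1, h2⟩, rfl⟩
      refine ⟨conj_mem_of_mem_normalizer (hKW hx) h1, fun b hb => ?_⟩
      have h3 := hc ((hB hb).2.2 x⁻¹ (inv_mem hx)) w h1
      have h4 := h2 b hb
      change b * (x * w * x⁻¹) = x * w * x⁻¹ * b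
      calc b * (x * w * x⁻¹) = x * (⁅x⁻¹, b⁆ * (b * w)) * x⁻¹ := by
            simp only [commutatorElement_def]; group
        _ = x * ((⁅x⁻¹, b⁆ * w) * b) * x⁻¹ := by rw [h4]; group
        _ = x * w * x⁻¹ * b := by
            rw [← h3]
            have h5 : ⁅x⁻¹, b⁆ * b * x⁻¹ = x⁻¹ * b := by
              simp only [commutatorElement_def]; group
            calc x * (w * ⁅x⁻¹, b⁆ * b) * x⁻¹ = x * w * (⁅x⁻¹, b⁆ * b * x⁻¹) := by group
              _ = _ := by rw [h5]; group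
    · rw [eq_bot_iff, ← inf_cs hO1 h3' hc hf
        (commutator_le_of_le_normalizer hAK (commutator_mem_commutator hx ha))
        (commutator_not_mem hO1 hO2 h3' hx hxO (hAO ha) haC)]
      rintro y ⟨h1, h2⟩
      refine ⟨h1.1.1, mem_centralizer_singleton_iff.2 ?_⟩
      have h3 := mem_centralizer_singleton_iff.1 h1.2
      have h4 := mem_centralizer_singleton_iff.1 (mem_cj.1 h2).2
      have h5 : Commute y (x * a * x⁻¹) := by
        change y * (x * a * x⁻¹) = x * a * x⁻¹ * y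
        calc y * (x * a * x⁻¹) = x * (x⁻¹ * y * x * a) * x⁻¹ := by group
          _ = _ := by rw [h4]; group
      exact h5.mul_right (Commute.inv_right h3)
  have hm0 : 0 < #↥(W ⊓ 𝐂 A) := Nat.card_pos
  -- `C_W(a) = C_W(A)`
  have hWa : W ⊓ centralizer {a} ≤ 𝐂 A := by
    by_contra hne'
    have hlt : A < (W ⊓ centralizer {a}) ⊔ A := lt_of_le_of_ne le_sup_right fun e => hne'
      ((le_sup_left.trans e.ge).trans hA.comm)
    have hn0 : A ≤ 𝐍 (W ⊓ centralizer {a}) := le_normalizer_inf hAW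
      (le_normalizer_of_le (fun b hb => mem_centralizer_singleton_iff.2 (hA.comm ha b hb)))
    have hp : IsPGroup 2 ↥((W ⊓ centralizer {a}) ⊔ A) := isPGroup_sup_of_le_normalizer'
      ((ea_isPGroup hW).to_le inf_le_left) (ea_isPGroup hA.ea) hn0
    obtain ⟨y, ⟨hy1, hy2⟩, hy3⟩ := SetLike.exists_of_lt (lt_inf_normalizer hp hlt)
    obtain ⟨w, hw, b, hb, rfl⟩ := (mem_sup_of_le_normalizer' hn0).1 hy1
    have hwN : w ∈ 𝐍 A := (mul_mem_cancel_right (le_normalizer hb)).1 hy2
    have hwA : w ∉ A := fun e => hy3 (mul_mem e hb)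
    have h1 := relIndex_le_relIndex_of_map (A₀ := A ⊓ centralizer {w}) (A := A) (C := ⊥)
      (X := W ⊓ 𝐂 A) (fun c => ⁅c, w⁆) (fun c hc' => by
        refine ⟨commutator_le_of_le_normalizer' hAW (commutator_mem_commutator hc' hw.1),
          hA.comm ?_⟩
        exact commutator_le_of_le_normalizer (zpowers_le.2 hwN)
          (commutator_mem_commutator hc' (mem_zpowers w))) (fun c hc' d hd e => by
        rw [mem_bot, inv_mul_eq_one] at e
        refine ⟨A.mul_mem (A.inv_mem hc') hd, mem_centralizer_singleton_iff.2 ?_⟩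
        simp only [commutatorElement_def, mul_left_inj] at e
        calc c⁻¹ * d * w = c⁻¹ * (d * w * d⁻¹) * d := by group
          _ = _ := by rw [← e]; group)
    rw [relIndex_bot_left] at h1
    have h2 := relIndex_inf_le (H := Cz O K) (K := A ⊓ centralizer {w}) (L := A)
    rw [hidx] at h2
    have hB : Cz O K ⊓ (A ⊓ centralizer {w}) ≤ A ⊓ Cz O K :=
      le_inf (inf_le_right.trans inf_le_left) inf_le_left
    have h3 := key _ hB
    have h4 := H1.relIndex_mul_card (hB.trans inf_le_left)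
    have h5 : W ⊓ 𝐂 A < W ⊓ 𝐂 (Cz O K ⊓ (A ⊓ centralizer {w})) ⊓ centralizer {a} := by
      refine lt_of_le_of_ne (le_inf (inf_le_inf_left _ (centralizer_anti (hB.trans inf_le_left)))
        fun v hv => mem_centralizer_singleton_iff.2 (hv.2 a ha).symm) fun e => hwA ?_
      have : w ∈ W ⊓ 𝐂 A := by
        rw [e]
        exact ⟨⟨hw.1, fun c hc' => mem_centralizer_singleton_iff.1 hc'.2.2⟩, hw.2⟩
      exact hA.mem_of_mem_centralizer (hWX hw.1) (hW.2 w hw.1) this.2
    have h6 : 2 * #↥(W ⊓ 𝐂 A) ≤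
        #↥(W ⊓ 𝐂 (Cz O K ⊓ (A ⊓ centralizer {w})) ⊓ centralizer {a}) := by
      obtain ⟨c, hc'⟩ := card_dvd_of_le h5.le
      have := card_lt_of_lt h5
      rw [hc'] at this ⊢
      have : 1 < c := by nlinarith
      nlinarith
    have hB0 : 0 < #↥(Cz O K ⊓ (A ⊓ centralizer {w})) := Nat.card_pos
    rw [← h4] at h3
    have h7 := Nat.pow_le_pow_left h6 2
    have h8 : (Cz O K ⊓ (A ⊓ centralizer {w})).relIndex A ≤ 2 * #↥(W ⊓ 𝐂 A) := by omega
    generalize #↥(W ⊓ 𝐂 (Cz O K ⊓ (A ⊓ centralizer {w})) ⊓ centralizer {a}) = u at *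
    generalize (Cz O K ⊓ (A ⊓ centralizer {w})).relIndex A = r at *
    generalize #↥(Cz O K ⊓ (A ⊓ centralizer {w})) = β at *
    generalize #↥(W ⊓ 𝐂 A) = m at *
    have h9 : u ^ 2 ≤ r * m := Nat.le_of_mul_le_mul_left (by nlinarith) hB0
    nlinarith
  have e1 : W ⊓ centralizer {a} = W ⊓ 𝐂 A := le_antisymm (le_inf inf_le_left hWa)
    (inf_le_inf_left _ fun v hv => mem_centralizer_singleton_iff.2 (hv a ha).symm)
  have h1 := key _ le_rfl
  have h2 := H1.relIndex_mul_card (inf_le_left : A ⊓ Cz O K ≤ A)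
  rw [inf_relIndex_left, hidx] at h2
  have h3 : #↥(W ⊓ 𝐂 A) ≤ #↥(W ⊓ 𝐂 (A ⊓ Cz O K) ⊓ centralizer {a}) :=
    card_le_of_le' (le_inf (inf_le_inf_left _ (centralizer_anti inf_le_left))
      (e1.ge.trans inf_le_right))
  have hB0 : 0 < #↥(A ⊓ Cz O K) := Nat.card_pos
  have h4 := card_le_sq_centralizer hW (hAW ha) (by
    rw [← sq, hA.abE.2 a ha]; exact one_mem _)
  rw [e1] at h4
  rw [← h2] at h1
  have h5 := Nat.pow_le_pow_left h3 2
  generalize #↥(W ⊓ 𝐂 (A ⊓ Cz O K) ⊓ centralizer {a}) = u at *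
  generalize #↥(A ⊓ Cz O K) = β at *
  generalize #↥(W ⊓ 𝐂 A) = m at *
  have h6 : u ^ 2 ≤ 2 * m := Nat.le_of_mul_le_mul_left (by nlinarith) hB0
  have h7 : m ≤ 2 := by nlinarith
  nlinarith

omit [Finite G] in
theorem norm_sup {K H D C : Subgroup G} (h : SubnIn K H) (hD : D ≤ H) (hn : H ≤ 𝐍 D)
    (hC : H ≤ 𝐍 C) (hp : PMod 2 D C) : D ≤ 𝐍 (pResidualOf 2 K ⊔ C) :=
  h.induction_down (P := fun A => D ≤ 𝐍 (pResidualOf 2 A ⊔ C))
    (hD.trans (le_normalizer_sup (le_normalizer_pResidualOf 2 H) hC)) fun A B h1 h2 h3 ih => by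
      have hA : pResidualOf 2 A ≤ H := (pResidualOf_le 2 A).trans (h1.trans h3.le)
      have h4 : ⁅D, pResidualOf 2 A⁆ ≤ pResidualOf 2 A ⊔ C := by
        refine commutator_pResidualOf_le (le_normalizer_of_le le_sup_left) (fun c hc => ?_) ?_
        · obtain ⟨k, hk⟩ := hp c (commutator_le_of_le_normalizer (hA.trans hn) hc)
          exact ⟨k, mem_sup_right hk⟩
        · have h5 : ⁅D, pResidualOf 2 A⁆ ≤ pResidualOf 2 B ⊔ C :=
            (commutator_mono le_rfl ((pResidualOf_mono h1).trans le_sup_left)).trans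
              (commutator_le_of_le_normalizer' ih)
          have h6 : pResidualOf 2 B ⊔ C ≤ 𝐍 (pResidualOf 2 A ⊔ C) :=
            sup_le ((pResidualOf_le 2 B).trans (le_normalizer_sup (le_normalizer_pResidualOf' h2)
              (h3.le.trans hC))) (le_normalizer_of_le le_sup_right)
          exact (commutator_mono h5 le_sup_left).trans (commutator_le_of_le_normalizer' h6)
      refine le_normalizer_of_cj_le fun d hd => ?_
      rw [cj_sup, cj_eq_self (hC (hD hd))]
      refine sup_le ?_ le_sup_right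
      rintro _ ⟨a, ha, rfl⟩
      have e : (MulAut.conj d).toMonoidHom a = ⁅d, a⁆ * a := by
        simp only [commutatorElement_def]; simp
      rw [e]
      exact mul_mem (h4 (commutator_mem_commutator hd ha)) (mem_sup_left ha)

omit [Finite G] in
theorem cj_FFt {V L N : Subgroup G} (hV : L ≤ 𝐍 V) (hN : L ≤ 𝐍 N) {g : G} (hg : g ∈ L) (t : G) :
    cj g (FFt V L N t) = FFt V L N (g * t * g⁻¹) := by
  rw [FFt, FFt, cj_sup, cj_commutator, cj_zpowers, cj_eq_self (hN hg),
    cj_eq_self (le_normalizer_inf le_normalizer (le_normalizer_centralizer hV) hg)]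

omit [Finite G] in
theorem cj_EEt {V L N : Subgroup G} (hV : L ≤ 𝐍 V) (hN : L ≤ 𝐍 N) {g : G} (hg : g ∈ L) (t : G) :
    cj g (EEt V L N t) = EEt V L N (g * t * g⁻¹) := by
  rw [EEt, EEt, cj_sup, cj_FFt hV hN hg, cj_zpowers]

theorem comm_inf_cen {V C F : Subgroup G} (hV : IsElementaryAbelian 2 V) (hF : F ≤ 𝐍 V)
    (hC : C ≤ 𝐂 V) (hCF : C ≤ F) (hn : F ≤ 𝐍 C) (h3 : C.relIndex F = 3) :
    ⁅V, F⁆ ⊓ 𝐂 F = ⊥ := by
  haveI : Fact (Nat.Prime 2) := ⟨Nat.prime_two⟩
  obtain ⟨x, hx, h2, hxC⟩ : ∃ x ∈ F, (orderOf x).Coprime 2 ∧ x ∉ C := by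
    by_contra hne
    push Not at hne
    have h1 := pMod_of_pResidualOf_le (pResidualOf_le_iff.2 hne)
    have : F ≤ C := fun y hy => by
      obtain ⟨k, hk⟩ := h1 y hy
      exact mem_of_pow_mem_of_pow_mem (Nat.Coprime.pow_left k (by norm_num : Nat.Coprime 2 3)) hk
        (cube_mem hn h3 hy)
    rw [relIndex_eq_one.2 this] at h3
    omega
  haveI := le_centralizer_self_iff.1 (ea_le_centralizer hV)
  have h1 := H2.centralizer_inf_commutator_eq_bot (A := zpowers x) (V := V)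
    (zpowers_le.2 (hF hx)) (H2.coprime_card_of_isPGroup (ea_isPGroup hV)
      (by rwa [Nat.card_zpowers]))
  have e : ⁅V, F⁆ = ⁅V, zpowers x⁆ := by
    conv_lhs => rw [← sup_zpowers_eq_of_relIndex_prime (h3 ▸ Nat.prime_three) hCF hx hxC]
    rw [commutator_sup_eq (hCF.trans hF) (zpowers_le.2 (hF hx)),
      commutator_eq_bot_iff'.2 hC, bot_sup_eq]
  rw [eq_bot_iff, ← h1, e, inf_comm]
  exact inf_le_inf_right _ (centralizer_anti (zpowers_le.2 hx))

theorem norm_wOf {J K H A : Subgroup G} (h : JC J K) (s : SubnIn K H) (hs : Group.IsSolvable H)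
    (hA : MaxAb 2 H A) : A ≤ 𝐍 (wOf K) := by
  haveI : Fact (Nat.Prime 2) := ⟨Nat.prime_two⟩
  have hKH := s.le
  have hO : pCoreOf 2 H ≤ 𝐍 K := by
    have := s.pCoreOf_le_normalizer (p := 2)
    rwa [h.res] at this
  have hOO : pCoreOf 2 K ≤ pCoreOf 2 H := s.pCoreOf_le
  have hKO : ⁅K, pCoreOf 2 H⁆ ≤ pCoreOf 2 K := by
    rw [s.pCoreOf_eq]
    exact le_inf (commutator_le_of_le_normalizer hO)
      (commutator_le_of_le_normalizer' (hKH.trans (le_normalizer_pCoreOf 2 H)))
  have hWO := h.le_centralizer_wOf (isPGroup_pCoreOf 2 H) hO hKO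
  have hWV : wOf K ≤ VL H := le_omegaOneCenter ((wOf_le_pCoreOf K).trans hOO)
    (le_centralizer_comm.1 hWO) (ea_wOf K).2
  set W := wOf K with hW
  set V := nclIn W H with hVdef
  have hVL : V ≤ VL H := nclIn_le hWV (le_normalizer_VL H)
  have hVe : IsElementaryAbelian 2 V := ea_of_le (ea_omegaOneCenter _ _) hVL
  have hV : H ≤ 𝐍 V := le_normalizer_nclIn W H
  have hVH : V ≤ H := hVL.trans ((VL_le H).trans (pCoreOf_le _ _))
  have hWV' : W ≤ V := le_nclIn W H
  have hVK : ⁅V, K⁆ = W := le_antisymm ((commutator_mono hVL le_rfl).trans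
    (ZL.commutator_VL_le h.toK3 hKH hO hOO))
    (h.commutator_wOf.ge.trans (commutator_mono hWV' le_rfl))
  set C := H ⊓ 𝐂 V with hCdef
  have hHC : H ≤ 𝐍 C := le_normalizer_inf le_normalizer (le_normalizer_centralizer hV)
  have hVKC : ⁅V, K ⊔ C⁆ = W := by
    rw [commutator_sup_eq (hKH.trans hV) (inf_le_left.trans hV), hVK,
      commutator_eq_bot_iff'.2 (inf_le_right : C ≤ 𝐂 V), sup_bot_eq]
  have hOC : pCoreOf 2 K ≤ C := le_inf ((pCoreOf_le 2 K).trans hKH)
    (hOO.trans ((le_centralizer_omegaOneCenter _ _).trans (centralizer_anti hVL)))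
  have hred : IsPRed 2 V H := by
    refine ⟨hVH, hV, hVe, fun D h1 h2 h3 => ?_⟩
    have h4 := norm_sup s h1 h2 hHC (h3.inf.mono le_rfl (inf_le_inf_right _ h1))
    rw [h.res] at h4
    have h5 : D ≤ 𝐍 W := hVKC ▸ le_normalizer_commutator (h1.trans hV) h4
    obtain ⟨T, hT⟩ := exists_isSylowIn 2 D
    have h6 := h3.le_sup_sylow (h1.trans (le_normalizer_centralizer hV)) hT
    have h7 : W ⊓ 𝐂 T ≤ W ⊓ 𝐂 D := by
      refine le_inf inf_le_left ?_
      rw [← h6, H28.centralizer_sup]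
      exact le_inf (inf_le_left.trans (le_centralizer_comm.1
        (inf_le_right.trans (centralizer_anti hWV')))) inf_le_right
    have h8 := (h.irr inf_le_left (le_normalizer_inf (le_normalizer_wOf K)
      (le_normalizer_centralizer (hKH.trans h2)))).resolve_left fun e =>
        inf_centralizer_ne_bot hT.isPGroup (isPGroup_wOf K) (hT.le.trans h5) h.wOf_ne_bot
          (eq_bot_iff.2 (e ▸ h7))
    refine le_centralizer_comm.1 (nclIn_le_iff.2 fun g hg => ?_)
    rw [← cj_eq_self (h2 hg), ← cj_centralizer]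
    exact cj_mono g (h8.ge.trans inf_le_right)
  haveI := hs
  obtain ⟨N, B, f⟩ := H28.exists_ffs hred (H1.isPSolvable_of_isSolvable inferInstance)
  refine (f.gen A hA).trans (sup_le ((closure_le _).2 ?_) (le_normalizer_of_le_centralizer
    (inf_le_right.trans (centralizer_anti hWV'))))
  rintro t ⟨htA, ht⟩
  have htH : t ∈ H := hA.le htA
  have t2 : t ^ 2 = 1 := hA.abE.2 t htA
  obtain ⟨x, hx, x3, hxO⟩ := h.exists_three
  have x3' : x = x * x * (x * x) := by
    have := pow_orderOf_eq_one x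
    rw [x3] at this
    calc x = x ^ 3 * x := by rw [this, one_mul]
      _ = _ := by rw [pow_succ, sq]; group
  have hxH := hKH hx
  set F := FFt V H N t with hF
  have hCF : C ≤ F := le_sup_right
  have hFH : F ≤ H := (f.FF_le ht).trans f.le
  have h3 : C.relIndex F = 3 := f.three t ht
  have hUf := comm_inf_cen hVe (hFH.trans hV) inf_le_right hCF (hFH.trans hHC) h3
  have hAF : A ≤ 𝐍 F := hA.le_JJ.trans (f.nrm_FF hV ht)
  have hUV : ⁅V, F⁆ ≤ V := commutator_le_of_le_normalizer (hFH.trans hV)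
  have hAU : A ≤ 𝐍 ⁅V, F⁆ := le_normalizer_commutator (hA.le.trans hV) hAF
  set U := ⁅V, F⁆ with hU
  by_cases hxE : x ∈ 𝐍 (EEt V H N t)
  · have hxF : x ∈ 𝐍 F := by
      rw [hF, ← f.EE_inf hV ht]
      exact le_normalizer_inf (zpowers_le.2 hxE) (zpowers_le.2 (f.nn hxH)) (mem_zpowers x)
    have hKF : K ≤ 𝐍 F := by
      rw [← h.sup_zpowers hx hxO]
      exact sup_le (hOC.trans (hCF.trans le_normalizer)) (zpowers_le.2 hxF)
    have hKU : K ≤ 𝐍 U := le_normalizer_commutator (hKH.trans hV) hKF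
    rcases h.irr (inf_le_left : W ⊓ U ≤ W) (le_normalizer_inf (le_normalizer_wOf K) hKU) with e | e
    · have h1 : K ≤ 𝐂 U := commutator_eq_bot_iff'.1 (eq_bot_iff.2 (e ▸ le_inf
        ((commutator_mono hUV le_rfl).trans hVK.le) (commutator_le_of_le_normalizer hKU)))
      have h2 : ⁅t, x⁆ ∈ C := by
        refine f.faith t ht ⟨commutator_le_of_le_normalizer (zpowers_le.2 hxE)
          (commutator_mem_commutator (mem_sup_right (mem_zpowers t)) (mem_zpowers x)), ?_⟩
        exact commutator_le_of_le_normalizer' (le_normalizer_centralizer hAU)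
          (commutator_mem_commutator htA (h1 hx))
      refine mem_normalizer_of_cj_le ?_
      conv_lhs => rw [← hVK, cj_commutator, cj_eq_self (hV htH)]
      refine (commutator_mono le_rfl ?_).trans hVKC.le
      conv_lhs => rw [← h.sup_zpowers hx hxO, cj_sup, cj_zpowers]
      refine sup_le ((cj_le_of_mem_normalizer hOC (hHC htH)).trans le_sup_right) (zpowers_le.2 ?_)
      have e2 : t * x * t⁻¹ = ⁅t, x⁆ * x := by rw [commutatorElement_def]; group
      rw [e2]
      exact mul_mem (mem_sup_right h2) (mem_sup_left hx)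
    · have h1 := card_le_four hCF (hFH.trans hHC) h3 (ea_of_le hVe hUV) (hUV.trans hVH) hA hAF
        (hA.le.trans hHC) hAU (le_normalizer_commutator_right _ _)
        (inf_le_right.trans (centralizer_anti hUV)) hUf htA (f.not_mem_Cz hV ht t2)
      have h2 : W = U := eq_of_le_of_card_le (e.ge.trans inf_le_right) (by rw [h.card]; exact h1)
      rw [h2]
      exact hAU htA
  · have hc : ∀ g ∈ H, g ∉ 𝐍 (EEt V H N t) → cj g U ≤ 𝐂 (EEt V H N t) := fun g hg hn => by
      have h1 := (f.pair _ (f.conj t ht g hg) t ht).resolve_left fun e =>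
        hn (mem_normalizer_iff_cj.2 (by rw [cj_EEt hV f.nn hg, e]))
      refine le_trans ?_ h1.1
      rw [hU, cj_commutator, cj_eq_self (hV hg), hF, cj_FFt hV f.nn hg]
      exact commutator_mono le_rfl le_sup_left
    have c1 := hc x hxH hxE
    have c2 := hc (x * x) (mul_mem hxH hxH) fun e => hxE (x3' ▸ mul_mem e e)
    have hU1V : cj x U ≤ V := cj_le_of_mem_normalizer hUV (hV hxH)
    have h1 : #(cj x U) ≤ #↥(W ⊓ 𝐂 (EEt V H N t)) := by
      refine Nat.card_le_card_of_injective (fun u => ⟨⁅(u : G), x⁆⁻¹, inv_mem ⟨hVK.le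
        (commutator_mem_commutator (hU1V u.2) hx), ?_⟩⟩) fun u v e => ?_
      · have e2 : ⁅(u : G), x⁆ = u * (x * (u : G)⁻¹ * x⁻¹) := by rw [commutatorElement_def]; group
        rw [e2]
        refine mul_mem (c1 u.2) (c2 ?_)
        rw [← cj_cj]
        exact conj_mem_cj (inv_mem u.2)
      · have e1 : ⁅(u : G), x⁆ = ⁅(v : G), x⁆ := inv_injective (congrArg Subtype.val e)
        have e2 : x⁻¹ * ((v : G)⁻¹ * u) * x = (v : G)⁻¹ * u := by
          simp only [commutatorElement_def, mul_left_inj] at e1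
          have e3 : (v : G)⁻¹ * u * x = x * ((v : G)⁻¹ * u) := by
            calc (v : G)⁻¹ * u * x = (v : G)⁻¹ * (u * x * (u : G)⁻¹) * u := by group
              _ = _ := by rw [e1]; group
          rw [mul_assoc, e3]; group
        have h2 : (v : G)⁻¹ * u ∈ cj x U := mul_mem (inv_mem v.2) u.2
        have h4 : (v : G)⁻¹ * u ∈ U ⊓ 𝐂 F :=
          ⟨e2 ▸ mem_cj.1 h2, centralizer_anti le_sup_left (c1 h2)⟩
        rw [hUf, mem_bot, inv_mul_eq_one] at h4
        exact Subtype.ext h4.symm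
    rw [card_cj] at h1
    have u0 : U ≠ ⊥ := fun e => by
      rw [relIndex_eq_one.2 (le_inf hFH (commutator_eq_bot_iff'.1 e) : F ≤ C)] at h3
      omega
    have u2 : #U ≠ 2 := fun e => u0 (eq_bot_iff.2 (hUf ▸ le_inf le_rfl (le_centralizer_comm.1
      fun k hk => mem_centralizer_of_card_two e (le_normalizer_commutator_right _ _ hk))))
    have u1 : #U ≠ 1 := fun e => u0 (card_eq_one.1 e)
    have u3 : 0 < #U := Nat.card_pos
    have e : W ⊓ 𝐂 (EEt V H N t) = W := by
      by_contra e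
      by_cases e0 : W ⊓ 𝐂 (EEt V H N t) = ⊥
      · rw [e0, card_bot] at h1; omega
      · have h9 : #↥(W ⊓ 𝐂 (EEt V H N t)) = 2 :=
          card_eq_two_of_lt_four h.card inf_le_left e0 e
        omega
    exact centralizer_le_normalizer _ (le_centralizer_comm.1 (e.ge.trans inf_le_right)
      (mem_sup_right (mem_zpowers t)))

end H8.JC
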