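import Mathlib

/-!
Arithmetic of the order formulas of the groups of Lie type: the order against the `p`-part.
-/

namespace H8

/-- the two bounds of an order against its `p`-part -/
def OrdBd (p g : ℕ) : Prop := g < p ^ (3 * g.factorization p) ∧ g ^ 3 < p ^ (8 * g.factorization p)

theorem le_fact_of_mul {p q e d g N M : ℕ} (hp : p.Prime) (hq : q = p ^ e) (hd : ¬ p ∣ d)
    (hg : g ≠ 0) (h : d * g = q ^ N * M) : e * N ≤ g.factorization p := by
  rw [← hp.pow_dvd_iff_le_factorization hg]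
  have : p ^ (e * N) ∣ d * g := by rw [h, hq, ← pow_mul]; exact Dvd.intro _ rfl
  exact (Nat.Coprime.pow_left _ ((Nat.Prime.coprime_iff_not_dvd hp).2 hd)).dvd_of_dvd_mul_left this

theorem lt_of_mul_lt {q d g N M a : ℕ} (hq : 0 < q) (h : d * g = q ^ N * M) (hM : M < d * q ^ a) :
    g < q ^ (N + a) := by
  have h1 : d * g < d * q ^ (N + a) := by
    rw [h, pow_add, mul_left_comm]
    exact Nat.mul_lt_mul_of_pos_left hM (pow_pos hq _)
  exact Nat.lt_of_mul_lt_mul_left h1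

theorem ordBd_of {p q e d g N M a : ℕ} (hp : p.Prime) (hq : q = p ^ e) (hd : ¬ p ∣ d)
    (hg : g ≠ 0) (h : d * g = q ^ N * M) (hM : M < d * q ^ a) (ha : 3 * a ≤ 5 * N) : OrdBd p g := by
  have h1 := le_fact_of_mul hp hq hd hg h
  have h2 := lt_of_mul_lt (hq ▸ pow_pos hp.pos e) h hM
  rw [hq, ← pow_mul] at h2
  refine ⟨h2.trans_le (Nat.pow_le_pow_right hp.pos ?_), ?_⟩
  · nlinarith
  · refine (Nat.pow_lt_pow_left h2 (by norm_num)).trans_le ?_
    rw [← pow_mul]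
    refine Nat.pow_le_pow_right hp.pos ?_
    nlinarith

theorem not_dvd_gcd_sub {p q e : ℕ} (hp : p.Prime) (hq : q = p ^ e) (he : e ≠ 0) (c k : ℕ) (hk : k ≠ 0) :
    ¬ p ∣ Nat.gcd c (q ^ k - 1) := fun h => by
  have h1 := h.trans (Nat.gcd_dvd_right _ _)
  have h2 : p ∣ q ^ k := dvd_pow (hq ▸ dvd_pow_self p he) hk
  have h3 : 1 ≤ q ^ k := Nat.one_le_pow _ _ (hq ▸ pow_pos hp.pos e)
  have := (Nat.dvd_sub h2 h1)
  rw [Nat.sub_sub_self h3] at this
  exact hp.one_lt.ne' (Nat.dvd_one.1 this)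

theorem not_dvd_add {p q e : ℕ} (hp : p.Prime) (hq : q = p ^ e) (he : e ≠ 0) (k : ℕ) (hk : k ≠ 0) :
    ¬ p ∣ q ^ k + 1 := fun h => by
  have h2 : p ∣ q ^ k := dvd_pow (hq ▸ dvd_pow_self p he) hk
  exact hp.one_lt.ne' (Nat.dvd_one.1 ((Nat.dvd_add_right h2).1 h))

theorem not_dvd_sub {p q e : ℕ} (hp : p.Prime) (hq : q = p ^ e) (he : e ≠ 0) (k : ℕ) (hk : k ≠ 0) :
    ¬ p ∣ q ^ k - 1 := by
  simpa using not_dvd_gcd_sub hp hq he 0 k hk

theorem not_dvd_gcd_add {p q e : ℕ} (hp : p.Prime) (hq : q = p ^ e) (he : e ≠ 0) (c k : ℕ) (hk : k ≠ 0) :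
    ¬ p ∣ Nat.gcd c (q ^ k + 1) := fun h => not_dvd_add hp hq he k hk (h.trans (Nat.gcd_dvd_right _ _))

theorem exists_pow_of_card {p : ℕ} (hp : p.Prime) (K : Type*) [Field K] [Fintype K] [CharP K p] {q k : ℕ}
    (h : Fintype.card K = q ^ k) (hk : k ≠ 0) : ∃ e, e ≠ 0 ∧ q = p ^ e := by
  haveI := Fact.mk hp
  obtain ⟨n, -, hn⟩ := FiniteField.card K p
  have h1 : q ∣ p ^ (n : ℕ) := hn ▸ h ▸ dvd_pow_self q hk
  obtain ⟨e, -, he⟩ := (Nat.dvd_prime_pow hp).1 h1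
  refine ⟨e, fun h0 => ?_, he⟩
  have := Fintype.one_lt_card (α := K)
  rw [h, he, h0] at this
  simp at this

theorem pow_sub_lt {q : ℕ} (hq : 0 < q) (k : ℕ) : q ^ k - 1 < q ^ k :=
  Nat.sub_lt (pow_pos hq k) one_pos

theorem pow_add_le {q : ℕ} (hq : 2 ≤ q) (k : ℕ) : q ^ k + 1 ≤ q ^ (k + 1) := by
  have : 1 ≤ q ^ k := Nat.one_le_pow _ _ (by omega)
  rw [pow_succ]; nlinarith

theorem prod_even_lt {q : ℕ} (hq : 0 < q) {m : ℕ} (hm : m ≠ 0) :
    ∏ i ∈ Finset.range m, (q ^ (2 * (i + 1)) - 1) < q ^ (m * (m + 1)) := by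
  induction m with
  | zero => exact absurd rfl hm
  | succ m ih =>
    rw [Finset.prod_range_succ, show (m + 1) * (m + 1 + 1) = m * (m + 1) + 2 * (m + 1) by ring, pow_add]
    rcases Nat.eq_zero_or_pos m with rfl | h
    · simpa using pow_sub_lt hq 2
    · exact Nat.mul_lt_mul'' (ih h.ne') (pow_sub_lt hq _)

/-- the factors of the order of a unitary group -/
def uf (q i : ℕ) : ℕ := if Even i then q ^ (i + 1) + 1 else q ^ (i + 1) - 1

theorem uf_pair {q : ℕ} (hq : 2 ≤ q) (k : ℕ) :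
    (q ^ (2 * k + 2) - 1) * (q ^ (2 * k + 3) + 1) < q ^ (4 * k + 5) := by
  have h1 : 1 ≤ q ^ (2 * k + 2) := Nat.one_le_pow _ _ (by omega)
  obtain ⟨x, hx⟩ := Nat.exists_eq_add_of_le h1
  rw [show 4 * k + 5 = (2 * k + 2) + (2 * k + 2) + 1 by ring, show 2 * k + 3 = (2 * k + 2) + 1 by ring,
    pow_succ q (2 * k + 2 + (2 * k + 2)), pow_add q (2 * k + 2) (2 * k + 2), pow_succ q (2 * k + 2), hx,
    Nat.add_sub_cancel_left]
  nlinarith

theorem prod_uf_odd {q : ℕ} (hq : 2 ≤ q) (k : ℕ) :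
    ∏ i ∈ Finset.range (2 * k + 1), uf q i ≤ (q + 1) * q ^ (k * (2 * k + 3)) := by
  induction k with
  | zero => simp [uf]
  | succ k ih =>
    rw [show 2 * (k + 1) + 1 = 2 * k + 1 + 1 + 1 by ring, Finset.prod_range_succ, Finset.prod_range_succ, mul_assoc,
      show (k + 1) * (2 * (k + 1) + 3) = k * (2 * k + 3) + (4 * k + 5) by ring, pow_add, ← mul_assoc (q + 1)]
    refine Nat.mul_le_mul ih ?_
    have e1 : ¬ Even (2 * k + 1) := by simp
    have e2 : Even (2 * k + 1 + 1) := ⟨k + 1, by ring⟩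
    rw [uf, uf, if_neg e1, if_pos e2]
    exact (uf_pair hq k).le

theorem prod_uf_lt {q : ℕ} (hq : 2 ≤ q) {n : ℕ} (hn : 3 ≤ n) : ∃ a, 3 * a ≤ 5 * (n * (n - 1) / 2) ∧
    ∏ i ∈ Finset.range n, uf q i < (q + 1) * q ^ a := by
  have hpos : ∀ k, 0 < (q + 1) * q ^ k := fun k => by positivity
  obtain ⟨k, rfl | rfl⟩ : ∃ k, n = 2 * k + 3 ∨ n = 2 * k + 4 := ⟨(n - 3) / 2, by omega⟩
  · refine ⟨k * (2 * k + 3) + (4 * k + 5), ?_, ?_⟩
    · rw [show (2 * k + 3) * (2 * k + 3 - 1) = 2 * ((2 * k + 3) * (k + 1)) by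
        rw [show 2 * k + 3 - 1 = 2 * k + 2 by omega]; ring, Nat.mul_div_cancel_left _ two_pos]
      nlinarith
    · rw [show 2 * k + 3 = 2 * k + 1 + 1 + 1 by ring, Finset.prod_range_succ, Finset.prod_range_succ, mul_assoc,
        pow_add, ← mul_assoc (q + 1)]
      have e1 : ¬ Even (2 * k + 1) := by simp
      have e2 : Even (2 * k + 1 + 1) := ⟨k + 1, by ring⟩
      refine Nat.mul_lt_mul_of_le_of_lt (prod_uf_odd hq k) ?_ (hpos _)
      rw [uf, uf, if_neg e1, if_pos e2]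
      exact uf_pair hq k
  · refine ⟨(k + 1) * (2 * (k + 1) + 3) + (2 * k + 4), ?_, ?_⟩
    · rw [show (2 * k + 4) * (2 * k + 4 - 1) = 2 * ((k + 2) * (2 * k + 3)) by
        rw [show 2 * k + 4 - 1 = 2 * k + 3 by omega]; ring, Nat.mul_div_cancel_left _ two_pos]
      nlinarith
    · rw [show 2 * k + 4 = 2 * (k + 1) + 1 + 1 by ring, Finset.prod_range_succ, pow_add, ← mul_assoc (q + 1)]
      have e1 : ¬ Even (2 * (k + 1) + 1) := by simp
      refine Nat.mul_lt_mul_of_le_of_lt (prod_uf_odd hq (k + 1)) ?_ (hpos _)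
      rw [uf, if_neg e1]
      exact pow_sub_lt (by omega) _

theorem prod_gl_eq (q n : ℕ) : ∏ i ∈ Finset.range n, (q ^ n - q ^ i) =
    q ^ (n * (n - 1) / 2) * ∏ i ∈ Finset.range n, (q ^ (i + 1) - 1) := by
  rw [← Finset.prod_range_reflect (fun i => q ^ (i + 1) - 1), ← Finset.sum_range_id, ← Finset.prod_pow_eq_pow_sum,
    ← Finset.prod_mul_distrib]
  refine Finset.prod_congr rfl fun i hi => ?_
  rw [Finset.mem_range] at hi
  rw [Nat.mul_sub_one, ← pow_add]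
  congr 2; omega

theorem prod_gl_lt {q : ℕ} (hq : 2 ≤ q) (n : ℕ) :
    ∏ i ∈ Finset.range (n + 2), (q ^ (i + 1) - 1) < (q - 1) * q ^ ((n + 1) * (n + 4) / 2) := by
  induction n with
  | zero =>
    simp only [Finset.prod_range_succ, Finset.range_zero, Finset.prod_empty]
    have := pow_sub_lt (by omega : 0 < q) 2
    simp only [zero_add, pow_one, one_mul]
    exact Nat.mul_lt_mul_of_pos_left this (by omega)
  | succ n ih =>
    have e : (n + 1 + 1) * (n + 1 + 4) / 2 = (n + 1) * (n + 4) / 2 + (n + 2 + 1) := by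
      rw [show (n + 1 + 1) * (n + 1 + 4) = (n + 1) * (n + 4) + 2 * (n + 2 + 1) by ring,
        Nat.add_mul_div_left _ _ two_pos]
    rw [show n + 1 + 2 = n + 2 + 1 by ring, Finset.prod_range_succ, e, pow_add q _ (n + 2 + 1), ← mul_assoc]
    exact Nat.mul_lt_mul'' ih (pow_sub_lt (by omega) _)

theorem gl_exp {n : ℕ} (hn : 1 ≤ n) : 3 * ((n + 1) * (n + 4) / 2) ≤ 5 * ((n + 2) * (n + 2 - 1) / 2) := by
  have h1 : 2 ∣ (n + 1) * (n + 4) := by
    have := Nat.even_mul_succ_self (n + 1)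
    rw [show (n + 1) * (n + 4) = (n + 1) * (n + 1 + 1) + 2 * (n + 1) by ring]
    exact dvd_add this.two_dvd (Dvd.intro _ rfl)
  have h2 : 2 ∣ (n + 2) * (n + 2 - 1) := by
    have := Nat.even_mul_succ_self (n + 1)
    rw [show n + 2 - 1 = n + 1 by omega, mul_comm]
    exact this.two_dvd
  obtain ⟨a, ha⟩ := h1
  obtain ⟨b, hb⟩ := h2
  rw [ha, hb, Nat.mul_div_cancel_left _ two_pos, Nat.mul_div_cancel_left _ two_pos]
  rw [show n + 2 - 1 = n + 1 by omega] at hb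
  nlinarith

end H8
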