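import Cfsg.Agent.H8.Mart1
import Cfsg.Agent.H2.Action
import Cfsg.Agent.S0021

/-!
Martineau's theorem in rank two: a finite group admitting a fixed-point-free elementary abelian
group of automorphisms of order `r²` is solvable.
-/

set_option autoImplicit false

namespace H8.Mt
open Cfsg Subgroup H19
open H2 (FacIn Permutes)

universe u
variable {Γ : Type u} [Group Γ] [Finite Γ] {A B B' D G H H₁ H₂ K L P Q R S T U V X : Subgroup Γ}
  {r p q : ℕ} {π : Set ℕ}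

/-- a minimal counterexample -/
structure Mc (r : ℕ) (A G : Subgroup Γ) : Prop extends Fp r A G where
  lt : ∀ K, K < G → A ≤ N(K) → Sol K
  nn : ∀ K, K ≤ G → A ≤ N(K) → K ≠ ⊥ → Sol K → ¬ G ≤ N(K)
  ns : ¬ Sol G

/-- invariant `π`-subgroups -/
structure Hh (π : Set ℕ) (A G H : Subgroup Γ) : Prop where
  le : H ≤ G
  nm : A ≤ N(H)
  pi : PiG π H

omit [Finite Γ] in
theorem Hh.mono (h : Hh π A G H) (h1 : K ≤ H) (h2 : A ≤ N(K)) : Hh π A G K :=
  ⟨h1.trans h.le, h2, h.pi.of_le h1⟩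

theorem Mc.solN (h : Mc r A G) (h1 : K ≤ G) (h2 : A ≤ N(K)) (h3 : K ≠ ⊥) (h4 : Sol K) :
    Sol (G ⊓ N(K)) :=
  h.lt _ (inf_lt_left.2 (h.nn K h1 h2 h3 h4)) (norms_inf h.nm (norms_norm h2))

theorem Mc.join (h : Mc r A G) (hU : Hh π A G U) (hV : Hh π A G V) (hK : Hh π A G K) (h3 : K ≠ ⊥)
    (h4 : Sol K) (n1 : U ≤ N(K)) (n2 : V ≤ N(K)) : Hh π A G (U ⊔ V) :=
  ⟨sup_le hU.le hV.le, norms_sup hU.nm hV.nm,
    (h.mono inf_le_left (norms_inf h.nm (norms_norm hK.nm))).hall_sup (h.solN hK.le hK.nm h3 h4)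
      (le_inf hU.le n1) hU.nm hU.pi (le_inf hV.le n2) hV.nm hV.pi⟩

theorem Mc.not_npc (h : Mc r A G) (hp : p.Prime) (hd : p ∣ #G) : ¬ Hall {p}ᶜ (Oc {p}ᶜ G) G := by
  intro hh
  have h1 : Oc {p}ᶜ G < G := lt_of_le_of_ne hh.le fun e => (e ▸ hh.pi).not_dvd hp rfl hd
  by_cases e : Oc {p}ᶜ G = ⊥
  · rw [e] at hh
    exact h.ns (PiN.sol (p := p) (by simpa using hh.pi'_of_eq_bot))
  · exact h.nn _ hh.le (norms_Oc _ h.nm) e (h.lt _ h1 (norms_Oc _ h.nm)) (Oc_norm _ _)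

/-- two invariant Sylow subgroups that do not permute -/
structure Cx (r p q : ℕ) (π : Set ℕ) (A G P Q : Subgroup Γ) : Prop extends Mc r A G where
  pp : p.Prime
  qp : q.Prime
  ne : p ≠ q
  hπ : π = {p, q}
  sP : Syl p P G
  nP : A ≤ N(P)
  sQ : Syl q Q G
  nQ : A ≤ N(Q)
  np : ∀ H, Hh π A G H → P ≤ H → ¬ Q ≤ H

/-- the largest invariant `π`-subgroup containing `P` -/
structure Tp (π : Set ℕ) (A G P H₁ : Subgroup Γ) : Prop extends Hh π A G H₁ where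
  ge : P ≤ H₁
  max : ∀ H, Hh π A G H → P ≤ H → H ≤ H₁

namespace Cx
variable (h : Cx r p q π A G P Q)
include h

omit [Finite Γ] in
theorem symm : Cx r q p π A G Q P :=
  ⟨h.toMc, h.qp, h.pp, h.ne.symm, h.hπ.trans (Set.pair_comm _ _), h.sQ, h.nQ, h.sP, h.nP,
    fun H a b c => h.np H a c b⟩
omit [Finite Γ] in
theorem pm : p ∈ π := h.hπ ▸ Or.inl rfl
omit [Finite Γ] in
theorem sub (h1 : U ≤ P) (h2 : A ≤ N(U)) : Hh π A G U :=
  ⟨h1.trans h.sP.le, h2, (h.sP.pi.of_le h1).sing h.pm⟩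
omit [Finite Γ] in
theorem hP : Hh π A G P := h.sub le_rfl h.nP
omit [Finite Γ] in
theorem sol (hH : Hh π A G H) : Sol H :=
  h.lt _ (lt_of_le_of_ne hH.le fun e => h.np H hH (e ▸ h.sP.le) (e ▸ h.sQ.le)) hH.nm
omit [Finite Γ] in
theorem ne_bot : P ≠ ⊥ := fun e => h.np Q h.symm.hP (e ▸ bot_le) le_rfl
theorem join (hU : Hh π A G U) (hV : Hh π A G V) (hK : Hh π A G K) (h3 : K ≠ ⊥)
    (n1 : U ≤ N(K)) (n2 : V ≤ N(K)) : Hh π A G (U ⊔ V) :=
  h.toMc.join hU hV hK h3 (h.sol hK) n1 n2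
theorem leP (hU : Hh π A G U) (pU : PG p U) : U ≤ P := h.syl_le h.sP h.nP hU.le hU.nm pU
theorem syl (hH : Hh π A G H) : Syl p (P ⊓ H) H := h.syl_inf h.sP h.nP hH.le hH.nm
omit [Finite Γ] in
theorem cop' (h1 : PG p U) (h2 : PG q V) : (#U).Coprime #V := h1.coprime (h2.sing_ne h.ne.symm)
theorem fac (hH : Hh π A G H) : FacIn (P ⊓ H) (Q ⊓ H) H := by
  refine (H2.facIn_of_coprime_relIndex (A := P ⊓ H) (B := Q ⊓ H) (L := H) ?_).mono
    inf_le_left inf_le_left le_rfl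
  refine Nat.coprime_of_dvd fun s hs d1 d2 => ?_
  have := hH.pi s hs (d1.trans (relIndex_dvd_card _ H))
  rw [h.hπ] at this
  rcases this with rfl | rfl
  · exact (h.syl hH).not_dvd hs d1
  · exact (h.symm.syl hH).not_dvd hs d2
theorem Oc' (hH : Hh π A G H) : Oc {q}ᶜ H = Oc {p} H := Oc_congr fun s hs hd => by
  have := hH.pi s hs hd
  rw [h.hπ] at this
  rcases this with rfl | rfl
  · simpa using h.ne
  · simpa using h.ne.symm
omit h in
theorem hO (hH : Hh π A G H) (ρ : Set ℕ) : Hh π A G (Oc ρ H) := hH.mono (Oc_le _ _) (norms_Oc _ hH.nm)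
theorem OP (hH : Hh π A G H) : Oc {p} H ≤ P := h.leP (hO hH _) (Oc_pi _ _)
omit [Finite Γ] in
theorem hZ : Hh π A G Z(P) := h.sub inf_le_left (norms_inf h.nP (norms_cent h.nP))
theorem Z_ne : Z(P) ≠ ⊥ := h.sP.pi.center_ne_bot h.ne_bot

theorem exists_tp : ∃ H₁, Tp π A G P H₁ := by
  obtain ⟨H₁, ⟨h1, h2⟩, h3⟩ := (wellFounded_gt (α := Subgroup Γ)).has_min
    {H | Hh π A G H ∧ P ≤ H} ⟨P, h.hP, le_rfl⟩
  refine ⟨H₁, h1, h2, fun H hH hP => ?_⟩
  have f : ∀ K, Hh π A G K → P ≤ K → Permutes (Q ⊓ K) P ∧ K ≤ P ⊔ Q ⊓ K := fun K a b => by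
    have := h.fac a
    rw [inf_eq_left.2 b] at this
    exact ⟨H2.permutes_of_facIn this.symm inf_le_right b, this.le_sup⟩
  have f1 := (f _ h1 h2).1.sup_left (f _ hH hP).1
  have a : Hh π A G (Q ⊓ H₁ ⊔ Q ⊓ H ⊔ P) := by
    have b : Q ⊓ H₁ ⊔ Q ⊓ H ≤ Q := sup_le inf_le_left inf_le_left
    have c := h.symm.sub b (norms_sup (norms_inf h.nQ h1.nm) (norms_inf h.nQ hH.nm))
    exact ⟨sup_le c.le h.sP.le, norms_sup c.nm h.nP,
      (c.pi.mul h.hP.pi).dvd (FacIn.card_dvd f1 le_sup_left le_sup_right)⟩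
  have b : H₁ ≤ Q ⊓ H₁ ⊔ Q ⊓ H ⊔ P :=
    (f _ h1 h2).2.trans (sup_le le_sup_right (le_sup_of_le_left le_sup_left))
  refine (f _ hH hP).2.trans (le_trans ?_ (b.eq_or_lt.resolve_right (h3 _ ⟨a, le_sup_right⟩)).ge)
  exact sup_le le_sup_right (le_sup_of_le_left le_sup_right)

theorem tp_le (t : Tp π A G P H₁) (hU : Hh π A G U) (hK : Hh π A G K) (h3 : K ≠ ⊥)
    (n1 : P ≤ N(K)) (n2 : U ≤ N(K)) : U ≤ H₁ :=
  le_sup_right.trans (t.max _ (h.join h.hP hU hK h3 n1 n2) le_sup_left)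
theorem tp_le' (t : Tp π A G P H₁) (hU : Hh π A G U) (hK : Hh π A G K) (h3 : K ≠ ⊥)
    (n1 : H₁ ≤ N(K)) (n2 : U ≤ N(K)) : U ≤ H₁ := h.tp_le t hU hK h3 (t.ge.trans n1) n2

theorem not_cent (hB : El r 1 B A) : ¬ P ≤ C(B) := fun e =>
  h.not_npc h.pp ((h.sP.pi.dvd_of_ne_bot h.ne_bot).trans (card_dvd h.sP.le)) (h.frob h.pp h.sP hB e)

/-- Lemma A -/
theorem lemA (t : Tp π A G P H₁) (hZ : Z(P) ≤ Oc {p} H₁) (H : Subgroup Γ) :
    Hh π A G H → Z(P) ≤ H → H ≤ H₁ := by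
  induction hX : P ⊓ H using WellFoundedGT.induction generalizing H with
  | ind X ih =>
  intro hH hZH
  by_contra hn
  have f := h.toFp
  have XP : X ≤ P := hX ▸ inf_le_left
  have XH : X ≤ H := hX ▸ inf_le_right
  have nX : A ≤ N(X) := hX ▸ norms_inf h.nP hH.nm
  have hX' := h.sub XP nX
  have ZX : Z(P) ≤ X := hX ▸ le_inf inf_le_left hZH
  have X0 : X ≠ ⊥ := ne_bot_mono ZX h.Z_ne
  have big : ∀ K W, Hh π A G K → X ≤ K → W ≤ K → W ≤ P → ¬ W ≤ X → K ≤ H₁ := fun K W a b c d e =>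
    ih _ (lt_of_le_not_ge (le_inf XP b) fun e' => e ((le_inf d c).trans e')) K rfl a (ZX.trans b)
  have hT : X < P ⊓ N(X) := h.sP.pi.lt_norm (lt_of_le_not_ge XP fun e => hn (t.max _ hH (e.trans XH)))
  set T := P ⊓ N(X) with Td
  have TP : T ≤ P := inf_le_left
  have TX : T ≤ N(X) := inf_le_right
  have nT : A ≤ N(T) := norms_inf h.nP (norms_norm nX)
  have hR := hO hH {q}
  set R := Oc {q} H
  have pR : PG q R := Oc_pi _ _
  have XR : X ≤ N(R) := XH.trans (Oc_norm _ _)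
  have R1 : ¬ R ≤ H₁ := fun e => hn <| by
    refine ((f.mono hH.le hH.nm).fratt (h.sol hH) (hX ▸ h.syl hH)).trans (sup_le ?_ ?_)
    · rwa [h.symm.Oc' hH]
    · exact le_sup_left.trans (big _ T (h.join (hH.mono inf_le_left (norms_inf hH.nm (norms_norm nX)))
        (h.sub TP nT) hX' X0 inf_le_right TX) (le_sup_of_le_right hT.le) le_sup_right TP hT.not_ge)
  obtain ⟨I, hI, Z0⟩ := f.el.exists_cent_ne_bot h.hZ.nm (f.mono h.hZ.le h.hZ.nm).pi h.Z_ne
  have nZ := f.nc' hI h.hZ.nm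
  set Z := Z(P) ⊓ C(I)
  have ZP : Z ≤ P := inf_le_left.trans inf_le_left
  have PZ : P ≤ C(Z) := cents_symm (inf_le_left.trans inf_le_right)
  have hZ' := h.sub ZP nZ
  have pZ : PG p Z := h.sP.pi.of_le ZP
  have ZR : Z ≤ N(R) := (inf_le_left.trans ZX).trans XR
  have cRZ : (#R).Coprime #Z := h.symm.cop' pR pZ
  have SR : ⁅R, Z⁆ ≤ R := commg_le_left ZR
  have SS := commg_commg ZR cRZ
  have XS : X ≤ N(⁅R, Z⁆) := norms_comm XR (norms_of_cents (XP.trans PZ))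
  have nS : A ≤ N(⁅R, Z⁆) := norms_comm hR.nm nZ
  have S1 : ¬ ⁅R, Z⁆ ≤ H₁ := fun e => R1 <|
    (commg_sup_cent ZR cRZ (Or.inl pZ.sol)).ge.trans (sup_le e (h.tp_le t
      (hR.mono inf_le_left (norms_inf hR.nm (norms_cent nZ))) hZ' Z0 (norms_of_cents PZ)
      (norms_of_cents inf_le_right)))
  set S := ⁅R, Z⁆
  have hS := hR.mono SR nS
  have pS : PG q S := pR.of_le SR
  have ZS : Z ≤ N(S) := (inf_le_left.trans ZX).trans XS
  have cSZ : (#S).Coprime #Z := h.symm.cop' pS pZ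
  have SZ : S ⊓ C(Z) ≤ ⁅S, S⁆ := by
    have n1 : S ≤ N(⁅S, S⁆) := norms_der le_normalizer
    have := ab_commg_inf_cent ((ab_quo_iff n1).2 le_rfl) (quo_norms (K := ⁅S, S⁆) ZS) (cop_quo cSZ _)
    rwa [← quo_comm n1 (norms_der ZS), SS, quo_inf_cent' (norms_der ZS) (der_le S)
      (cSZ.coprime_dvd_left (card_dvd (der_le S))) (Or.inl pZ.sol),
      quo_eq_bot_iff (inf_le_left.trans n1)] at this
  have SI : S ⊓ C(I) ≤ ⁅S, S⁆ := le_trans (le_inf inf_le_left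
    (f.cents hI hS.le h.hZ.le (h.symm.cop' pS (h.sP.pi.infl _)))) SZ
  have Sm : ∀ M, El r 1 M A → M ≠ I → ¬ S ⊓ C(M) ≤ H₁ := fun M hM ne e => by
    have a : S ⊓ C(M) ≤ C(Z) := commg_eq_bot.1 <| eq_bot_iff.2 <| by
      refine le_trans (le_inf ((commutator_mono inf_le_left le_rfl).trans SS.le) ?_)
        ((pS.sing_ne h.ne.symm).inf_eq_bot' (Oc_pi {p} H₁)).le
      exact (commutator_mono le_rfl (inf_le_left.trans hZ)).trans ((Oc_normal _ _).commg_le' e)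
    have b := f.lemT hM hS.le nS nZ pS.nil cSZ ZS ((le_inf inf_le_left a).trans SZ)
      (f.two hI hM ne.symm h.hZ.le)
    exact S1 (SS.ge.trans ((commg_eq_bot.2 (cents_symm b)).le.trans bot_le))
  have XC : ∀ M, El r 1 M A → M ≠ I → X ⊓ C(M) ≤ C(S) := fun M hM ne =>
    f.lemT hI hS.le nS (f.nc' hM nX) pS.nil (h.symm.cop' pS ((h.sP.pi.of_le XP).infl _))
      (inf_le_left.trans XS) SI (f.two hM hI ne hX'.le)
  have IX : I ≤ N(X) := hI.le.trans nX
  have XI : ⁅X, I⁆ ≤ X ⊓ C(S) := by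
    have hC := inf_cent_normal XS
    have a : X ≤ X ⊓ C(S) ⊔ X ⊓ C(I) := (f.mono hX'.le nX).gen fun M hM => by
      by_cases e : M = I
      · exact e ▸ le_sup_right
      · exact le_sup_of_le_left (le_inf inf_le_left (XC M hM e))
    refine (commutator_mono a le_rfl).trans ?_
    rw [commg_sup_cent_left inf_le_right (inf_le_left.trans hC.norm)]
    exact commg_le_left (hI.le.trans (norms_inf nX (norms_cent nS)))
  -- a common normal subgroup gives a contradiction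
  have kill : ∀ D W V, D ≤ P → A ≤ N(D) → A ≤ N(W) → A ≤ N(V) → W ≤ P → ¬ W ≤ X → V ≤ S →
      ¬ V ≤ H₁ → X ≤ N(D) → W ≤ N(D) → V ≤ C(D) → D = ⊥ := fun D W V a b c d e e' g g' n1 n2 n3 => by
    by_contra D0
    exact g' (le_sup_right.trans (big _ W (h.join (h.sub (sup_le XP e) (norms_sup nX c)) (hS.mono g d)
      (h.sub a b) D0 (sup_le n1 n2) (norms_of_cents n3)) (le_sup_of_le_left le_sup_left)
      (le_sup_of_le_left le_sup_right) e e'))
  have TS : ∀ M, El r 1 M A → T ⊓ C(M) ≤ C(S ⊓ C(M)) := fun M hM =>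
    f.cents hM (TP.trans h.sP.le) hS.le (h.cop' (h.sP.pi.of_le TP) pS)
  have XI' : X ≤ C(I) := by
    obtain ⟨M, hM, e⟩ := (f.mono (TP.trans h.sP.le) nT).exists_not_le hT.not_ge
    have nM := f.nc' hM nT
    refine commg_eq_bot.1 ?_
    by_cases e' : M = I
    · subst e'
      exact kill _ _ S ((commg_le_left IX).trans XP)
        (norms_comm nX (norms_of_comm f.el.comm le_rfl hI.le)) nM nS (inf_le_left.trans TP) e le_rfl S1
        (commg_norml _ _) (norms_comm (inf_le_left.trans TX) (norms_of_cents inf_le_right))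
        (cents_symm (XI.trans inf_le_right))
    · have nV := f.nc' hM nS
      have W1 : S ⊓ C(M) ⊔ ⁅S ⊓ C(M), X⁆ ≤ S :=
        sup_le inf_le_left ((commutator_mono inf_le_left le_rfl).trans (commg_le_left XS))
      have W2 : X ≤ N(S ⊓ C(M) ⊔ ⁅S ⊓ C(M), X⁆) := norms_of_commg_le
        (commg_sup_left_le le_sup_right (le_sup_of_le_right (commg_le_left (commg_normr _ _)))
          (norms_of_le le_sup_left) (norms_of_le le_sup_right))
      have n1 := norms_of_cents (TS M hM)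
      have n2 : T ⊓ C(M) ≤ N(X) := inf_le_left.trans TX
      have := kill (X ⊓ C(S ⊓ C(M) ⊔ ⁅S ⊓ C(M), X⁆)) _ _ (inf_le_left.trans XP)
        (norms_inf nX (norms_cent (norms_sup nV (norms_comm nV nX)))) nM nV (inf_le_left.trans TP) e
        inf_le_left (Sm M hM e') (norms_inf le_normalizer (norms_cent W2))
        (norms_inf n2 (norms_cent (norms_sup n1 (norms_comm n1 n2))))
        (cents_symm (inf_le_right.trans (cent_mono le_sup_left)))
      exact eq_bot_iff.2 (XI.trans ((inf_le_inf_left _ (cent_mono W1)).trans this.le))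
  have TI : T ≤ C(I) := (f.mono (TP.trans h.sP.le) nT).gen fun M hM => by
    by_cases e' : M = I
    · exact e' ▸ inf_le_right
    by_cases e : T ⊓ C(M) ≤ X
    · exact e.trans XI'
    have nM := f.nc' hM nT
    have a : T ⊓ C(M) ≤ C(X) := by
      rw [← commg_eq_of_cent_eq_bot (hI.le.trans nM) ((f.mono ((inf_le_left.trans TP).trans h.sP.le)
        nM).cop.coprime_dvd_right (card_dvd hI.le)) (Or.inl hI.pg.sol)
        (f.two hM hI e' (TP.trans h.sP.le))]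
      exact cent3 XI' (inf_le_left.trans TX)
    exact (kill _ _ _ (inf_le_left.trans TP) nM nM (f.nc' hM nS) (inf_le_left.trans TP) e inf_le_left
      (Sm M hM e') (norms_of_cents (cents_symm a)) le_normalizer (cents_symm (TS M hM))).le.trans bot_le
  have rp : r ≠ p := fun e => f.pi.not_dvd h.pp e.symm
    ((h.sP.pi.dvd_of_ne_bot h.ne_bot).trans (card_dvd h.sP.le))
  exact h.not_cent hI (cents_symm (PxQ h.sP.pi (h.sP.pi.of_le XP) (hI.pg.sing_ne rp) XI'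
    (norms_of_le XP) (hI.le.trans h.nP) ((inf_le_inf_left _ (cent_le_norm X)).trans TI)))

theorem Z_le (t : Tp π A G P H₁) (h0 : Oc {q} H₁ ≠ ⊥) : Z(Q) ≤ H₁ :=
  h.tp_le' t h.symm.hZ (hO t.toHh _) h0 (Oc_norm _ _)
    (norms_of_cents (inf_le_right.trans (cent_mono (h.symm.OP t.toHh))))

theorem cent_le (hH : Hh π A G H) (h0 : Oc {q} H = ⊥) : H ⊓ C(Oc {p} H) ≤ Oc {p} H :=
  H18.cent_pcore_sub (h.sol hH) (by rw [h.symm.Oc' hH, h0])

theorem Z_le_O (hH : Hh π A G H) (h0 : Oc {q} H = ⊥) (hZ : Z(P) ≤ H) : Z(P) ≤ Oc {p} H :=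
  (le_inf hZ (inf_le_right.trans (cent_mono (h.OP hH)))).trans (h.cent_le hH h0)

theorem Op_ne (t : Tp π A G P H₁) (t' : Tp π A G Q H₂) : Oc {p} H₁ ≠ ⊥ := fun e => by
  have a : Oc {q} H₁ ≠ ⊥ := fun e' => h.ne_bot <| eq_bot_iff.2 <| by
    have := h.cent_le t.toHh e'
    rw [e, cent_bot, inf_top_eq] at this
    exact t.ge.trans this
  have b := h.Z_le t a
  refine h.np H₂ t'.toHh (t.ge.trans (h.symm.lemA t' ?_ H₁ t.toHh b)) t'.ge
  exact le_Oc_of_fac (h.fac t'.toHh) (inf_le_left.trans t'.ge)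
    (inf_le_left.trans (center_normal Q).norm) (h.symm.Z_le_O t.toHh e b)
    ((inf_le_left.trans t.ge).trans (Oc_norm _ _)) (Oc_pi _ _)

theorem bender (hH : Hh π A G H) (hK : Hh π A G K) (hD : D ≤ K) (pD : PG q D) (h1 : K ⊓ N(D) ≤ H)
    (nD : A ≤ N(D)) : Oc {p} H ⊓ (K ⊓ N(D)) ≤ Oc {p} K := by
  refine (Oc_inf_le h1).trans ?_
  rw [← h.Oc' hK, ← h.Oc' (hK.mono inf_le_left (norms_inf hK.nm (norms_norm nD)))]
  exact H18.p'core_norm_pgroup pD hD (h.sol hK)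

theorem Oq_eq (t : Tp π A G P H₁) (t' : Tp π A G Q H₂) : Oc {q} H₁ = ⊥ := by
  by_contra V0
  have b := h.Z_le t V0
  have U0 : Oc {p} H₂ ≠ ⊥ := fun e => h.np H₂ t'.toHh (t.ge.trans (h.symm.lemA t'
    (h.symm.Z_le_O t'.toHh e (inf_le_left.trans t'.ge)) H₁ t.toHh b)) t'.ge
  have hO2 := hO t'.toHh {q}
  have hD : Hh π A G (Oc {q} H₂ ⊓ C(Q)) := hO2.mono inf_le_left (norms_inf hO2.nm (norms_cent h.nQ))
  have D0 : Oc {q} H₂ ⊓ C(Q) ≠ ⊥ := (Oc_pi _ _).meet_cent h.sQ.pi (t'.ge.trans (Oc_norm _ _))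
    (h.symm.Op_ne t' t)
  have c : ∀ K : Subgroup Γ, Oc {p} K ≤ C(Oc {q} K) := fun K =>
    Oc_cents (Oc_normal _ _) ((Oc_pi _ _).sing_ne h.ne.symm)
  have a1 : Oc {p} H₂ ≤ Oc {p} H₁ := by
    refine le_trans (le_inf le_rfl (le_inf ((h.OP t'.toHh).trans t.ge)
      (norms_of_cents ((c _).trans (cent_mono inf_le_left))))) (h.bender t'.toHh t.toHh
      ((inf_le_inf_right _ (h.symm.OP t'.toHh)).trans b) ((Oc_pi _ _).infl _) ?_ hD.nm)
    exact h.symm.tp_le t' (t.toHh.mono inf_le_left (norms_inf t.nm (norms_norm hD.nm))) hD D0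
      (norms_of_cents (cents_symm inf_le_right)) inf_le_right
  have hV := hO t.toHh {q}
  have hU := hO t'.toHh {p}
  have hU1 := hO t.toHh {p}
  have a2 : Oc {p} H₂ = Oc {p} H₁ := by
    refine nil_eq_of_norm_le (Oc_pi _ _).nil a1 (le_trans (le_inf inf_le_left (le_inf ?_
      (inf_le_left.trans (norms_of_cents (c _))))) (h.bender t.toHh t'.toHh
      ((h.symm.OP t.toHh).trans t'.ge) (Oc_pi _ _) ?_ hV.nm))
    · exact h.symm.tp_le' t' (hU1.mono inf_le_left (norms_inf hU1.nm (norms_norm hU.nm))) hU U0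
        (Oc_norm _ _) inf_le_right
    · exact h.tp_le' t (t'.toHh.mono inf_le_left (norms_inf t'.nm (norms_norm hV.nm))) hV V0
        (Oc_norm _ _) inf_le_right
  exact h.np H₁ t.toHh t.ge (h.tp_le' t h.symm.hP hU U0 (a2 ▸ Oc_norm _ _) (t'.ge.trans (Oc_norm _ _)))

theorem supp (t : Tp π A G P H₁) (t' : Tp π A G Q H₂) (hB : El r 1 B A) (h0 : P ⊓ C(B) ≠ ⊥) :
    Q ⊓ C(B) ≤ H₁ := by
  have f := h.toFp
  refine le_sup_right.trans (h.lemA t (h.Z_le_O t.toHh (h.Oq_eq t t') (inf_le_left.trans t.ge)) _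
    (h.join h.hZ (h.symm.sub inf_le_left (f.nc' hB h.nQ)) (h.sub inf_le_left (f.nc' hB h.nP)) h0
      (norms_of_cents (inf_le_right.trans (cent_mono inf_le_left)))
      (norms_of_cents (f.cents hB h.sQ.le h.sP.le (h.symm.cop' h.sQ.pi h.sP.pi)))) le_sup_left)

theorem disj (t : Tp π A G P H₁) (t' : Tp π A G Q H₂) (hB : El r 1 B A) (h0 : P ⊓ C(B) ≠ ⊥) :
    Q ⊓ C(B) = ⊥ := by
  have f := h.toFp
  by_contra h1
  refine h.np H₂ t'.toHh ((f.mono h.sP.le h.nP).gen fun M hM => h.symm.supp t' t hM ?_) t'.ge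
  by_cases e : B = M
  · exact e ▸ h1
  intro e'
  have a := h.symm.supp t' t hB h1
  have hV := hO t'.toHh {q}
  have b := f.lemT hM hV.le hV.nm (f.nc' hB h.nP) (Oc_pi _ _).nil
    (h.symm.cop' (Oc_pi _ _) (h.sP.pi.infl _)) (a.trans (Oc_norm _ _))
    ((inf_le_inf_right _ (h.symm.OP t'.toHh)).trans (e'.le.trans bot_le)) (f.two hB hM e h.sP.le)
  exact h0 (eq_bot_iff.2 ((le_inf le_rfl ((le_inf a b).trans
    (h.symm.cent_le t'.toHh (h.symm.Oq_eq t' t)))).trans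
    ((h.sP.pi.infl _).inf_eq_bot ((Oc_pi _ _).sing_ne h.ne.symm)).le))

theorem odd (hq : q ≠ 2) : False := by
  obtain ⟨H₁, t⟩ := h.exists_tp
  obtain ⟨H₂, t'⟩ := h.symm.exists_tp
  have f := h.toFp
  haveI := Fact.mk h.qp
  obtain ⟨B, hB, B0⟩ := f.el.exists_cent_ne_bot h.nP (f.mono h.sP.le h.nP).pi h.ne_bot
  obtain ⟨B', hB', e⟩ := (f.mono h.sP.le h.nP).exists_not_le (h.not_cent hB)
  have ne : B ≠ B' := fun e' => e (e' ▸ inf_le_right)
  have q1 := h.disj t t' hB B0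
  have q2 := h.disj t t' hB' fun e' => e (e'.le.trans bot_le)
  have Q0 := h.symm.ne_bot
  have key : ∀ K, K ≤ G → A ≤ N(K) → Sol K → Q ≤ K → HasNormalPComplement q K := fun K a b c d =>
    H18.hasNPC_of_hall h.qp ((f.mono a b).npc h.qp c (h.sQ.of_le d a) h.nQ hB hB' ne q1 q2)
  refine h.not_npc h.qp ((h.sQ.pi.dvd_of_ne_bot Q0).trans (card_dvd h.sQ.le))
    (H18.hall_of_hasNPC h.qp (H3.thompson_npc_ambient (dvd_refl q) hq
      (H28.isSylowIn_of_not_dvd_relIndex h.sQ.le h.sQ.pi.isPGroup (h.sQ.not_dvd h.qp)) ?_ ?_))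
  · have a := h.nQ.trans (H9.normalizer_le_normalizer_JJ q Q)
    exact key _ inf_le_left (norms_inf h.nm (norms_norm a)) (h.solN ((H9.JJ_le q Q).trans h.sQ.le) a
      (H9.JJ_ne_bot_of_isPGroup h.sQ.pi.isPGroup Q0) (h.sQ.pi.of_le (H9.JJ_le q Q)).sol)
      (le_inf h.sQ.le (H9.le_normalizer_JJ q Q))
  · have a := h.symm.hZ
    exact key _ inf_le_left (norms_inf h.nm (norms_cent a.nm)) (sol_mono (h.solN a.le a.nm h.symm.Z_ne
      (h.sol a)) (inf_le_inf_left _ (cent_le_norm _))) (le_inf h.sQ.le (cents_symm inf_le_right))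

theorem false : False := by
  by_cases e : q = 2
  · exact h.symm.odd fun e' => h.ne (e'.trans e.symm)
  · exact h.odd e

end Cx

open Pointwise in
theorem Mc.false (h : Mc r A G) : False := by
  have f := h.toFp
  choose P hP nP using fun p : ℕ => inv_syl_exists p h.nm f.cop (Or.inl f.solA)
  have key : ∀ p q, p.Prime → q.Prime → Permutes (P p) (P q) := fun p q hp hq => by
    by_cases e : p = q
    · subst e
      exact H2.permutes_of_le_normalizer le_normalizer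
    by_contra hn
    refine Cx.false ⟨h, hp, hq, e, rfl, hP p, nP p, hP q, nP q, fun H a b c => hn ?_⟩
    refine H2.permutes_of_facIn ((H2.facIn_of_coprime_relIndex (L := H) ?_).mono
      inf_le_left inf_le_left le_rfl) b c
    refine Nat.coprime_of_dvd fun s hs d1 d2 => ?_
    rcases a.pi s hs (d1.trans (relIndex_dvd_card _ H)) with rfl | rfl
    · exact ((hP _).of_le b a.le).not_dvd hs d1
    · exact ((hP _).of_le c a.le).not_dvd hs d2
  have ex : ∀ p : Nat.Primes, ∃ S : Sylow p G, (S : Subgroup G).map G.subtype = P p := fun p =>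
    haveI := Fact.mk p.2
    (hP p).exists_sylow
  choose S hS using ex
  have k2 : ∀ p q : Nat.Primes, (S p : Set G) * (S q : Set G) ⊆ (S q : Set G) * (S p : Set G) := by
    rintro p q _ ⟨a, ha, b, hb, rfl⟩
    obtain ⟨c, hc, d, hd, e⟩ := key q p q.2 p.2 (a * b) (mul_mem (mem_sup_right (hS p ▸ ⟨a, ha, rfl⟩))
      (mem_sup_left (hS q ▸ ⟨b, hb, rfl⟩)))
    rw [← hS] at hc hd
    obtain ⟨c, hc, rfl⟩ := hc
    obtain ⟨d, hd, rfl⟩ := hd
    exact ⟨c, hc, d, hd, Subtype.ext e.symm⟩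
  exact h.ns (Cfsg.Agent.S0021.result S fun p q => (k2 p q).antisymm (k2 q p))

/-- Martineau's theorem in rank two -/
theorem Fp.sol (h : Fp r A G) : Sol G := by
  induction hn : #G using Nat.strong_induction_on generalizing Γ with
  | _ n ih =>
  by_contra hs
  refine Mc.false ⟨h, fun K a b => ih _ (hn ▸ card_lt a) (h.mono a.le b) rfl,
    fun K a b c d e => hs (sol_of_quo e (sol_mono d inf_le_left) (ih _ ?_ (h.quot a b) rfl)), hs⟩
  rw [card_quo e, ← hn, ← card_mul_relIndex a]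
  exact (Nat.lt_mul_iff_one_lt_left (relIndex_pos _ _)).2 (ne_bot_iff_one_lt_card.1 c)

/-- coprime action with abelian centralizers -/
theorem sol_of_cent_ab (hA : El r 2 A A) (hn : A ≤ N(G)) (hc : PiG {r}ᶜ G)
    (h : ∀ B, El r 1 B A → Ab (G ⊓ C(B))) : Sol G := by
  have c : (#G).Coprime #A := hc.coprime' hA.pg
  have nC : A ≤ N(G ⊓ C(A)) := norms_inf hn (norms_cent le_normalizer)
  have a : G ≤ C(G ⊓ C(A)) := hA.le_of_cent_le hn hc fun B hB =>
    cents_of_comm (h B hB) le_rfl (inf_le_inf_left _ (cent_mono hB.le))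
  have c' : (#(G ⊓ C(A))).Coprime #A := c.coprime_dvd_left (card_dvd inf_le_left)
  refine sol_of_quo (norms_of_cents a) (sol_of_ab ?_) (Fp.sol (r := r) (A := quo (G ⊓ C(A)) A)
    ⟨⟨hA.prime, le_rfl, abelem_quo hA.ab _, ?_⟩, quo_norms hn, ?_⟩)
  · exact comm_iff_le_cent.2 (inf_le_right.trans (a.trans (cent_mono inf_le_left)))
  · rw [card_quo_of_disjoint nC (inf_eq_bot_of_cop c'), hA.card]
  · rw [quo_inf_cent' nC inf_le_left c' (Or.inl hA.pg.sol), quo_self]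

end H8.Mt
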