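import Cfsg.Agent.H8.LieSt
import Cfsg.Agent.H11.O3
import Cfsg.Agent.H11.Small
import Cfsg.Agent.H6.Zeros

/-!
The orthogonal group of plus type in dimension four over the field with two elements.
-/

namespace H8

open Cfsg Matrix H11 H12 H5 QuadraticMap
open scoped commutatorElement MatrixGroups

theorem comm_of_index_two {G : Type*} [Group G] {A : Subgroup G} (hA : ∀ a ∈ A, ∀ b ∈ A, a * b = b * a)
    (ho : Odd (Nat.card A)) (hi : A.index = 2) (h : ∀ a b : G, ⁅a, b⁆ ∈ Subgroup.center G) (a b : G) : a * b = b * a := by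
  have := A.normal_of_index_eq_two hi
  have key : ∀ a ∈ A, ∀ t, a * t = t * a := fun a ha t => by
    have h1 : ⁅a, t⁆ ∈ A := by
      simpa [commutatorElement_def, mul_assoc] using mul_mem ha (this.conj_mem _ (inv_mem ha) t)
    have h2 := Subgroup.mem_center_iff.1 (h a t) t
    have h3 := hA _ (A.mul_self_mem_of_index_two hi t) _ (inv_mem ha)
    have h4 : ⁅a, t⁆ ^ 2 = 1 := by
      rw [pow_two, ← eq_inv_iff_mul_eq_one, ← mul_left_inj t, ← h2, commutatorElement_inv]
      simp only [commutatorElement_def]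
      rw [← mul_left_inj t, show t * a * t⁻¹ * a⁻¹ * t * t = t * a * t⁻¹ * (a⁻¹ * (t * t)) by group, ← h3]
      group
    rw [← commutatorElement_eq_one_iff_mul_comm, ← orderOf_eq_one_iff]
    exact Nat.eq_one_of_dvd_coprimes (Nat.coprime_two_left.2 ho) (orderOf_dvd_of_pow_eq_one h4)
      (A.orderOf_dvd_natCard h1)
  by_cases ha : a ∈ A
  · exact key a ha b
  by_cases hb : b ∈ A
  · exact (key b hb a).symm
  have h1 := key _ ((A.mul_mem_iff_of_index_two hi).2 (by simp [ha, hb] : a⁻¹ ∈ A ↔ b ∈ A)) a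
  rw [mul_assoc, mul_inv_cancel_left, inv_mul_eq_iff_eq_mul] at h1
  exact h1.symm

theorem steinberg_of_index_two {G : Type*} [Group G] [Finite G] {A : Subgroup G} (hA : ∀ a ∈ A, ∀ b ∈ A, a * b = b * a)
    (ho : Odd (Nat.card A)) (hi : A.index ∣ 2) : ∃ χ : G ⧸ Subgroup.center G → ℂ, IsIrrCharacter _ χ ∧
      ∀ P : Sylow 2 (G ⧸ Subgroup.center G), χ 1 = Nat.card P ∧ ∀ x, x ∈ P → x ≠ 1 → χ x = 0 := by
  by_cases hc : ∀ a b : G, a * b = b * a
  · exact (hasSB_quot_of_comm hc).steinberg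
  have hi2 : A.index = 2 := ((Nat.dvd_prime Nat.prime_two).1 hi).resolve_left fun e =>
    hc fun a b => hA a ((Subgroup.index_eq_one.1 e).ge trivial) b ((Subgroup.index_eq_one.1 e).ge trivial)
  obtain ⟨a, b, hab⟩ : ∃ a b : G, ⁅a, b⁆ ∉ Subgroup.center G := by
    by_contra c
    push Not at c
    exact hc (comm_of_index_two hA ho hi2 c)
  obtain ⟨χ, hχ, h1⟩ := exists_irr_not_mem_charKer (g := ((⁅a, b⁆ : G) : G ⧸ Subgroup.center G)) (by simpa using hab)
  obtain ⟨n, hn, h2⟩ := Cfsg.IsIrrCharacter.exists_apply_one hχ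
  have h3 : n ≠ 1 := by
    rintro rfl
    exact h1 ((Cfsg.IsIrrCharacter.apply_one_eq_one_iff hχ).1 (by simpa using h2)
      (Subgroup.commutator_mem_commutator (Subgroup.mem_top (a : G ⧸ Subgroup.center G))
        (Subgroup.mem_top (b : G ⧸ Subgroup.center G))))
  have h4 := H6.degree_le_index_of_comm hχ (A := A.map (QuotientGroup.mk' _)) (by
    rintro _ ⟨a, ha, rfl⟩ _ ⟨b, hb, rfl⟩
    rw [← map_mul, hA a ha b hb, map_mul]) h2
  have h5 := Nat.le_of_dvd two_pos ((A.index_map_dvd (QuotientGroup.mk'_surjective (Subgroup.center G))).trans hi)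
  have h6 := (A.map (QuotientGroup.mk' (Subgroup.center G))).index_mul_card
  have h7 : ¬ 2 ∣ Nat.card (A.map (QuotientGroup.mk' (Subgroup.center G))) := fun e =>
    ho.not_two_dvd_nat (e.trans (A.card_map_dvd _))
  obtain rfl : n = 2 := by omega
  rw [le_antisymm h5 h4] at h6
  refine ⟨χ, hχ, fun P => ⟨?_, fun x hx h8 => H6.defect_zero hχ Nat.prime_two h2 h6.symm h7 ?_⟩⟩
  · rw [P.card_eq_multiplicity, ← h6, Nat.factorization_mul two_ne_zero Nat.card_pos.ne', Finsupp.add_apply,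
      Nat.factorization_eq_zero_of_not_dvd h7, h2, Nat.Prime.factorization_self Nat.prime_two]
    simp
  · obtain ⟨k, hk⟩ := IsPGroup.iff_orderOf.1 P.2 ⟨x, hx⟩
    rw [← Subgroup.orderOf_coe] at hk
    rw [hk]
    exact dvd_pow_self 2 fun e => h8 (orderOf_eq_one_iff.1 (by rw [hk, e, pow_zero]))

variable {F : Type*} [Field F] [Fintype F]

theorem o4_two (hF : Fintype.card F = 2) : ∃ (φ : Equiv.Perm (Fin 3) × Equiv.Perm (Fin 3) →* orth (qPlus 2 F))
    (τ : orth (qPlus 2 F)), Function.Injective φ ∧ φ.range.index = 2 ∧ ∀ a b, τ * φ (a, b) * τ⁻¹ = φ (b, a) := by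
  obtain ⟨φ, hφ⟩ := exists_o4_hom F
  obtain ⟨e⟩ := nonempty_sl2_two_equiv hF
  have h1 : Function.Injective φ := (injective_iff_map_eq_one _).2 fun g hg => by
    have := (o4_scalar_iff hφ g).1 ⟨1, fun x => by simp [hg]⟩
    rw [Subgroup.center_prod, Subgroup.mem_prod] at this
    have h : ∀ a ∈ Subgroup.center SL(2, F), a = 1 := fun a ha => e.injective (by
      have : ∀ x : Equiv.Perm (Fin 3), (∀ y, y * x = x * y) → x = 1 := by decide
      rw [map_one]
      refine this _ fun y => ?_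
      obtain ⟨y, rfl⟩ := e.surjective y
      rw [← map_mul, Subgroup.mem_center_iff.1 ha, map_mul])
    exact Prod.ext (h _ this.1) (h _ this.2)
  have h2 : ∀ w, o4Emb F ((refl (qPlus 2 F) (Sum.elim ![0, 1] ![0, 1])).1 w) = (o4Emb F w)ᵀ := fun w => by
    ext i j
    fin_cases i <;> fin_cases j <;> simp [o4Emb_apply, refl_apply, quadFormPlus, polar_quadFormPlus]
  have h0 : Function.Injective (φ.comp (e.symm.prodCongr e.symm).toMonoidHom) :=
    h1.comp (e.symm.prodCongr e.symm).injective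
  refine ⟨_, refl (qPlus 2 F) (Sum.elim ![0, 1] ![0, 1]), h0, ?_, fun a b => ?_⟩
  · have h3 := (φ.comp (e.symm.prodCongr e.symm).toMonoidHom).range.index_mul_card
    rw [← Nat.card_congr (MonoidHom.ofInjective h0).toEquiv,
      ← Nat.card_congr (orthEquiv _).toEquiv, coe_qPlus, card_O_plus 1, hF, Nat.card_prod, Nat.card_perm] at h3
    generalize (φ.comp (e.symm.prodCongr e.symm).toMonoidHom).range.index = k at h3 ⊢
    simp [Nat.factorial] at h3
    omega
  · rw [mul_inv_eq_iff_eq_mul]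
    refine orth_ext fun x => o4Emb_injective ?_
    change o4Emb F ((refl _ _).1 ((φ (e.symm a, e.symm b)).1 x)) = o4Emb F ((φ (e.symm b, e.symm a)).1 ((refl _ _).1 x))
    rw [h2, hφ, hφ, h2, transpose_mul, transpose_mul, transpose_transpose, Matrix.mul_assoc]

theorem exists_index_two {G : Type*} [Group G] [Finite G] {φ : Equiv.Perm (Fin 3) × Equiv.Perm (Fin 3) →* G} {τ : G}
    (h1 : Function.Injective φ) (h2 : φ.range.index = 2) (h3 : ∀ a b, τ * φ (a, b) * τ⁻¹ = φ (b, a)) :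
    ∃ A : Subgroup (commutator G), (∀ a ∈ A, ∀ b ∈ A, a * b = b * a) ∧ Odd (Nat.card A) ∧ A.index ∣ 2 := by
  have hτ : τ ∉ φ.range := by
    rintro ⟨⟨c, d⟩, rfl⟩
    have := h3 (Equiv.swap 0 1) 1
    rw [← map_inv, ← map_mul, ← map_mul] at this
    have h4 := congrArg Prod.snd (h1 this)
    simp only [Prod.snd_mul, Prod.snd_inv, mul_one, mul_inv_cancel] at h4
    exact absurd h4 (by decide)
  let ε : Equiv.Perm (Fin 3) × Equiv.Perm (Fin 3) →* ℤˣ := Equiv.Perm.sign.coprod Equiv.Perm.sign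
  have hK : (ε.ker.map φ).Normal := ⟨by
    rintro _ ⟨⟨a, b⟩, hx, rfl⟩ g
    by_cases hg : g ∈ φ.range
    · obtain ⟨y, rfl⟩ := hg
      exact ⟨_, ε.normal_ker.conj_mem _ hx y, by simp⟩
    · obtain ⟨y, hy⟩ := (φ.range.mul_mem_iff_of_index_two h2).2 (by simp [hg, hτ] : g ∈ φ.range ↔ τ⁻¹ ∈ φ.range)
      refine ⟨_, ε.normal_ker.conj_mem (b, a) (by simpa [ε, mul_comm] using hx) y, ?_⟩
      rw [map_mul, map_mul, map_inv, hy, ← h3]
      group⟩
  have h4 : Nat.card (G ⧸ ε.ker.map φ) = 2 ^ 2 := by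
    rw [← Subgroup.index_eq_card, Subgroup.index_map_of_injective _ h1, h2, Subgroup.index_ker,
      MonoidHom.range_eq_top.2 (fun u => by
        obtain ⟨s, hs⟩ := Equiv.Perm.sign_surjective (Fin 3) u
        exact ⟨(s, 1), by simp [ε, hs]⟩)]
    simp
  have h5 : commutator G ≤ ε.ker.map φ := by
    have := IsPGroup.isMulCommutative_of_card_eq_prime_sq h4
    exact Subgroup.Normal.quotient_commutative_iff_commutator_le.1 this
  choose f hf using fun g : commutator G => h5 g.2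
  let ψ : commutator G →* ℤˣ := MonoidHom.mk' (fun g => Equiv.Perm.sign (f g).1) fun a b => by
    rw [show f (a * b) = f a * f b from h1 (by rw [map_mul, (hf _).2, (hf _).2, (hf _).2]; rfl), Prod.fst_mul, map_mul]
  have h6 : ∀ a ∈ ψ.ker, Equiv.Perm.sign (f a).1 = 1 ∧ Equiv.Perm.sign (f a).2 = 1 := fun a ha => by
    have a1 : Equiv.Perm.sign (f a).1 = 1 := ha
    exact ⟨a1, by simpa [ε, a1] using (hf a).1⟩
  refine ⟨ψ.ker, fun a ha b hb => Subtype.ext ?_, ?_, ?_⟩
  · have : ∀ x y : Equiv.Perm (Fin 3), x.sign = 1 → y.sign = 1 → x * y = y * x := by decide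
    rw [Subgroup.coe_mul, Subgroup.coe_mul, ← (hf a).2, ← (hf b).2, ← map_mul, ← map_mul]
    exact congrArg φ (Prod.ext (this _ _ (h6 a ha).1 (h6 b hb).1) (this _ _ (h6 a ha).2 (h6 b hb).2))
  · have : IsPGroup 3 ψ.ker := fun a => ⟨1, Subtype.ext (Subtype.ext (by
      have : ∀ x : Equiv.Perm (Fin 3), x.sign = 1 → x ^ 3 = 1 := by decide
      change (a.1.1 : G) ^ 3 = 1
      rw [← (hf a).2, ← map_pow, show f a ^ 3 = 1 from Prod.ext (this _ (h6 _ a.2).1) (this _ (h6 _ a.2).2), map_one]))⟩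
    have h7 := Fact.mk Nat.prime_three
    obtain ⟨k, hk⟩ := IsPGroup.iff_card.1 this
    rw [hk]
    exact Odd.pow (by decide)
  · rw [Subgroup.index_ker]
    simpa using ψ.range.card_subgroup_dvd_card

end H8
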