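/-
The Praeger-Saxl bound: distinguishing sets (chunk `DB`).
-/
import Cfsg.Agent.H6.PS0

set_option autoImplicit false
set_option linter.unusedSectionVars false
open MulAction Finset

namespace H8.PS
open H6.PS H22.Bab
open scoped Classical
universe u

variable {G Ω : Type u} [Group G] [MulAction G Ω] [Fintype Ω] {R : Ω → Ω → Prop} {x u v w a b : Ω}

noncomputable def Nb (R : Ω → Ω → Prop) (u : Ω) : Finset Ω := univ.filter (R u)
def Iv (G : Type u) [Group G] [MulAction G Ω] (R : Ω → Ω → Prop) : Prop := ∀ (g : G) u v, R u v → R (g • u) (g • v)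
def Co (R : Ω → Ω → Prop) (u v : Ω) : Prop := u ≠ v ∧ ¬ R u v
def Sep (G : Type u) [Group G] [MulAction G Ω] (x u v : Ω) : Prop := ¬ ∃ g : G, g • x = x ∧ g • u = v
noncomputable def SS (G : Type u) [Group G] [MulAction G Ω] (u v : Ω) : Finset Ω := univ.filter fun x => Sep G x u v

@[simp] theorem mem_Nb : v ∈ Nb R u ↔ R u v := by simp [Nb]
@[simp] theorem mem_SS : x ∈ SS G u v ↔ Sep G x u v := by simp [SS]
theorem D_eq : D G u v = #(SS G u v) := by unfold D SS Sep; congr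

theorem Iv.co (h : Iv G R) : Iv G (Co R) := fun g u v ⟨h1, h2⟩ =>
  ⟨fun e => h1 (MulAction.injective g e), fun q => h2 (by simpa using h g⁻¹ _ _ q)⟩

theorem Iv.val [IsPretransitive G Ω] (h : Iv G R) (u v : Ω) : #(Nb R u) = #(Nb R v) := by
  have k : ∀ u v : Ω, #(Nb R u) ≤ #(Nb R v) := fun u v => by
    obtain ⟨g, rfl⟩ := exists_smul_eq G u v
    exact card_le_card_of_injOn (g • ·) (fun w hw => by simpa using h g _ _ (by simpa using hw))
      (MulAction.injective g).injOn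
  exact le_antisymm (k u v) (k v u)

theorem part (h : ¬ R x x) : Fintype.card Ω = 1 + #(Nb R x) + #(Nb (Co R) x) := by
  rw [← card_univ, ← card_filter_add_card_filter_not (s := univ) (Co R x), add_comm, add_comm 1,
    ← card_insert_of_notMem (s := Nb R x) (a := x) (by simpa using h)]
  congr 2
  ext v
  rw [mem_filter, mem_insert, mem_Nb, Co, not_and_or, not_not, not_not, eq_comm, and_iff_right (mem_univ _)]

theorem Sep.symm (h : Sep G x u v) : Sep G x v u := fun ⟨g, h1, h2⟩ =>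
  h ⟨g⁻¹, inv_smul_eq_iff.2 h1.symm, inv_smul_eq_iff.2 h2.symm⟩
theorem Sep.smul (h : Sep G x u v) (k : G) : Sep G (k • x) (k • u) (k • v) := fun ⟨g, h1, h2⟩ =>
  h ⟨k⁻¹ * g * k, by simp [mul_smul, h1], by simp [mul_smul, h2]⟩
theorem Sep.tri (h : Sep G x u w) (v : Ω) : Sep G x u v ∨ Sep G x v w := by
  by_contra q
  simp only [Sep, not_or, not_not] at q
  obtain ⟨⟨g, h1, h2⟩, k, h3, h4⟩ := q
  exact h ⟨k * g, by simp [mul_smul, h1, h3], by simp [mul_smul, h2, h4]⟩
theorem sep_l (h : u ≠ v) : Sep G u u v := fun ⟨_, h1, h2⟩ => h (h1.symm.trans h2)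
theorem sep_r (h : u ≠ v) : Sep G v u v := (sep_l h.symm).symm

theorem D_symm : D G u v = D G v u := by
  rw [D_eq, D_eq]; congr 1; ext x; simp only [mem_SS]; exact ⟨Sep.symm, Sep.symm⟩
theorem D_smul (g : G) : D G (g • u) (g • v) = D G u v := by
  have k : ∀ (g : G) (u v : Ω), D G u v ≤ D G (g • u) (g • v) := fun g u v => by
    rw [D_eq, D_eq]
    exact card_le_card_of_injOn (g • ·) (fun w hw => by simpa using Sep.smul (by simpa using hw) g)
      (MulAction.injective g).injOn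
  exact le_antisymm (by simpa using k g⁻¹ (g • u) (g • v)) (k g u v)
theorem D_adj (h : Adj G a b u v) : D G u v = D G a b := by
  obtain ⟨g, ⟨rfl, rfl⟩ | ⟨rfl, rfl⟩⟩ := h
  · exact D_smul g
  · rw [D_symm, D_smul]
theorem D_self : D G u u = 0 := by
  rw [D_eq, card_eq_zero]; ext x; simpa [Sep] using ⟨1, one_smul _ _, one_smul _ _⟩
theorem adj_ne (hab : a ≠ b) (h : Adj G a b u v) : u ≠ v := by
  obtain ⟨g, ⟨rfl, rfl⟩ | ⟨rfl, rfl⟩⟩ := h
  · exact fun e => hab (MulAction.injective g e)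
  · exact fun e => hab (MulAction.injective g e).symm
theorem adj_iv : Iv G (Adj G a b) := fun g _ _ h => h.smul g

theorem dc (T : Finset (Ω × Ω)) : ∑ p ∈ T, D G p.1 p.2 = ∑ x : Ω, #(T.filter fun p => Sep G x p.1 p.2) := by
  simp only [D_eq, SS, card_filter]; exact sum_comm

/-- the lower bound for the sum of all `D` -/
theorem lowS [IsPretransitive G Ω] (h : Iv G R) (hi : ∀ x, ¬ R x x) (a : Ω) :
    Fintype.card Ω * (Fintype.card Ω * Fintype.card Ω) ≤ ∑ p : Ω × Ω, D G p.1 p.2 +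
      Fintype.card Ω * (1 + #(Nb R a) * #(Nb R a) + #(Nb (Co R) a) * #(Nb (Co R) a)) := by
  rw [dc, ← smul_eq_mul, ← smul_eq_mul (Fintype.card Ω) (_ + _), ← card_univ, ← sum_const, ← sum_const,
    ← sum_add_distrib]
  refine sum_le_sum fun x _ => ?_
  rw [← card_product, univ_product_univ, ← card_filter_add_card_filter_not (fun p : Ω × Ω => Sep G x p.1 p.2),
    h.val a x, h.co.val a x, ← card_product, ← card_product, ← card_singleton (x, x)]
  refine Nat.add_le_add_left ((card_le_card fun p hp => ?_).trans ((card_union_le _ _).trans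
    (Nat.add_le_add_right (card_union_le _ _) _))) _
  obtain ⟨g, h1, h2⟩ := not_not.1 (mem_filter.1 hp).2
  obtain ⟨u, v⟩ := p
  simp only [mem_union, mem_singleton, mem_product, mem_Nb, Prod.mk.injEq] at h2 ⊢
  subst h2
  by_cases e : x = u
  · subst e; exact .inl (.inl ⟨rfl, h1⟩)
  by_cases r : R x u
  · exact .inl (.inr ⟨r, by simpa [h1] using h g _ _ r⟩)
  · exact .inr ⟨⟨e, r⟩, by simpa [h1] using h.co g _ _ ⟨e, r⟩⟩

/-- walks of length `j` from `x` -/
def Wk (R : Ω → Ω → Prop) (x : Ω) : ℕ → Ω → Prop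
  | 0, y => y = x
  | j + 1, y => ∃ z, Wk R x j z ∧ R z y

theorem Wk.smul (h : Iv G R) {g : G} (hg : g • x = x) : ∀ {j : ℕ} {y : Ω}, Wk R x j y → Wk R x j (g • y)
  | 0, _, e => by rw [e]; exact hg
  | _ + 1, _, ⟨z, h1, h2⟩ => ⟨g • z, Wk.smul h hg h1, h g _ _ h2⟩

variable [Finite G] [IsPreprimitive G Ω]

theorem lowA (hab : a ≠ b) : 2 * (Fintype.card Ω - 1) ≤ D G a b * #(Nb (Adj G a b) a) := by
  set T := (univ : Finset (Ω × Ω)).filter fun p => Adj G a b p.1 p.2 with hT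
  have h1 : ∑ p ∈ T, D G p.1 p.2 = Fintype.card Ω * (D G a b * #(Nb (Adj G a b) a)) := by
    rw [sum_congr rfl fun p hp => D_adj (mem_filter.1 hp).2, sum_const, smul_eq_mul, card_filter,
      Fintype.sum_prod_type]
    simp only [← card_filter]
    rw [(sum_congr rfl fun u _ => adj_iv.val u a : ∑ u, #(univ.filter (Adj G a b u)) = _), sum_const, card_univ,
      smul_eq_mul]; ring
  have h2 : ∀ x : Ω, 2 * (Fintype.card Ω - 1) ≤ #(T.filter fun p => Sep G x p.1 p.2) := fun x => by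
    have ex : ∀ y, ∃ j, Wk (Adj G a b) x j y := fun y => by
      induction conn (G := G) hab x y with
      | refl => exact ⟨0, rfl⟩
      | tail _ h ih => exact ⟨_ + 1, _, ih.choose_spec, h⟩
    let l : Ω → ℕ := fun y => Nat.find (ex y)
    have sp : ∀ u v, l u < l v → Sep G x u v := fun u v q ⟨g, h1, h2⟩ =>
      q.not_ge (Nat.find_min' _ (h2 ▸ Wk.smul adj_iv h1 (Nat.find_spec (ex u))))
    have dn : ∀ y, y ≠ x → ∃ z, Adj G a b z y ∧ l z < l y := fun y hy => by
      have := Nat.find_spec (ex y)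
      change Wk _ x (l y) y at this
      rcases e : l y with _ | j
      · rw [e] at this; exact (hy this).elim
      · rw [e] at this
        obtain ⟨z, h1, h2⟩ := this
        exact ⟨z, h2, Nat.lt_succ_of_le (Nat.find_min' _ h1)⟩
    have c1 : #(univ.erase x) ≤ #(T.filter fun p => l p.1 < l p.2) :=
      card_le_card_of_surjOn Prod.snd fun y hy => by
        obtain ⟨z, h1, h2⟩ := dn y (mem_erase.1 hy).1
        exact ⟨(z, y), by simpa [hT] using ⟨h1, h2⟩, rfl⟩
    have c2 : #(univ.erase x) ≤ #(T.filter fun p => l p.2 < l p.1) :=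
      card_le_card_of_surjOn Prod.fst fun y hy => by
        obtain ⟨z, h1, h2⟩ := dn y (mem_erase.1 hy).1
        exact ⟨(y, z), by simpa [hT] using ⟨h1.symm, h2⟩, rfl⟩
    rw [card_erase_of_mem (mem_univ _), card_univ] at c1 c2
    rw [two_mul]
    refine (add_le_add c1 c2).trans ?_
    rw [← card_union_of_disjoint (disjoint_filter.2 fun p _ h => h.le.not_gt)]
    refine card_le_card fun p hp => ?_
    rcases mem_union.1 hp with q | q <;> rw [mem_filter] at q ⊢
    exacts [⟨q.1, sp _ _ q.2⟩, ⟨q.1, (sp _ _ q.2).symm⟩]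
  have h3 := sum_le_sum fun x (_ : x ∈ univ) => h2 x
  rw [← dc, h1, sum_const, card_univ, smul_eq_mul] at h3
  exact Nat.le_of_mul_le_mul_left h3 (Fintype.card_pos_iff.2 ⟨a⟩)

theorem csq (hab : a ≠ b) (h2 : Co (Adj G a b) u v) :
    #(Nb (Adj G a b) a) ≤ #(Nb (Co (Adj G a b)) a) * #(Nb (Co (Adj G a b)) a) := by
  have hY := (adj_iv (G := G) (a := a) (b := b)).co
  have sy : ∀ {u v}, Co (Adj G a b) u v → Co (Adj G a b) v u := fun h => ⟨h.1.symm, fun q => h.2 q.symm⟩
  by_cases h3 : ∃ w, Co (Adj G a b) a w ∧ Co (Adj G a b) w b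
  · obtain ⟨w, h4, h5⟩ := h3
    refine le_trans (card_le_card (t := (Nb (Co (Adj G a b)) a).biUnion fun w => Nb (Co (Adj G a b)) w)
      (fun v hv => ?_)) (card_biUnion_le_card_mul _ _ _ (fun w _ => (hY.val w a).le))
    simp only [mem_biUnion, mem_Nb] at hv ⊢
    obtain ⟨k, ⟨h6, h7⟩ | ⟨h6, h7⟩⟩ := hv
    · exact ⟨k • w, by simpa [h6] using hY k _ _ h4, by simpa [h7] using hY k _ _ h5⟩
    · exact ⟨k • w, by simpa [h7] using hY k _ _ (sy h5), by simpa [h6] using hY k _ _ (sy h4)⟩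
  exfalso
  have := preorder (G := G) (fun u v => u = v ∨ Co (Adj G a b) u v) (fun _ => Or.inl rfl) (by
    rintro u w v (rfl | h4) (rfl | h5)
    · exact Or.inl rfl
    · exact Or.inr h5
    · exact Or.inr h4
    · by_cases h6 : u = v
      · exact Or.inl h6
      · refine Or.inr ⟨h6, ?_⟩
        rintro ⟨k, ⟨rfl, rfl⟩ | ⟨rfl, rfl⟩⟩
        · exact h3 ⟨k⁻¹ • w, by simpa using hY k⁻¹ _ _ h4, by simpa using hY k⁻¹ _ _ h5⟩
        · exact h3 ⟨k⁻¹ • w, by simpa using hY k⁻¹ _ _ (sy h5), by simpa using hY k⁻¹ _ _ (sy h4)⟩) (by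
    rintro h u v (rfl | h4)
    · exact Or.inl rfl
    · exact Or.inr (hY h _ _ h4)) h2.1 (Or.inr h2) a b
  exact this.elim hab (fun h => h.2 ⟨1, by simp⟩)

omit [Finite G] [IsPreprimitive G Ω] in
theorem symd (hab : a ≠ b) (h : Adj G a b u v) :
    #(symmDiff (insert u (Nb (Adj G a b) u)) (insert v (Nb (Adj G a b) v))) + 2 ≤ D G a b := by
  have n := adj_ne hab h
  rw [← D_adj h, D_eq, ← card_pair n, ← card_union_of_disjoint]
  · refine card_le_card fun x hx => ?_
    have k : ∀ {u v}, Adj G a b u v → (x = u ∨ Adj G a b u x) → ¬ (x = v ∨ Adj G a b v x) → Sep G x u v :=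
      fun h h1 h2 ⟨g, q1, q2⟩ => h1.elim (fun e => h2 (.inr (e ▸ h.symm))) fun e =>
        h2 (.inr (by simpa [q1, q2] using e.smul g))
    simp only [mem_union, mem_symmDiff, mem_insert, mem_Nb, mem_singleton, mem_SS] at hx ⊢
    rcases hx with (q | q) | rfl | rfl
    exacts [k h q.1 q.2, (k h.symm q.1 q.2).symm, sep_l n, sep_r n]
  · rw [disjoint_right]
    intro x hx
    simp only [mem_symmDiff, mem_insert, mem_Nb, mem_singleton] at hx ⊢
    rcases hx with rfl | rfl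
    · simp [h.symm]
    · simp [h]

theorem far (hab : a ≠ b) (h : ¬ (u = v ∨ Adj G a b u v ∨ ∃ w, Adj G a b u w ∧ Adj G a b w v)) :
    2 * #(Nb (Adj G a b) a) + 8 ≤ 3 * D G a b := by
  let near : Ω → Ω → Prop := fun u v => u = v ∨ Adj G a b u v ∨ ∃ w, Adj G a b u w ∧ Adj G a b w v
  obtain ⟨q, w, h1, h2, h3⟩ : ∃ q w, near u q ∧ Adj G a b q w ∧ ¬ near u w := by
    by_contra hc
    push Not at hc
    refine h ?_
    induction conn (G := G) hab u v with
    | refl => exact Or.inl rfl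
    | tail _ h2 ih =>
      by_contra h3
      exact h3 (hc _ _ (by by_contra h4; exact h4 (ih h4)) h2)
  obtain ⟨p, h4, h5⟩ : ∃ p, Adj G a b u p ∧ Adj G a b p q := by
    rcases h1 with rfl | h1 | h1
    exacts [(h3 (.inr (.inl h2))).elim, (h3 (.inr (.inr ⟨q, h1, h2⟩))).elim, h1]
  have c : ∀ u, #(insert u (Nb (Adj G a b) u)) = #(Nb (Adj G a b) a) + 1 := fun u => by
    rw [card_insert_of_notMem (by simpa using fun q => adj_ne hab q rfl), adj_iv.val u a]
  have dj : Disjoint (insert u (Nb (Adj G a b) u)) (insert w (Nb (Adj G a b) w)) := by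
    rw [disjoint_left]
    intro x hx hy
    simp only [mem_insert, mem_Nb] at hx hy
    rcases hx with rfl | hx <;> rcases hy with e | hy
    exacts [h3 (.inl e), h3 (.inr (.inl hy.symm)), h3 (.inr (.inl (e ▸ hx))), h3 (.inr (.inr ⟨x, hx, hy.symm⟩))]
  have e1 := symd hab h4
  have e2 := symd hab h5
  have e3 := symd hab h2
  have e4 := card_union_of_disjoint dj
  rw [c, c, ← sup_eq_union, ← dj.symmDiff_eq_sup] at e4
  have e5 := (card_le_card ((symmDiff_triangle (insert u (Nb (Adj G a b) u)) (insert p (Nb (Adj G a b) p)) _).trans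
    (sup_le_sup_left (symmDiff_triangle _ (insert q (Nb (Adj G a b) q)) (insert w (Nb (Adj G a b) w))) _))).trans
      ((card_union_le _ _).trans (Nat.add_le_add_left (card_union_le _ _) _))
  omega

theorem up (hab : a ≠ b) (h : ∀ u v, u = v ∨ Adj G a b u v ∨ ∃ w, Adj G a b u w ∧ Adj G a b w v) :
    ∑ p : Ω × Ω, D G p.1 p.2 + Fintype.card Ω * #(Nb (Co (Adj G a b)) a) ≤
      Fintype.card Ω * (D G a b * #(Nb (Adj G a b) a) + 2 * D G a b * #(Nb (Co (Adj G a b)) a)) := by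
  rw [Fintype.sum_prod_type, ← smul_eq_mul (Fintype.card Ω), ← smul_eq_mul (Fintype.card Ω) (_ + _), ← card_univ,
    ← sum_const, ← sum_const, ← sum_add_distrib]
  refine sum_le_sum fun u _ => ?_
  rw [adj_iv.val a u, adj_iv.co.val a u]
  simp only [Nb, card_filter, mul_sum, ← sum_add_distrib]
  refine sum_le_sum fun v _ => ?_
  by_cases e : u = v
  · subst e; simp [D_self, Co]
  by_cases r : Adj G a b u v
  · simp [Co, r, D_adj r]
  obtain ⟨w, h1, h2⟩ := ((h u v).resolve_left e).resolve_left r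
  have k : #(SS G u v) ≤ #(SS G u w ∪ SS G w v) := card_le_card fun x hx => by
    simpa using (mem_SS.1 hx).tri w
  have k2 := card_union_add_card_inter (SS G u w) (SS G w v)
  have k3 : 0 < #(SS G u w ∩ SS G w v) := card_pos.2 ⟨w, by
    simpa using ⟨sep_r (adj_ne hab h1), sep_l (adj_ne hab h2)⟩⟩
  rw [← D_eq, ← D_eq, D_adj h1, D_adj h2] at k2
  rw [← D_eq] at k
  simp only [Co, r, e, Ne, not_false_eq_true, and_self, if_true, if_false]
  omega

theorem num0 : ∀ k ≤ 24, ∀ ρ ≤ 24, ∀ d < 8, ¬ (11 ≤ k + ρ ∧ 2 * (k + ρ) ≤ d * k ∧ k ≤ ρ * ρ ∧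
    2 * (k + ρ) + 2 * (k * ρ) + ρ ≤ d * k + 2 * d * ρ ∧ 9 * d ^ 2 + 4 < 12 * (k + ρ) + 24 * d) := by
  decide +kernel

theorem num {k ρ d : ℕ} (h1 : 11 ≤ k + ρ) (h2 : 2 * (k + ρ) ≤ d * k) (h3 : k ≤ ρ * ρ)
    (h4 : 2 * (k + ρ) + 2 * (k * ρ) + ρ ≤ d * k + 2 * d * ρ) : 12 * (k + ρ) + 24 * d ≤ 9 * d ^ 2 + 4 := by
  by_contra! h
  rcases le_or_gt 8 d with hd | hd
  · have e : d * d < 2 * (k + ρ) := by nlinarith
    rcases lt_or_ge k d with q | q
    · nlinarith
    rcases lt_or_ge (2 * ρ) d with r | r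
    · nlinarith
    · nlinarith [Nat.mul_le_mul q r]
  · have hk : k + ρ ≤ 24 := by
      rcases lt_or_ge k d with q | q
      · nlinarith
      rcases lt_or_ge (2 * ρ) d with r | r
      · nlinarith
      · nlinarith [Nat.mul_le_mul q r]
    exact num0 k (by omega) ρ (by omega) d hd ⟨h1, h2, h3, h4, h⟩

theorem tour (hab : a ≠ b) (h2 : ¬ T2 G Ω) (h : ∀ u v, ¬ Co (Adj G a b) u v) : ∃ R : Ω → Ω → Prop, Iv G R ∧
    (∀ x, ¬ R x x) ∧ #(Nb (Co R) a) = #(Nb R a) := by
  let O : Ω → Ω → Prop := fun u v => ∃ g : G, g • a = u ∧ g • b = v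
  have iv : Iv G O := fun g _ _ ⟨k, h1, h2⟩ => ⟨g * k, by rw [mul_smul, h1], by rw [mul_smul, h2]⟩
  have ne : ∀ {u v}, O u v → u ≠ v := fun ⟨g, h⟩ => adj_ne hab ⟨g, .inl h⟩
  have tot : ∀ {u v}, u ≠ v → O u v ∨ O v u := fun {u v} n => by
    obtain ⟨g, q | q⟩ := not_not.1 fun q => h u v ⟨n, q⟩
    exacts [.inl ⟨g, q⟩, .inr ⟨g, q⟩]
  have as : ∀ {u v}, O u v → ¬ O v u := by
    rintro _ _ ⟨g, rfl, rfl⟩ q
    have q := iv g⁻¹ _ _ q
    rw [inv_smul_smul, inv_smul_smul] at q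
    have all : ∀ {u v}, u ≠ v → O u v := fun n => (tot n).elim id (by rintro ⟨k, rfl, rfl⟩; exact iv k _ _ q)
    refine h2 fun u v w x h1 h3 => ?_
    obtain ⟨k, rfl, rfl⟩ := all h1
    obtain ⟨l, rfl, rfl⟩ := all h3
    exact ⟨l * k⁻¹, by simp [mul_smul], by simp [mul_smul]⟩
  refine ⟨O, iv, fun x q => ne q rfl, ?_⟩
  have e : Co O = flip O := by
    ext u v
    exact ⟨fun q => (tot q.1).resolve_left q.2, fun q => ⟨(ne q).symm, as q⟩⟩
  have s : ∑ u, #(Nb (flip O) u) = ∑ u, #(Nb O u) := by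
    simp only [Nb, card_filter]; exact sum_comm
  rw [sum_congr rfl fun u _ => iv.val u a, ← e, sum_congr rfl fun u _ => iv.co.val u a, sum_const, sum_const,
    smul_eq_mul, smul_eq_mul] at s
  exact Nat.eq_of_mul_eq_mul_left (card_pos.2 ⟨a, mem_univ _⟩) s

theorem db : DB.{u} := by
  intro G Ω _ _ _ _ _ h2 hn a b hab
  rw [Nat.card_eq_fintype_card] at hn ⊢
  refine ⟨?_, ?_⟩; swap
  · rw [D_eq, ← card_pair hab]
    refine card_le_card fun x hx => ?_
    rcases mem_insert.1 hx with rfl | hx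
    · exact mem_SS.2 (sep_l hab)
    · rw [mem_singleton.1 hx]; exact mem_SS.2 (sep_r hab)
  have hA := lowA (G := G) hab
  have ir : ∀ x, ¬ Adj G a b x x := fun x q => adj_ne hab q rfl
  have hp := part (ir a)
  have np : 0 < Fintype.card Ω := by omega
  by_cases h : ∀ u v, u = v ∨ Adj G a b u v ∨ ∃ w, Adj G a b u w ∧ Adj G a b w v; swap
  · obtain ⟨u, h⟩ := not_forall.1 h
    obtain ⟨v, h⟩ := not_forall.1 h
    have := far hab h
    obtain ⟨m, hm⟩ : ∃ m, Fintype.card Ω = m + 1 := ⟨_, (Nat.succ_pred_eq_of_pos np).symm⟩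
    rw [hm, Nat.add_sub_cancel] at hA
    nlinarith
  have hU := up hab h
  by_cases hc : ∃ u v, Co (Adj G a b) u v
  · obtain ⟨u, v, hc⟩ := hc
    have h3 := csq hab hc
    have h4 := lowS adj_iv ir a
    generalize #(Nb (Adj G a b) a) = k at *
    generalize #(Nb (Co (Adj G a b)) a) = ρ at *
    have h5 : Fintype.card Ω * (Fintype.card Ω * Fintype.card Ω + ρ) ≤
        Fintype.card Ω * (D G a b * k + 2 * D G a b * ρ + (1 + k * k + ρ * ρ)) := by
      rw [mul_add, mul_add _ (_ + _)]; omega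
    have h6 := Nat.le_of_mul_le_mul_left h5 np
    rw [hp] at h6 hA ⊢
    have := num (k := k) (ρ := ρ) (d := D G a b) (by omega) (by omega) h3 (by nlinarith)
    omega
  · push Not at hc
    obtain ⟨R, iv, ir', e⟩ := tour hab h2 hc
    have h0 : #(Nb (Co (Adj G a b)) a) = 0 := card_eq_zero.2 (eq_empty_of_forall_notMem fun v q => hc a v (mem_Nb.1 q))
    have h4 := lowS iv ir' a
    have hq := part (ir' a)
    rw [h0] at hU hp
    rw [e] at h4 hq
    generalize #(Nb (Adj G a b) a) = k at *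
    generalize #(Nb R a) = s at *
    have h5 : Fintype.card Ω * (Fintype.card Ω * Fintype.card Ω) ≤
        Fintype.card Ω * (D G a b * k + (1 + s * s + s * s)) := by
      rw [mul_add]; simp only [mul_zero, add_zero] at hU; omega
    have h6 := Nat.le_of_mul_le_mul_left h5 np
    obtain rfl : k = 2 * s := by omega
    rw [hq] at h6 hn ⊢
    have h7 : s * (s + 2) ≤ s * D G a b := by nlinarith
    have h8 := Nat.le_of_mul_le_mul_left h7 (by omega)
    nlinarith

end H8.PS
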