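/-
S3320, chunk `LG`: a large extraspecial subgroup (adapted from `H10.RF.C` and `H10.RF.E3`).
-/
import Cfsg.Agent.H10.RG.I0

set_option autoImplicit false
set_option linter.unusedSectionVars false
set_option linter.unusedVariables false
open Cfsg Subgroup H19 H0 H15 H10.RF H10.RG
open scoped commutatorElement Pointwise
namespace H8.RG.L
universe u
local notation "cj" => H19.cj
variable {G : Type*} [Group G] [Finite G] {S Q A Y D : Subgroup G} {s x g k : G}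
local notation "ZZ" => zpowers s
local notation "HH" => C[s]
local notation "SS" => cm (zpowers s) (Q ⊓ A : Subgroup G) ⊓ cm (Q ⊓ A) Q
variable (q : LS S Q A Y s x)
include q
theorem QC : Q ≤ N(A) ⊓ HH := le_inf q.QA q.es.le_cent
theorem AC : A ≤ N(A) ⊓ HH := le_inf le_normalizer (q.AS.trans q.sS.le)
theorem CW : N(A) ⊓ HH ≤ N(Q ⊓ A) := norms_inf q.CQ inf_le_left
theorem ZW : ZZ ≤ Q ⊓ A := zpowers_le.2 ⟨q.es.zQ, q.sA⟩
theorem QM : Q ≤ cm ZZ Q := fun a ha => ⟨HZ (q.es.le_cent ha), fun b hb => q.es.comm_mem ha hb⟩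
theorem SQ : SS ≤ N(Q) := fun r hs => mem_norm_of_cj_le fun y hy => by
  obtain ⟨y, k, rfl⟩ := mem_cj'.1 hy
  exact cjcm r y ▸ mul_mem (hs.2.2 y k).1 k
theorem Ssq : ∀ r ∈ SS, r * r ∈ cm ZZ Q := fun r hs => ⟨mul_mem hs.1.1 hs.1.1, fun y hy => by
  have := hs.2.2 y hy
  rw [cml, cjcm r ⁅r, y⁆, mul_assoc, q.sq _ this.2, mul_one]
  exact hs.1.2 _ this⟩
theorem MS : cm ZZ Q ≤ SS := fun r hs => ⟨cm_anti (fun _ k => k.1) hs, mem_norm_of_cj_le fun y hy => by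
  obtain ⟨y, k, rfl⟩ := mem_cj'.1 hy
  exact cjcm r y ▸ mul_mem (ZW q (hs.2 y k.1)) k, fun y hy => ZW q (hs.2 y hy)⟩
theorem SM : SS ≤ N(cm ZZ Q) := cm_nms (inf_le_left.trans cm_le) (SQ q)
theorem AW : A ≤ C(Q ⊓ A) := (ab_sq q.sq).trans (centralizer_le fun _ h => h.2)
theorem CS (h1 : g ∈ N(Q)) (c : g ∈ C(Q ⊓ A)) : g ∈ SS :=
  ⟨⟨HZ (cent_le_cent1 (ZW q (mem_zpowers s)) c), fun w hw => cm1.2 (cent_le_cent1 hw c) ▸ one_mem _⟩, cent_le_norm _ c,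
    fun y hy => ⟨cmN h1 hy, q.cW ⟨q.QA (cmN h1 hy), cms (cmN (norm_le_norm_cent _ (CW q (QC q hy))) c)⟩⟩⟩
theorem VS' : A ≤ SS := fun u hu => CS q (q.CQ (AC q hu)) (AW q hu)
theorem nS (h1 : g ∈ HH) (h2 : g ∈ N(Q)) (h3 : g ∈ N(Q ⊓ A)) : g ∈ N(SS) :=
  norms_inf (A := zpowers g) (zpowers_le.2 (cm_nm (HZ h1) h3)) (zpowers_le.2 (cm_nm h3 h2)) (mem_zpowers g)
theorem sW : Syl 2 A C(Q ⊓ A) := syl_of_subnorm (by
  rw [le_antisymm ((inf_comm _ _).le.trans q.cW) (le_inf (AW q) le_normalizer)]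
  exact Hall.self (q.sS.pi.of_le q.AS))
theorem kW (sQ : Syl 2 Q D) (nD : D ⊴ HH) : D ⊓ N(Q) ≤ N(Q ⊓ A) := by
  have EQ := q.AS.trans q.SQ
  have QW := (QC q).trans (CW q)
  refine (le_of_quo_le inf_le_right (le_inf le_normalizer QW) (gen2 (E := quo Q A) (fun a ha => ?_) ?_
    (quo_norms (norms_inf ((q.AS.trans q.sS.le).trans nD.norm) (norms_norm EQ)))
    ((piG_quo_iff inf_le_right).2 (sQ.of_le (le_inf sQ.le le_normalizer) inf_le_left).idx) fun a ha b hb a1 b1 ab k hk => ?_)).trans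
    inf_le_right
  · obtain ⟨a, hw, rfl⟩ := H19.mem_im.1 ha
    exact qsq (q.sq _ hw ▸ one_mem _)
  · have := q.rk
    rw [card_quo EQ]
    rw [← card_inf_mul_relIndex Q A, inf_comm Q] at this
    nlinarith
  obtain ⟨a, ha', rfl⟩ := H19.mem_im.1 ha
  obtain ⟨b, hb', rfl⟩ := H19.mem_im.1 hb
  obtain ⟨k, hk', rfl⟩ := H19.mem_im.1 hk.1.1
  rw [← map_mul] at ab
  simp only [Ne, qmk_eq_one] at a1 b1 ab
  refine mem_im_of ⟨k.2, mem_norm_of_cj_le fun y hz => ?_⟩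
  obtain ⟨y, hy, rfl⟩ := mem_cj'.1 hz
  have m1 := conj_mem_of_norm k.2 hy.1
  have f : ∀ a : N(Q), (a : G) ∈ A → qmk Q k ∈ C[qmk Q a] → k * y * (k : G)⁻¹ ∈ cm ZZ {(a : G)} := fun a ha e => by
    have e := inv_mem (mem_cm1.1 (qcm.1 e)).2
    have := cm_mul1 (HZ (q.es.le_cent e)) (cm_one e (QM q m1)) (cm_cj1 (HZ (nD.le hk'.1)) (cent_cm (HZ (q.es.le_cent hy.1))
      (cent_le_cent1 ha (ab_sq q.sq hy.2))))
    rwa [cjcm (k : G) a, inv_mul_cancel_left] at this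
  exact ⟨m1, q.ind _ ha' _ hb' a1 b1 ab ⟨⟨m1, f a ha' hk.1.2⟩, f b hb' hk.2⟩⟩
theorem kM (sQ : Syl 2 Q D) (hk : k ∈ D ⊓ N(Q)) : ∃ n, Odd n ∧ k ^ n ∈ cm ZZ Q := ⟨_, Nat.not_even_iff_odd.1 fun e =>
  (sQ.of_le (le_inf sQ.le le_normalizer) inf_le_left).not_dvd Nat.prime_two e.two_dvd, QM q (pow_q inf_le_right hk)⟩
theorem kS (sQ : Syl 2 Q D) (nD : D ⊴ HH) (hk : k ∈ D ⊓ N(Q)) : ∃ r ∈ SS, ∃ y ∈ Y, k = r * y := by
  have kw := kW q sQ nD hk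
  have kH := nD.le hk.1
  obtain ⟨n, ⟨-, hn⟩, c, hc, e⟩ := (mem_sup_of_norm' (inf_le_left.trans (norm_le_norm_cent _))).1
    (((sup_comm _ _).trans ((sW q).frattini ⟨cent_le_norm _, norm_le_norm_cent _⟩)).ge kw)
  rw [← inv_mul_eq_iff_eq_mul] at e
  subst e
  have nC : n ∈ N(A) ⊓ HH := ⟨hn, (HH).inv_mem_iff.1 ((Subgroup.mul_mem_cancel_right _ kH).1 (cent_le_cent1 (ZW q (mem_zpowers s)) hc))⟩
  have r := CS q (mul_mem (inv_mem (q.CQ nC)) hk.2) hc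
  have xS : Y ≤ N(SS) := fun y hy => nS q (q.YC hy).2 (q.CQ (q.YC hy)) (CW q (q.YC hy))
  refine (mem_sup_of_norm xS).1 (mul_inv_cancel_left n k ▸ mul_mem (sup_le_sup_right (sup_le (VS' q) ((QM q).trans
    (MS q))) _ (q.k0 ⟨nC, CW q nC, fun u hu => ⟨q.vQ ⟨cmN hn hu, ?_⟩, cmN hn hu⟩⟩)) (mem_sup_left r))
  have uC := AC q hu
  have k1 : ⁅k, u⁆ ∈ D ⊓ N(Q) := cms (cmN (norms_inf (inf_le_right.trans nD.norm) (norms_norm q.CQ) uC) hk)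
  obtain ⟨j, o, k2⟩ := kM q sQ k1
  have k3 := odd_mem (Ssq q _ (cmN (nS q kH hk.2 kw) (VS' q hu))) k2 o
  rw [← mul_inv_cancel_left n k, cml] at k3
  exact (Subgroup.mul_mem_cancel_left _ (conj_mem_of_norm (cm_nm (HZ nC.2) (q.CQ nC))
    (cmsq (SM q) (Ssq q) r (VS' q hu)))).1 k3
theorem kX' (sQ : Syl 2 Q D) (nD : D ⊴ HH) {r y : G} (hs : r ∈ SS) (hy : y ∈ zpowers x) (hk : r * y ∈ D ⊓ N(Q)) :
    r ∈ cm ZZ Q := by
  have xC := q.YC q.xY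
  have od : ∀ k ∈ D ⊓ N(Q), k ∈ SS → k ∈ cm ZZ Q := fun k hk s => by
    obtain ⟨j, o, e⟩ := kM q sQ hk
    exact odd_mem (Ssq q _ s) e o
  have sM := SM q hs
  have yM : y ∈ N(cm ZZ Q) := zpowers_le.2 (cm_nm (HZ xC.2) (q.CQ xC)) hy
  have c : ⁅r * y, r⁆ ∈ cm ZZ Q := od _ (cms (cmN (norms_inf ((inf_le_left.trans cm_le).trans ((ZH q.es.zz).trans nD.norm))
    (norms_norm (SQ q)) hs) hk)) (cmN (nS q (nD.le hk.1) hk.2 (kW q sQ nD hk)) hs)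
  have c2 : Commute (qmk _ ⟨r, sM⟩) (qmk _ ⟨y, yM⟩) := by
    have := mem_cent1.1 ((qcm (m := ⟨r, sM⟩ * ⟨y, yM⟩) (g := ⟨r, sM⟩)).2 (mem_cm1.2 ⟨mul_mem sM yM, c⟩))
    rw [map_mul, mul_assoc] at this
    exact (mul_left_cancel this).symm
  obtain ⟨j, o, e⟩ := kM q sQ hk
  have y3 : y ^ 3 = 1 := by
    obtain ⟨i, rfl⟩ := hy
    rw [← zpow_natCast, ← zpow_mul, mul_comm, zpow_mul, zpow_natCast, q.x3, one_zpow]
  have := qpow (g := ⟨r, sM⟩ * ⟨y, yM⟩) (n := j * 3) (by rw [pow_mul]; exact pow_mem e 3)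
  rw [map_mul, c2.mul_pow, qpow (g := ⟨y, yM⟩) (by rw [mul_comm, pow_mul]; simp [y3]), mul_one, ← map_pow, qmk_eq_one] at this
  exact odd_mem (Ssq q _ hs) this (o.mul (by decide))
theorem kX (sQ : Syl 2 Q D) (nD : D ⊴ HH) (hk : k ∈ D ⊓ N(Q)) : ∃ r ∈ cm ZZ Q, ∃ y ∈ zpowers x, k = r * y := by
  have xC := q.YC q.xY
  obtain ⟨j, o, e⟩ := kM q sQ hk
  obtain ⟨r, hs, y, hy, rfl⟩ := kS q sQ nD hk
  have yC := q.YC hy
  have e2 : r * y * (r * y) = r * (y * r * y⁻¹) * (y * y) := by group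
  have := kX' q sQ nD (mul_mem hs (conj_mem_of_norm (nS q yC.2 (q.CQ yC) (CW q yC)) hs)) (q.Ysq y hy) (e2 ▸ mul_mem hk hk)
  exact (mem_sup_of_norm (zpowers_le.2 (cm_nm (HZ xC.2) (q.CQ xC)))).1
    (odd_mem (e2 ▸ mul_mem (mem_sup_left this) (mem_sup_right (q.Ysq y hy))) (mem_sup_left e) o)
theorem sc : H17.GS.SCl Q HH := by
  have sq := fun g (hg : g ∈ HH) => sqcj (HZ hg) fun a ha => q.es.sq_mem (x := a) ha
  have bd : ∀ g ∈ HH, ∀ E ≤ cj g Q, E ⊓ Q ≤ Q ⊓ cm ZZ E := fun g hg E l a ha => ⟨ha.2, HZ (q.es.le_cent ha.2), fun e he =>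
    cjc hg ▸ (q.es.J g).comm_mem (l ha.1) (l he)⟩
  have p : PLs HH S Q ZZ := ⟨q.sS, q.QS, q.SQ, q.es.zp_le, HZ, fun a ha => q.es.sq_mem ha, fun g hg k => by
    obtain ⟨f, c1, -, c2 | c2⟩ := q.ts _ k (sq g hg)
    · exact eq_of_le_of_card_eq c2 (card_cj _ _)
    · rw [card_cj, q.cQ] at c1
      exact absurd (c1.trans (Nat.mul_le_mul_left _ (card_le (bd g hg _ le_rfl)))) c2.1.not_ge⟩
  have key : ∀ g d, Bad HH Q g d → ∃ k ∈ HH, ∃ E f, E ≤ cj k Q ∧ Q ⊓ cj k Q ≤ Q ⊓ cm ZZ E ∧ #(Q ⊓ cm (Q ⊓ cj g Q) {d}) ≤ 32 * #(Q ⊓ cj g Q) ∧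
      #(Q ⊓ cm ZZ E) ≤ 128 ∧ ∃ e, Bad HH Q k e ∧ (∀ a ∈ Q, ⁅a, e⁆ ∈ Q ⊓ cm ZZ E) ∧ f = 0 := fun g d b => by
    obtain ⟨k, hk, E, l1, l2, l3, c1, c2, c3, n, b'⟩ := p.main b
    obtain ⟨f, c4, c5, c6⟩ := q.ts _ l1 fun e he => sq k hk e (l2 he)
    have e : E ⊓ Q = Q ⊓ cj k Q := le_antisymm (le_inf inf_le_right (inf_le_left.trans l2)) (le_inf l3 inf_le_left)
    have l4 := bd k hk E l2
    rw [e] at c4 l4
    obtain ⟨c6, e, he, ne, c7⟩ := (c6.resolve_left n).2.resolve_left fun r => by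
      rw [q.cQ] at c3
      have := c3.trans (Nat.mul_le_mul c4 c4)
      rw [Nat.mul_comm f, Nat.mul_assoc, Nat.mul_comm 8192, Nat.mul_comm _ f] at this
      exact absurd ((Nat.le_of_mul_le_mul_left this (card_pos _)).trans (Nat.mul_le_mul_left _ (Nat.mul_le_mul_left _ (card_le l4)))) r.not_ge
    exact ⟨k, hk, E, 0, l2, l4, by rw [← c1, ← c2]; exact c4.trans (Nat.mul_le_mul_right _ c5), c6, e, b' e he ne, c7, rfl⟩
  refine p.SC fun g d b => ?_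
  obtain ⟨k, hk, E, -, l1, l2, -, c1, e, b', c2, -⟩ := key g d b
  obtain ⟨-, -, -, -, -, -, c3, -⟩ := key k e b'
  have zb : ZZ ≤ Q ⊓ cj k Q := le_inf p.ZA (p.Zc hk)
  have n := p.nA zb inf_le_left
  have := cbdq inf_le_left n l2 (inf_le_left.trans n) (p.nC hk zb inf_le_right b'.hd) c2
  have := card_pos (Q ⊓ cj k Q)
  rw [q.cQ] at *
  nlinarith
variable (hO : Oc {2}ᶜ C[s] = ⊥)
include hO
theorem fin2 (sQ : Syl 2 Q D) (nD : D ⊴ HH) : D ≤ N(Q) := by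
  have fx := q.fx
  have xC := q.YC q.xY
  have xQ := q.CQ xC
  have xZ := HZ xC.2
  have QZ : Q ≤ N(ZZ) := q.es.le_cent.trans HZ
  let B := fun a : G => ZZ ⊔ zpowers a ⊔ zpowers (x * a * x⁻¹)
  have zA : ∀ a, ZZ ≤ B a := fun a => le_sup_left.trans le_sup_left
  have m1 : ∀ a, a ∈ B a := fun a => mem_sup_left (mem_sup_right (mem_zpowers a))
  have AQ : ∀ a ∈ Q, B a ≤ Q := fun a ha => sup_le (sup_le q.es.zp_le (zpowers_le.2 ha)) (zpowers_le.2 (conj_mem_of_norm xQ ha))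
  have nA : ∀ U, ZZ ≤ U → U ≤ Q → cm ZZ Q ≤ N(U) := fun U l1 l2 r hs => mem_norm_of_cj_le fun y hy => by
    obtain ⟨y, k, rfl⟩ := mem_cj'.1 hy
    exact cjcm r y ▸ mul_mem (l1 (hs.2 y (l2 k))) k
  have QA := fun U l1 l2 => (QM q).trans (nA U l1 l2)
  have xA : ∀ a ∈ Q, x ∈ N(B a) := fun a ha => mem_norm_of_cj_le (by
    have m2 : x * a * x⁻¹ ∈ B a := mem_sup_right (mem_zpowers _)
    have a1 := conj_mem_of_norm xQ ha
    have a2 := conj_mem_of_norm xQ a1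
    simp only [B, cj_sup, cj_zpowers, sup_le_iff, cjc xC.2]
    refine ⟨⟨zA a, zpowers_le.2 m2⟩, zpowers_le.2 ((Subgroup.mul_mem_cancel_left _ (mul_mem (m1 a) m2)).1 (zA a (fx
      ⟨mul_mem (mul_mem ha a1) a2, cm_sy (mem_cm1.2 ⟨xZ, ?_⟩) (QZ (mul_mem (mul_mem ha a1) a2))⟩)))⟩
    have e : x * (x * (x * a * x⁻¹) * x⁻¹) * x⁻¹ = a := by
      rw [cjcj, cjcj, show x * x * x = 1 by rw [← q.x3, pow_three']]; simp
    rw [commutatorElement_def, cjmul, cjmul, e]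
    convert q.es.comm_mem (mul_mem a1 a2) ha using 1
    simp only [commutatorElement_def]; group)
  have c8 : ∀ a ∈ Q, #(B a) ≤ 8 ∧ (a ∉ ZZ → #(B a) = 8) := fun a ha => by
    have a1 := conj_mem_of_norm xQ ha
    have n1 := QA _ le_sup_left (sup_le q.es.zp_le (zpowers_le.2 ha)) a1
    have s1 : _ ∈ ZZ ⊔ zpowers a := mem_sup_left (q.es.sq_mem a1)
    refine ⟨(adj_le n1 s1).trans (by have := adj_le (QZ ha) (q.es.sq_mem ha); rw [q.es.card_zp] at this; omega), fun n => ?_⟩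
    rw [adj_card n1 s1 fun k => n ?_, adj_card (QZ ha) (q.es.sq_mem ha) n, q.es.card_zp]
    rcases adj (QZ ha) (q.es.sq_mem ha) k with k | ⟨b, hb, e⟩
    · simpa [mul_assoc] using conj_mem_of_norm' xZ k
    · exact fx ⟨ha, cm_sy (mem_cm1.2 ⟨xZ, by rw [commutatorElement_def, e]; exact conj_mem_of_norm (QZ ha) hb⟩) (QZ ha)⟩
  have o : Oc {2}ᶜ D = ⊥ := le_bot_iff.1 (hO ▸ Oc_le_Oc nD)
  have dz : D ≤ C(ZZ) := cent_zpowers s ▸ nD.le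
  have ex : ∀ a ∈ Q, ∃ X, B a ≤ X ∧ X ⊴ D ∧ Q ⊓ X = B a ∧ (X ≤ cm ZZ (B a) → D ≤ N(B a)) := fun a ha => by
    obtain ⟨X, l, n, k1, k2⟩ := gsZ (H17.GS.SCl.of_syl sQ (AQ a ha) fun b hb g hg k => by
      obtain ⟨c, hc, e⟩ := (sQ.inf (K := cm ZZ {g * b * g⁻¹}) ((QM q).trans (cm_one k))).sconj ((sQ.Jmem hg).inf (by
        rw [cj_le_iff, cj_cm1, cj_of_mem_norm (inv_mem (HZ (nD.le hg)))]
        simpa [mul_assoc] using (QM q).trans (cm_one (AQ a ha hb))))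
      obtain ⟨r, hs, y, hy, e2⟩ := kX q sQ nD (k := c⁻¹ * g) ⟨D.mul_mem (D.inv_mem hc.1) hg,
        mem_norm_iff_cj.2 (by rw [cj_mul, ← e, cj_inv_cj])⟩
      have := conj_mem_of_norm (e2 ▸ mul_mem (nA _ (zA a) (AQ a ha) hs) (zpowers_le.2 (xA a ha) hy)) hb
      rw [← cjcj, cjcm] at this
      exact (Subgroup.mul_mem_cancel_left _ (zA a (mem_cm1.1 (inv_mem hc.2)).2)).1 this) (zA a) dz
      (fun b hb => q.es.sq_mem (AQ a ha hb)) o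
    have e : Q ⊓ X = B a := le_antisymm (fun b hb => k1 b hb.2 (QA _ (zA a) (AQ a ha) hb.1) (q.es.sq_mem hb.1)) (le_inf (AQ a ha) l)
    exact ⟨X, l, n, e, fun c => k2 ((e ▸ sQ.inf_normal n).of_le (le_inf l le_normalizer) inf_le_left) (inf_le_left.trans c)⟩
  choose! X l n e k using ex
  have key : ∀ a ∈ Q, ∀ b ∈ Q, b ∉ B a → X a ≤ cm ZZ {b} := fun a ha b hb nb => by
    have e1 : Q ⊓ (X a ⊓ X b) = ZZ := le_antisymm (fun c hc => by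
      by_contra nc
      have l1 : ∀ a ∈ Q, c ∈ X a → B c ≤ B a := fun a ha k => by
        have := (e a ha).le ⟨hc.1, k⟩
        exact sup_le (sup_le (zA a) (zpowers_le.2 this)) (zpowers_le.2 (conj_mem_of_norm (xA a ha) this))
      exact nb (l1 a ha hc.2.1 ((eq_of_le_of_card_ge (l1 b hb hc.2.2) (by rw [(c8 c hc.1).2 nc]; exact (c8 b hb).1)).ge (m1 b))))
      (le_inf q.es.zp_le (le_inf ((zA a).trans (l a ha)) ((zA b).trans (l b hb))))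
    have n1 := (n a ha).inf (n b hb)
    have := zsyl n1 (e1 ▸ sQ.inf_normal n1) (inf_le_left.trans (n1.le.trans dz)) o
    exact fun c hc => mem_cm1.2 ⟨HZ (nD.le ((n a ha).le hc)), this.le ⟨cms (cmN ((n a ha).norm (sQ.le hb)) hc),
      cmN ((n b hb).norm ((n a ha).le hc)) (l b hb (m1 b))⟩⟩
  refine fun g hg => mem_norm_of_cj_le fun y hy => ?_
  obtain ⟨a, ha, rfl⟩ := mem_cj'.1 hy
  obtain ⟨b, hb, nb⟩ := ex_out (lt_of_le_of_lt (c8 a ha).1 (by rw [q.cQ]; omega))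
  refine AQ a ha (conj_mem_of_norm (k a ha (fun c hc => ⟨HZ (nD.le ((n a ha).le hc)), fun y hy => ?_⟩) hg) (m1 a))
  have yb := mul_mem (AQ a ha hy) hb
  simpa using (mem_cm1.1 (cm_mul1 (QZ yb) (key a ha _ yb (fun k => nb ((Subgroup.mul_mem_cancel_left _ hy).1 k)) hc)
    (cm_zp (QZ hb) (key a ha b hb nb hc) (inv_mem (mem_zpowers b))))).2
theorem nQ : HH ≤ N(Q) := by
  obtain ⟨D, l, n, k1, -⟩ := gsZ (sc q) q.es.zp_le (cent_zpowers _).ge (fun a ha => q.es.sq_mem ha) hO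
  have sT := q.sS.inf_normal n
  have e : S ⊓ D = Q := by
    by_contra ne
    obtain ⟨a, ha, na, c⟩ := fixcos sT.pi q.sS.pi (le_inf q.QS l) (inf_le_left.trans q.SQ) q.SQ
      (norms_inf le_normalizer (q.sS.le.trans n.norm)) ne
    obtain ⟨b, hb, e⟩ := q.zq a ha.1 c
    exact na ((Subgroup.mul_mem_cancel_left _ hb).1 (k1 _ (mul_mem (l hb) ha.2) (q.SQ (mul_mem (q.QS hb) ha.1)) e))
  rw [e] at sT
  rw [sT.eq_Oc (fin2 q hO sT n)]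
  exact (n.Oc _).norm
theorem large : LE Q s := by
  have n := nQ q hO
  have l : C(Q) ≤ HH := cent_le_cent1 q.es.zQ
  have nY : C(Q) ⊴ HH := ⟨l, norms_cent n⟩
  have e : S ⊓ C(Q) = ZZ := le_antisymm (fun t ht => q.es.center_eq.le ⟨q.cS ht, ht.2⟩)
    (le_inf (q.es.zp_le.trans q.QS) (zpowers_le.2 (le_cent1_iff.1 q.es.le_cent)))
  exact ⟨q.es, (zsyl nY (e ▸ q.sS.inf_normal nY) (inf_le_left.trans (cent_zpowers s ▸ l)) hO).le.trans q.es.zp_le, n⟩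
theorem cA : A = C(Q ⊓ A) := by
  have e := large q hO
  have p : PG 2 SS := PiN.of_elt fun r hs => (PiN.prime_pow Nat.prime_two 3).dvd (orderOf_dvd_of_pow_eq_one (by
    have := Ssq q r hs
    rw [show 2 ^ 3 = 2 * 4 from rfl, pow_mul, _root_.sq]
    exact q.es.pow4 (e.mem_of_triv (ZH q.es.zz this.1) this.2)))
  exact (sW q).eq_self (p.of_le fun c hc => CS q (e.norm (cent_le_cent1 (ZW q (mem_zpowers s)) hc)) hc)
end H8.RG.L

theorem H8.RG.lg.{u} : H10.RG.LG.{u} := fun _ _ _ _ _ _ q hO =>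
  ⟨H8.RG.L.large q hO, (H8.RG.L.cA q hO).ge, (H19.norm_le_norm_cent _).trans (H8.RG.L.cA q hO ▸ le_rfl)⟩
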