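/-
S3101, chunks `OMa` and `OMb`, part 1: `La J` is the group `Ω` of the Euclidean form on the coordinates in `J`.
-/
import Cfsg.Agent.H17.XI
import Cfsg.Agent.H12.OmegaExt
import Cfsg.Agent.H12.ClassifyQuad
import Cfsg.Agent.H11.Pfaff
import Cfsg.Agent.H11.Small

set_option autoImplicit false
set_option linter.unusedSectionVars false

open Cfsg Subgroup H18 H17.GS
open H19 hiding eq_bot_mono
open H17.X H12 QuadraticMap Module
namespace H8.XO

section ext
variable {F V V' : Type*} [Field F] [AddCommGroup V] [Module F V] [AddCommGroup V'] [Module F V']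

/-- an orthogonal summand -/
structure Sm (Q : QuadraticForm F V) (Q' : QuadraticForm F V') where
  inc : V' →ₗ[F] V
  res : V →ₗ[F] V'
  ri : ∀ w, res (inc w) = w
  qi : ∀ w, Q (inc w) = Q' w
  pol : ∀ w v, polar Q (inc w) v = polar Q' w (res v)

variable {Q : QuadraticForm F V} {Q' : QuadraticForm F V'} (S : Sm Q Q')
namespace Sm

/-- extension by the identity -/
def extL (g : orth Q') : V →ₗ[F] V := LinearMap.id + S.inc ∘ₗ ((g.1 : V' →ₗ[F] V') - LinearMap.id) ∘ₗ S.res
theorem extL_apply (g : orth Q') (v : V) : S.extL g v = v + S.inc (g.1 (S.res v) - S.res v) := rfl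
theorem res_extL (g : orth Q') (v : V) : S.res (S.extL g v) = g.1 (S.res v) := by
  rw [extL_apply, map_add, S.ri]; abel
theorem extL_mul (g h : orth Q') (v : V) : S.extL g (S.extL h v) = S.extL (g * h) v := by
  rw [extL_apply S g, res_extL, extL_apply, extL_apply, orth_mul_apply, map_sub, map_sub, map_sub]; abel
theorem extL_one (v : V) : S.extL 1 v = v := by rw [extL_apply, orth_one_apply]; simp

/-- extension by the identity -/
def ext : orth Q' →* orth Q := MonoidHom.mk' (fun g => ⟨LinearEquiv.ofLinear (S.extL g) (S.extL g⁻¹)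
    (LinearMap.ext fun v => by rw [LinearMap.comp_apply, extL_mul, mul_inv_cancel, extL_one]; rfl)
    (LinearMap.ext fun v => by rw [LinearMap.comp_apply, extL_mul, inv_mul_cancel, extL_one]; rfl),
    mem_orth.2 fun v => by
      change Q (S.extL g v) = Q v
      rw [extL_apply, Q_add, S.qi, polar_comm, S.pol, Q_sub, polar_sub_left, orth_Q, polar_self']; ring⟩)
  fun g h => orth_ext fun v => (S.extL_mul g h v).symm
theorem ext_apply (g : orth Q') (v : V) : (S.ext g).1 v = v + S.inc (g.1 (S.res v) - S.res v) := rfl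

theorem ext_inj : Function.Injective S.ext := (injective_iff_map_eq_one _).2 fun g h => orth_ext fun w => by
  have := S.res_extL g (S.inc w)
  change S.res ((S.ext g).1 _) = _ at this
  rw [h, orth_one_apply, S.ri] at this
  exact this.symm

theorem ext_refl (w : V') : S.ext (refl Q' w) = refl Q (S.inc w) := orth_ext fun v => by
  rw [ext_apply, refl_apply, refl_apply, S.qi, S.pol, sub_sub_cancel_left, map_neg, map_smul, sub_eq_add_neg]

theorem ext_fix (g : orth Q') {v : V} (h : S.res v = 0) : (S.ext g).1 v = v := by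
  rw [ext_apply, h]; simp

theorem ext_surj [FiniteDimensional F V'] (hQ : QNondeg Q) (hQ' : QNondeg Q') {g : orth Q}
    (h : ∀ v, S.res v = 0 → g.1 v = v) : ∃ g', S.ext g' = g := by
  have k : ∀ v, S.res (v - S.inc (S.res v)) = 0 := fun v => by rw [map_sub, S.ri, sub_self]
  have e : ∀ w, S.inc (S.res (g.1 (S.inc w))) = g.1 (S.inc w) := fun w => by
    refine (sub_eq_zero.1 (hQ _ fun x => ?_)).symm
    change polar Q _ x = 0
    rw [← sub_add_cancel x (S.inc (S.res x)), polar_add_right, polar_comm _ _ (S.inc _), S.pol, k, polar_sub_left,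
      S.pol, k, ← h _ (k x), orth_polar, S.pol, k]
    simp
  obtain ⟨g', hg, e'⟩ := hQ'.exists_isom (S.res ∘ₗ (g.1 : V →ₗ[F] V) ∘ₗ S.inc) (quad_isIsomTo _ fun w => by
    change Q' (S.res (g.1 (S.inc w))) = Q' w
    rw [← S.qi, e, orth_Q, S.qi])
  refine ⟨⟨g', hg⟩, orth_ext fun v => ?_⟩
  rw [ext_apply, map_sub]
  change v + (S.inc (g' _) - _) = _
  rw [e']
  change v + (S.inc (S.res (g.1 (S.inc _))) - _) = _
  rw [e, add_sub_left_comm, ← h _ (k v), ← map_add, add_sub_cancel]

end Sm
end ext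

section euc
variable {F : Type} [Field F] {ι : Type} [Fintype ι]

variable (F ι) in
/-- the Euclidean form -/
noncomputable def qE : QuadraticForm F (ι → F) := QuadraticMap.weightedSumSquares F fun _ : ι => (1 : F)
theorem qE_apply (v : ι → F) : qE F ι v = ∑ i, v i * v i := by simp [qE]
theorem polar_qE (u v : ι → F) : polar (qE F ι) u v = 2 * ∑ i, u i * v i := by
  simp only [polar, qE_apply, Pi.add_apply, Finset.mul_sum, ← Finset.sum_sub_distrib]
  exact Finset.sum_congr rfl fun i _ => by ring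
theorem qE_nondeg (h2 : (2 : F) ≠ 0) : QNondeg (qE F ι) := fun x hx => funext fun i => by
  classical
  have : polar (qE F ι) x (Pi.single i 1) = 0 := hx _
  rw [polar_qE] at this
  simpa [Pi.single_apply, h2] using this
theorem polar7 (u v : Fin 7 → F) : polar (q7 F) u v = 2 * ∑ i, u i * v i := polar_qE u v
theorem nd7 (h2 : (2 : F) ≠ 0) : QNondeg (q7 F) := qE_nondeg h2

theorem ee_apply (k i : Fin 7) : ee F k i = if i = k then 1 else 0 := Pi.single_apply _ _ _
theorem sum_ee (v : Fin 7 → F) : ∑ k, v k • ee F k = v := funext fun i => by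
  simp [Finset.sum_apply, ee_apply]
theorem fix_of {J : Finset (Fin 7)} {g : OO F} (h : ∀ k ∉ J, g.1 (ee F k) = ee F k) {v : Fin 7 → F}
    (hv : ∀ k ∈ J, v k = 0) : g.1 v = v := by
  conv_lhs => rw [← sum_ee v]
  rw [map_sum]
  refine (Finset.sum_congr rfl fun k _ => ?_).trans (sum_ee v)
  by_cases e : k ∈ J
  · rw [hv k e, zero_smul, map_zero]
  · rw [map_smul, h k e]

/-- extension by zero -/
def incJ (J : Finset (Fin 7)) : (J → F) →ₗ[F] (Fin 7 → F) :=
  LinearMap.pi fun i => if h : i ∈ J then LinearMap.proj (⟨i, h⟩ : J) else 0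
theorem incJ_apply (J : Finset (Fin 7)) (w : J → F) (i : Fin 7) :
    incJ J w i = if h : i ∈ J then w ⟨i, h⟩ else 0 := by
  unfold incJ; rw [LinearMap.pi_apply]; split_ifs <;> rfl
theorem sum_incJ (J : Finset (Fin 7)) (w : J → F) (v : Fin 7 → F) : ∑ i, incJ J w i * v i = ∑ j : J, w j * v j := by
  rw [← Finset.sum_subset J.subset_univ fun i _ h => by rw [incJ_apply, dif_neg h, zero_mul],
    ← Finset.sum_coe_sort]
  exact Finset.sum_congr rfl fun j _ => by rw [incJ_apply, dif_pos j.2]

variable (F) in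
/-- the coordinates in `J` -/
noncomputable def smJ (J : Finset (Fin 7)) : Sm (q7 F) (qE F J) where
  inc := incJ J
  res := LinearMap.funLeft F F Subtype.val
  ri w := funext fun j => (incJ_apply J w j).trans (dif_pos j.2)
  qi w := by
    rw [q7_apply, sum_incJ, qE_apply]
    exact Finset.sum_congr rfl fun j _ => by rw [incJ_apply, dif_pos j.2]
  pol w v := by rw [polar7, sum_incJ, polar_qE]; rfl

variable [Fintype F]

theorem La_eq (h2 : (2 : F) ≠ 0) (J : Finset (Fin 7)) : La F J = (commutator (orth (qE F J))).map (smJ F J).ext := by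
  have k := mem_commutator_iff_of_hom (qE_nondeg h2) (notExc_of_two_ne_zero h2) (nd7 h2) (notExc_of_two_ne_zero h2)
    (smJ F J).ext (smJ F J).inc (smJ F J).qi fun v _ => (smJ F J).ext_refl v
  ext g
  constructor
  · intro h
    obtain ⟨g', rfl⟩ := (smJ F J).ext_surj (nd7 h2) (qE_nondeg h2) (g := g) fun v hv =>
      fix_of h.2 fun k hk => congrFun hv ⟨k, hk⟩
    exact ⟨g', (k _).1 h.1, rfl⟩
  · rintro ⟨g', h, rfl⟩
    exact ⟨(k _).2 h, fun i hi => (smJ F J).ext_fix _ (funext fun j => (ee_apply i j).trans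
      (if_neg fun e : j.1 = i => hi (e ▸ j.2)))⟩

theorem La_equiv (h2 : (2 : F) ≠ 0) (J : Finset (Fin 7)) : Nonempty (La F J ≃* commutator (orth (qE F J))) :=
  ⟨(MulEquiv.subgroupCongr (La_eq h2 J)).trans (equivMapOfInjective _ _ (smJ F J).ext_inj).symm⟩

theorem La_odd (h2 : (2 : F) ≠ 0) {J : Finset (Fin 7)} {m : ℕ} (hm : 1 ≤ m) (h : J.card = 2 * m + 1) :
    Nonempty (La F J ≃* POmega F (quadFormOdd m F)) := by
  obtain ⟨e⟩ := La_equiv h2 J
  obtain ⟨c, hc, k⟩ := quad_iso_qOdd h2 (qE_nondeg (ι := J) h2) (m := m) (by simpa using h)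
  obtain ⟨e'⟩ := k.isom_equiv
  have : orth (c • H11.qOdd m F) = orth (H11.qOdd m F) := by ext g; simp [mem_orth, hc]
  exact ⟨((e.trans (H11.commutatorCongr (e'.trans (MulEquiv.subgroupCongr this)))).trans
    (H11.omegaEquiv _ (H11.coe_qOdd m)).symm).trans (H11.quotCenterEquivOfBot (H11.center_omegaOdd h2 hm)).symm⟩

theorem La_four (h2 : (2 : F) ≠ 0) {J : Finset (Fin 7)} (h : J.card = 4) :
    Nonempty (La F J ≃* Omega F (quadFormPlus 2 F)) := by
  obtain ⟨e⟩ := La_equiv h2 J
  have hd : finrank F (J → F) = 2 * 2 := by simpa using h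
  obtain ⟨e'⟩ := (quad_iso_qPlus (qE_nondeg (ι := J) h2) hd
    ((quad_hasTS_iff_disc h2 (qE_nondeg h2) hd (Pi.basisFun F J)).2 ⟨4, by
      rw [det_gram_of_orth fun i j k => by
        rw [CForm.ofQuad_B, polar_qE]; simp [Pi.single_apply, k.symm]]
      simp [qE_apply, Pi.single_apply, h]; norm_num⟩)).isom_equiv
  exact ⟨(e.trans (H11.commutatorCongr e')).trans (H11.omegaEquiv _ (H11.coe_qPlus 2)).symm⟩

end euc
end H8.XO
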