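/-
S3101, chunks `OMa` and `OMb`, part 2: elementary facts on sign changes and permutation matrices.
-/
import Cfsg.Agent.H8.XO1
import Cfsg.Agent.H5.Burnside
import Mathlib.GroupTheory.SpecificGroups.Alternating.Centralizer

set_option autoImplicit false
set_option linter.unusedSectionVars false

open Cfsg Subgroup H18 H17.GS
open H19 hiding eq_bot_mono
open H17.X H12 QuadraticMap Module
open scoped commutatorElement
namespace H8.XO

variable {F : Type} [Field F] {g h y : OO F} {s t J T : Finset (Fin 7)} {a b c i k l : Fin 7} {v : Fin 7 → F}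

theorem ext_ee (e : ∀ k, g.1 (ee F k) = h.1 (ee F k)) : g = h := orth_ext fun v => by
  rw [← sum_ee v, map_sum, map_sum]; simp only [map_smul, e]
theorem ng_ee (s : Finset (Fin 7)) (k : Fin 7) : (ng F s).1 (ee F k) = if k ∈ s then -ee F k else ee F k :=
  funext fun i => by
    rw [ng_apply]
    by_cases e : i = k
    · subst e; split_ifs <;> rfl
    · split_ifs <;> simp [ee_apply, e]
theorem q_ee (k : Fin 7) : q7 F (ee F k) = 1 := by simp [q7_apply, ee_apply]
theorem pol_ee (v : Fin 7 → F) (k : Fin 7) : polar (q7 F) v (ee F k) = 2 * v k := by simp [polar7, ee_apply]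
theorem refl_ee (a : Fin 7) : refl (q7 F) (ee F a) = ng F {a} := orth_ext fun v => funext fun i => by
  rw [refl_apply, q_ee, polar_comm, pol_ee, ng_apply]
  by_cases e : i = a
  · subst e; simp [ee_apply]; ring
  · simp [ee_apply, e]
theorem ng_comm (s t : Finset (Fin 7)) : ng F s * ng F t = ng F t * ng F s := by rw [ng_mul, ng_mul, symmDiff_comm]
theorem ng_sq (s : Finset (Fin 7)) : ng F s * ng F s = 1 := by rw [ng_mul, symmDiff_self]; exact ng_empty
theorem ng_insert (h : a ∉ s) : ng F (insert a s) = ng F {a} * ng F s := by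
  rw [ng_mul, (Finset.disjoint_singleton_left.2 h).symmDiff_eq_sup]; rfl

/-- the stabilizer of a vector -/
def Fx (v : Fin 7 → F) : Subgroup (OO F) where
  carrier := {g | g.1 v = v}
  one_mem' := rfl
  mul_mem' {g h} e e' := by change g.1 (h.1 v) = v; rw [e', e]
  inv_mem' {g} e := by change (g⁻¹).1 v = v; rw [← e, orth_inv_apply', e]

theorem odd_fix (ho : Odd (orderOf y)) (e : y.1 v = v ∨ y.1 v = -v) : y.1 v = v := by
  have h2 : y ^ 2 ∈ Fx v := by
    change (y ^ 2).1 v = v
    rw [pow_two, orth_mul_apply]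
    rcases e with e | e
    · rw [e, e]
    · rw [e, map_neg, e, neg_neg]
  obtain ⟨n, hn⟩ := ho
  have := pow_orderOf_eq_one y
  rw [hn, pow_succ, pow_mul] at this
  exact (mul_mem_cancel_left (pow_mem h2 n)).1 (this ▸ one_mem (Fx v))

theorem pm1 (e : ∀ i ≠ l, g.1 (ee F k) i = 0) : g.1 (ee F k) = ee F l ∨ g.1 (ee F k) = -ee F l := by
  have := orth_Q g (ee F k)
  rw [q_ee, q7_apply, Finset.sum_eq_single l (fun i _ hi => by rw [e i hi, mul_zero]) (by simp)] at this
  refine (mul_self_eq_one_iff.1 this).imp (fun h => funext fun i => ?_) fun h => funext fun i => ?_ <;>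
    by_cases hi : i = l <;> simp [ee_apply, hi, h, e]

theorem two_ee (e : ∀ i, i ≠ a → i ≠ b → v i = 0) (hab : a ≠ b) : v = v a • ee F a + v b • ee F b := funext fun i => by
  by_cases ha : i = a
  · simp [ee_apply, ha, hab]
  by_cases hb : i = b
  · simp [ee_apply, hb, hab.symm]
  · simp [ee_apply, ha, hb, e i ha hb]

section odd
variable (h2 : (2 : F) ≠ 0)
include h2

theorem zero_of_neg {x : F} (e : x = -x) : x = 0 :=
  (mul_eq_zero.1 (by linear_combination e : 2 * x = 0)).resolve_left h2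
theorem ee_ne (k : Fin 7) : ee F k ≠ -ee F k := fun e => by
  simpa [ee_apply] using zero_of_neg h2 (congrFun e k)
theorem c_neg (h : g ∈ C[ng F s]) (hk : k ∈ s) (hi : i ∉ s) : g.1 (ee F k) i = 0 := by
  have := congrArg (fun x : OO F => x.1 (ee F k) i) (mem_cent1.1 h)
  simp only [orth_mul_apply, ng_ee, ng_apply, if_pos hk, if_neg hi, map_neg] at this
  exact zero_of_neg h2 this.symm
theorem c_pos (h : g ∈ C[ng F s]) (hk : k ∉ s) (hi : i ∈ s) : g.1 (ee F k) i = 0 := by
  have := congrArg (fun x : OO F => x.1 (ee F k) i) (mem_cent1.1 h)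
  simp only [orth_mul_apply, ng_ee, ng_apply, if_neg hk, if_pos hi] at this
  exact zero_of_neg h2 this
theorem f_zero (h : g.1 (ee F i) = ee F i) (hk : k ≠ i) : g.1 (ee F k) i = 0 := by
  have := orth_polar g (ee F k) (ee F i)
  rw [h, pol_ee, pol_ee, ee_apply, if_neg hk.symm] at this
  exact mul_left_cancel₀ h2 this

theorem b1 (h : ng F s = 1) : s = ∅ := Finset.eq_empty_of_forall_notMem fun k hk => ee_ne h2 k (by
  have := ng_ee (F := F) s k
  rwa [h, if_pos hk] at this)

theorem b6 (h : IsConj (ng F s) (ng F t)) : s.card ≤ t.card := by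
  obtain ⟨c, e⟩ := isConj_iff.1 h
  have := LinearMap.finrank_le_finrank_of_injective
    (f := (smJ F t).res ∘ₗ (c.1 : _ →ₗ[F] _) ∘ₗ (smJ F s).inc) ((injective_iff_map_eq_zero _).2 fun w hw => by
      have e1 : (ng F s).1 (incJ s w) = -incJ s w := funext fun i => by
        rw [ng_apply, Pi.neg_apply, incJ_apply]; split_ifs <;> simp
      have e2 : (ng F t).1 (c.1 (incJ s w)) = -c.1 (incJ s w) := by
        rw [← e, orth_mul_apply, orth_mul_apply, orth_inv_apply', e1, map_neg]
      have e3 : c.1 (incJ s w) = 0 := funext fun i => by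
        by_cases hi : i ∈ t
        · exact congrFun hw ⟨i, hi⟩
        · have := congrFun e2 i
          rw [ng_apply, if_neg hi] at this
          exact zero_of_neg h2 this
      rw [← (smJ F s).ri w]
      change (smJ F s).res (incJ s w) = 0
      rw [c.1.map_eq_zero_iff.1 e3, map_zero])
  simpa using this

theorem b8 (hac : a ≠ c) (ho : Odd (orderOf y)) (h : y ∈ C[ng F {a, b}]) (h' : y ∈ C[ng F {b, c}]) :
    y.1 (ee F b) = ee F b := odd_fix ho (pm1 fun i hi => by
  by_cases e : i = a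
  · exact c_neg h2 h' (by simp) (by simp [e, hac, e ▸ hi])
  · exact c_neg h2 h (by simp) (by simp [e, hi]))

theorem b9 (h : T ⊆ s ∨ Disjoint T s) : La F T ≤ C[ng F s] := fun g hg => mem_cent1.2 (ext_ee fun k => by
  rw [orth_mul_apply, orth_mul_apply, ng_ee]
  by_cases hk : k ∈ T
  · have z : ∀ i ∉ T, g.1 (ee F k) i = 0 := fun i hi => f_zero h2 (hg.2 i hi) fun e => hi (e ▸ hk)
    funext i
    rw [ng_apply]
    rcases h with h | h
    · rw [if_pos (h hk), map_neg]
      split_ifs with e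
      · rfl
      · rw [Pi.neg_apply, z i fun e' => e (h e'), neg_zero]
    · rw [if_neg (Finset.disjoint_left.1 h hk)]
      split_ifs with e
      · rw [z i (Finset.disjoint_right.1 h e), neg_zero]
      · rfl
  · rw [hg.2 k hk, ng_ee]
    split_ifs
    · rw [map_neg, hg.2 k hk]
    · exact hg.2 k hk)

theorem c_two (hab : a ≠ b) (g : C[ng F {a, b}]) (hk : k ∈ ({a, b} : Finset (Fin 7))) :
    g.1.1 (ee F k) = g.1.1 (ee F k) a • ee F a + g.1.1 (ee F k) b • ee F b :=
  two_ee (fun i k k' => c_neg h2 g.2 hk (by simp [k, k'])) hab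

/-- the action on a plane -/
noncomputable def mt (hab : a ≠ b) : C[ng F {a, b}] →* Matrix (Fin 2) (Fin 2) F where
  toFun g := !![g.1.1 (ee F a) a, g.1.1 (ee F b) a; g.1.1 (ee F a) b, g.1.1 (ee F b) b]
  map_one' := by
    ext i j; fin_cases i <;> fin_cases j <;> simp [orth_one_apply, ee_apply, hab, hab.symm]
  map_mul' g h := by
    have e1 := c_two h2 hab h (k := a) (by simp)
    have e2 := c_two h2 hab h (k := b) (by simp)
    rw [Matrix.mul_fin_two, coe_mul, orth_mul_apply, orth_mul_apply]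
    conv_lhs => rw [e1, e2]
    simp [mul_comm]

theorem mt_rot (hab : a ≠ b) (g : C[ng F {a, b}]) (h : (mt h2 hab g).det = 1) :
    ∃ x y : F, mt h2 hab g = !![x, -y; y, x] := by
  have e1 := c_two h2 hab g (k := a) (by simp)
  have e2 := c_two h2 hab g (k := b) (by simp)
  have k1 := orth_polar g.1 (ee F a) (ee F a)
  have k2 := orth_polar g.1 (ee F a) (ee F b)
  nth_rewrite 2 [e1] at k1
  rw [e2] at k2
  simp only [polar_add_right, polar_smul_right, pol_ee, ee_apply, if_true, if_neg hab.symm, smul_eq_mul] at k1 k2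
  change Matrix.det !![_, _; _, _] = 1 at h
  rw [Matrix.det_fin_two_of] at h
  refine ⟨g.1.1 (ee F a) a, g.1.1 (ee F a) b, ?_⟩
  change !![_, _; _, _] = _
  generalize g.1.1 (ee F a) a = x at *
  generalize g.1.1 (ee F a) b = y at *
  generalize g.1.1 (ee F b) a = z at *
  generalize g.1.1 (ee F b) b = w at *
  rw [show z = -y from mul_left_cancel₀ h2 (by linear_combination x * k2 - z * k1 - 2 * y * h),
    show w = x from mul_left_cancel₀ h2 (by linear_combination y * k2 - w * k1 + 2 * x * h)]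

theorem der2 (a b : Fin 7) : ⁅⁅C[ng F {a, b}], C[ng F {a, b}]⁆, ⁅C[ng F {a, b}], C[ng F {a, b}]⁆⁆ ≤
    Fx (ee F a) ⊓ Fx (ee F b) := by
  by_cases hab : a = b
  · subst hab
    have e : ∀ g ∈ C[ng F {a, a}], g.1 (ee F a) = ee F a ∨ g.1 (ee F a) = -ee F a := fun g hg =>
      pm1 fun i hi => c_neg h2 hg (by simp) (by simp [hi])
    rw [inf_idem]
    refine (der_le _).trans (commutator_le.2 fun g hg h hh => ?_)
    have : (g * h).1 (ee F a) = (h * g).1 (ee F a) := by
      rcases e g hg with k | k <;> rcases e h hh with k' | k' <;> simp [orth_mul_apply, k, k']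
    change (g * h * g⁻¹ * h⁻¹).1 _ = _
    rw [mul_assoc, ← mul_inv_rev, orth_mul_apply]
    rcases e _ (inv_mem (mul_mem hh hg)) with k | k
    · rw [k, this]; nth_rewrite 1 [← k]; exact orth_inv_apply _ _
    · rw [k, map_neg, this, ← map_neg, ← k]; exact orth_inv_apply _ _
  have k : ⁅C[ng F {a, b}], C[ng F {a, b}]⁆ ≤
      (Matrix.detMonoidHom.comp (mt h2 hab)).toHomUnits.ker.map (Subgroup.subtype _) :=
    commutator_le.2 fun g hg h hh => ⟨⁅(⟨g, hg⟩ : C[ng F {a, b}]), ⟨h, hh⟩⁆, by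
      rw [SetLike.mem_coe, MonoidHom.mem_ker, map_commutatorElement, commutatorElement_eq_one_iff_mul_comm]
      exact mul_comm _ _, rfl⟩
  refine (commutator_mono k k).trans (commutator_le.2 ?_)
  rintro _ ⟨g, hg, rfl⟩ _ ⟨h, hh, rfl⟩
  obtain ⟨x, y, e⟩ := mt_rot h2 hab g (congrArg Units.val hg)
  obtain ⟨z, w, e'⟩ := mt_rot h2 hab h (congrArg Units.val hh)
  have : (mt h2 hab).toHomUnits ⁅g, h⁆ = 1 := by
    rw [map_commutatorElement, commutatorElement_eq_one_iff_mul_comm]
    refine Units.ext ?_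
    change mt h2 hab g * mt h2 hab h = mt h2 hab h * mt h2 hab g
    rw [e, e', Matrix.mul_fin_two, Matrix.mul_fin_two]
    ext i j; fin_cases i <;> fin_cases j <;> simp <;> ring
  have m : mt h2 hab ⁅g, h⁆ = 1 := congrArg Units.val this
  have e1 := c_two h2 hab ⁅g, h⁆ (k := a) (by simp)
  have e2 := c_two h2 hab ⁅g, h⁆ (k := b) (by simp)
  rw [show (⁅g, h⁆).1.1 (ee F a) a = 1 from congrFun₂ m 0 0, show (⁅g, h⁆).1.1 (ee F a) b = 0 from congrFun₂ m 1 0,
    one_smul, zero_smul, add_zero] at e1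
  rw [show (⁅g, h⁆).1.1 (ee F b) a = 0 from congrFun₂ m 0 1, show (⁅g, h⁆).1.1 (ee F b) b = 1 from congrFun₂ m 1 1,
    one_smul, zero_smul, zero_add] at e2
  exact ⟨e1, e2⟩

theorem der2' (J : Finset (Fin 7)) (a b : Fin 7) {P : Subgroup (OO F)} (h : P ≤ La F J ⊓ C[ng F {a, b}]) :
    ⁅⁅P, P⁆, ⁅P, P⁆⁆ ≤ La F (J \ {a, b}) := fun g hg => by
  have k := der2 h2 a b (der_mono (der_mono (h.trans inf_le_right)) hg)
  have k' := (h (der_le _ (der_le _ hg))).1
  refine ⟨k'.1, fun i hi => ?_⟩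
  by_cases e : i ∈ J
  · have : i = a ∨ i = b := by simpa [e, or_iff_not_imp_left] using hi
    rcases this with rfl | rfl
    exacts [k.1, k.2]
  · exact k'.2 i e

variable [Fintype F]

theorem dk_ng (s : Finset (Fin 7)) : dickson (q7 F) (ng F s) = (-1) ^ s.card ∧ spinor (q7 F) (ng F s) = 1 := by
  induction s using Finset.induction_on with
  | empty => simp [ng_empty]
  | insert a s ha ih =>
    have := (q_ee (F := F) a).trans_ne one_ne_zero
    rw [ng_insert ha, map_mul, map_mul, ih.1, ih.2, ← refl_ee, dickson_refl (nd7 h2) (notExc_of_two_ne_zero h2) this,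
      spinor_refl (nd7 h2) (notExc_of_two_ne_zero h2) this, q_ee, qsign_one, Finset.card_insert_of_notMem ha,
      pow_succ']
    exact ⟨rfl, rfl⟩

theorem ng_mem : ng F s ∈ commutator (OO F) ↔ Even s.card := by
  rw [mem_commutator_iff (nd7 h2) (notExc_of_two_ne_zero h2), (dk_ng h2 s).1, (dk_ng h2 s).2,
    neg_one_pow_eq_one_iff_even (by decide), and_iff_left rfl]

theorem b2 (h : s ⊆ J) (e : Even s.card) : ng F s ∈ La F J :=
  ⟨(ng_mem h2).2 e, fun k hk => by rw [ng_ee, if_neg fun e => hk (h e)]⟩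

omit h2 in
theorem b3 {σ : Equiv.Perm (Fin 7)} (h : σ.support ⊆ J) (e : Equiv.Perm.sign σ = 1) : pm F σ ∈ La F J :=
  ⟨by
    have : σ ∈ commutator (Equiv.Perm (Fin 7)) := by
      rw [alternatingGroup.commutator_perm_eq (by simp)]; exact e
    exact commutator_mono le_top le_top ((map_commutator_eq _ (pm F)).le (mem_map_of_mem _ this)),
   fun k hk => by rw [pm_ee, Equiv.Perm.notMem_support.1 fun e => hk (h e)]⟩

theorem b4 : g ∈ DD F J ↔ ∃ s ⊆ J, Even s.card ∧ g = ng F s := by
  refine ⟨fun h => ?_, fun h => subset_closure h⟩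
  induction h using closure_induction with
  | mem x h => exact h
  | one => exact ⟨∅, by simp, by simp, ng_empty.symm⟩
  | mul x y _ _ k k' =>
    obtain ⟨s, h, e, rfl⟩ := k
    obtain ⟨t, h', e', rfl⟩ := k'
    refine ⟨symmDiff s t, symmDiff_le_sup.trans (sup_le h h'), (ng_mem h2).1 ?_, ng_mul s t⟩
    rw [← ng_mul]
    exact mul_mem ((ng_mem h2).2 e) ((ng_mem h2).2 e')
  | inv x _ k =>
    obtain ⟨s, h, e, rfl⟩ := k
    exact ⟨s, h, e, inv_eq_of_mul_eq_one_right (ng_sq s)⟩

theorem ng_cent (s : Finset (Fin 7)) : ng F s ∈ C(DD F J) := mem_cent.2 fun x hx => by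
  obtain ⟨t, -, -, rfl⟩ := (b4 h2).1 hx
  exact ng_comm _ _

theorem b5 (h3 : 3 ≤ J.card) : La F J ⊓ C(DD F J) = DD F J := by
  classical
  refine le_antisymm (fun g hg => ?_) fun g hg => ?_
  · have e : g = ng F (J.filter fun k => g.1 (ee F k) = -ee F k) := ext_ee fun k => by
      rw [ng_ee]
      split_ifs with hk
      · exact (Finset.mem_filter.1 hk).2
      by_cases hJ : k ∈ J
      · refine (pm1 fun i hi => ?_).resolve_right fun e => hk (Finset.mem_filter.2 ⟨hJ, e⟩)
        obtain ⟨a, ha, e⟩ := Finset.exists_mem_notMem_of_card_lt_card (s := {k, i}) (t := J)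
          (Finset.card_le_two.trans_lt h3)
        simp only [Finset.mem_insert, Finset.mem_singleton, not_or] at e
        exact c_neg h2 (s := {a, k}) (cent_le_cent1 ((b4 h2).2 ⟨_, by simp [Finset.insert_subset_iff, ha, hJ], by
          simp [Finset.card_pair e.1], rfl⟩) hg.2) (by simp) (by simp [hi, Ne.symm e.2])
      · exact hg.1.2 k hJ
    exact (b4 h2).2 ⟨_, Finset.filter_subset _ _, (ng_mem h2).1 (e ▸ hg.1.1), e⟩
  · obtain ⟨s, h, e, rfl⟩ := (b4 h2).1 hg
    exact ⟨b2 h2 h e, ng_cent h2 s⟩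

end odd

section three
variable [Fintype F] (h3 : Fintype.card F = 3)
include h3

theorem two3 : (2 : F) ≠ 0 := odd_card_iff.1 (by rw [h3]; decide)
theorem three3 : (3 : F) = 0 := by have := FiniteField.cast_card_eq_zero F; rwa [h3] at this
theorem sq3 {x : F} (h : x ≠ 0) : x * x = 1 := by
  have := FiniteField.pow_card_sub_one_eq_one x h; rwa [h3, pow_two] at this

theorem mono3 (hs : s.card ≤ 3) (e : ∀ i ∉ s, g.1 (ee F k) i = 0) : ∃ l, g * ng F {k} * g⁻¹ = ng F {l} := by
  classical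
  have := orth_Q g (ee F k)
  rw [q_ee, q7_apply, ← Finset.sum_filter_of_ne (p := fun i => g.1 (ee F k) i ≠ 0) (fun i _ h => left_ne_zero_of_mul h),
    Finset.sum_congr rfl fun i hi => sq3 h3 (Finset.mem_filter.1 hi).2, Finset.sum_const, nsmul_one] at this
  have hc : (Finset.univ.filter fun i => g.1 (ee F k) i ≠ 0).card ≤ 3 :=
    (Finset.card_le_card fun i hi => by_contra fun h => absurd (e i h) (Finset.mem_filter.1 hi).2).trans hs
  obtain ⟨l, hl⟩ : ∃ l, (Finset.univ.filter fun i => g.1 (ee F k) i ≠ 0) = {l} := by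
    rw [← Finset.card_eq_one]
    generalize (Finset.univ.filter fun i => g.1 (ee F k) i ≠ 0).card = n at *
    have h0 := three3 h3
    interval_cases n
    · simp at this
    · rfl
    · exact absurd (by push_cast at this; linear_combination this) (one_ne_zero (α := F))
    · exact absurd (by push_cast at this; linear_combination h0 - this) (one_ne_zero (α := F))
  refine ⟨l, ?_⟩
  rw [← refl_ee, refl_conj, ← refl_ee]
  rcases pm1 (g := g) (k := k) (l := l) (fun i hi => by_contra fun h => hi (Finset.mem_singleton.1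
    (hl ▸ Finset.mem_filter.2 ⟨Finset.mem_univ _, h⟩))) with e | e
  · rw [e]
  · rw [e, ← neg_one_smul F, refl_smul (by simp)]

theorem b10a (h5 : J.card = 5) (ha : a ∈ J) (hb : b ∈ J) (hab : a ≠ b) : La F J ⊓ C[ng F {a, b}] ≤ N(DD F J) := by
  have h2 := two3 h3
  intro g hg
  have m : ∀ k, ∃ l, g * ng F {k} * g⁻¹ = ng F {l} := fun k => by
    by_cases hk : k ∈ J
    · by_cases hk' : k ∈ ({a, b} : Finset (Fin 7))
      · exact mono3 h3 (s := {a, b}) (Finset.card_le_two.trans (by decide)) fun i hi => c_neg h2 hg.2 hk' hi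
      · refine mono3 h3 (s := J \ {a, b}) ?_ fun i hi => ?_
        · rw [Finset.card_sdiff_of_subset (by simp [Finset.insert_subset_iff, ha, hb]), Finset.card_pair hab, h5]
        · by_cases e : i ∈ J
          · exact c_pos h2 hg.2 hk' (by_contra fun h => hi (Finset.mem_sdiff.2 ⟨e, h⟩))
          · exact f_zero h2 (hg.1.2 i e) fun e' => e (e' ▸ hk)
    · exact ⟨k, by rw [← refl_ee, refl_conj, hg.1.2 k hk]⟩
  have m' : ∀ s, ∃ t, g * ng F s * g⁻¹ = ng F t := fun s => by
    induction s using Finset.induction_on with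
    | empty => exact ⟨∅, by simp [ng_empty]⟩
    | insert k s hk ih =>
      obtain ⟨l, e⟩ := m k
      obtain ⟨t, e'⟩ := ih
      exact ⟨symmDiff {l} t, by rw [ng_insert hk, ← ng_mul, ← e, ← e']; group⟩
  refine mem_norm_of_cj_le fun x hx => ?_
  obtain ⟨x, hx', rfl⟩ := mem_cj'.1 hx
  obtain ⟨s, h, e, rfl⟩ := (b4 h2).1 hx'
  refine (b5 h2 (by omega)).le (mem_inf.2 ⟨mul_mem (mul_mem hg.1 (b2 h2 h e)) (inv_mem hg.1), ?_⟩)
  obtain ⟨t, e'⟩ := m' s
  exact e' ▸ ng_cent h2 t

theorem b10b (h5 : J.card = 5) (ha : a ∈ J) (hb : b ∈ J) (hab : a ≠ b) : Sol (La F J ⊓ C[ng F {a, b}]) := by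
  have h2 := two3 h3
  have k : ∀ {G : Subgroup (OO F)}, Sol ⁅G, G⁆ → Sol G := fun {G} h => sol_of_quo (der_normal G).norm
    (sol_mono h inf_le_left) (sol_of_ab ((ab_quo_iff (der_normal G).norm).2 le_rfl))
  refine k (k (sol_mono ?_ (der2' h2 J a b le_rfl)))
  obtain ⟨e⟩ := La_odd h2 (J := J \ {a, b}) (m := 1) le_rfl (by
    rw [Finset.card_sdiff_of_subset (by simp [Finset.insert_subset_iff, ha, hb]), Finset.card_pair hab, h5])
  have := H11.card_pomegaOdd h2 (m := 1) le_rfl
  rw [← Nat.card_congr e.toEquiv, h3] at this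
  refine H5.isSolvable_of_card_dvd_prime_pow_mul (a := 2) (b := 1) Nat.prime_two Nat.prime_three (dvd_of_eq ?_)
  simp only [Finset.range_one, Finset.prod_singleton] at this
  omega

theorem rr3 {v w : Fin 7 → F} (hv : q7 F v = 1) (hw : q7 F w = 1) : orderOf (refl (q7 F) v * refl (q7 F) w) ≤ 3 := by
  by_cases e : polar (q7 F) v w = 0
  · have := refl_conj (refl (q7 F) v) w
    rw [refl_apply_of_orth e, refl_inv] at this
    refine (orderOf_le_of_pow_eq_one (n := 2) (by decide) ?_).trans (by decide)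
    rw [pow_two, ← mul_assoc, this, refl_mul_self]
  · have e1 := refl_conj (refl (q7 F) v) w
    have e2 := refl_conj (refl (q7 F) w) v
    rw [refl_inv, refl_apply, hv] at e1
    rw [refl_inv, refl_apply, hw, polar_comm] at e2
    have : w - ((1 : F)⁻¹ * polar (q7 F) v w) • v =
        (-polar (q7 F) v w) • (v - ((1 : F)⁻¹ * polar (q7 F) v w) • w) := by
      rw [inv_one, one_mul, smul_sub, smul_smul, neg_mul, sq3 h3 e]; simp [sub_eq_add_neg, add_comm]
    rw [this, refl_smul (neg_ne_zero.2 e), ← e2] at e1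
    refine orderOf_le_of_pow_eq_one (by decide) ?_
    calc _ = (refl (q7 F) v * refl (q7 F) w * refl (q7 F) v) * (refl (q7 F) w * refl (q7 F) v * refl (q7 F) w) := by
          simp only [pow_succ, pow_zero, one_mul, mul_assoc]
      _ = 1 := by rw [e1, e2, refl_mul_self]

theorem b10c {j : Fin 7} (hi : i ∈ J) (hj : j ∈ J) (hg : g ∈ La F J) (hh : h ∈ La F J) :
    orderOf (g * ng F (J.erase i) * g⁻¹ * (h * ng F (J.erase j) * h⁻¹)) ≤ 3 := by
  have h2 := two3 h3
  have k : ∀ {i : Fin 7} {g : OO F}, i ∈ J → g ∈ La F J →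
      g * ng F (J.erase i) * g⁻¹ = refl (q7 F) (g.1 (ee F i)) * ng F J ∧
      g * ng F (J.erase i) * g⁻¹ = ng F J * refl (q7 F) (g.1 (ee F i)) := fun {i g} hi hg => by
    have e : ng F (J.erase i) = ng F {i} * ng F J := by
      conv_rhs => rw [← Finset.insert_erase hi, ng_insert (Finset.notMem_erase _ _), ← mul_assoc, ng_sq, one_mul]
    have c := mem_cent1.1 (b9 h2 (.inl subset_rfl) hg)
    have c' := mem_cent1.1 (b9 h2 (.inl subset_rfl) (inv_mem hg))
    rw [← refl_conj, refl_ee, e]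
    refine ⟨by simp only [mul_assoc, c'], ?_⟩
    rw [ng_comm, ← mul_assoc, c]; simp only [mul_assoc]
  rw [(k hi hg).1, (k hj hh).2, mul_assoc, ← mul_assoc (ng F J), ng_sq, one_mul]
  exact rr3 h3 (by rw [orth_Q, q_ee]) (by rw [orth_Q, q_ee])

end three

theorem omb : OMb := fun _ _ _ ho =>
  have h2 := odd_card_iff.1 ho
  ⟨fun _ => b1 h2, fun _ _ => b2 h2, fun _ _ => b3, fun _ _ => b4 h2, fun _ => b5 h2,
    fun _ _ h => (b6 h2 h).antisymm (b6 h2 h.symm),
    fun J a b _ h h' => (h.trans (der_mono h)).trans (der2' h2 J a b h'),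
    fun _ _ _ _ _ _ => b8 h2, fun _ _ => b9 h2,
    fun h3 _ h5 => ⟨fun _ ha _ hb hab => ⟨b10a h3 h5 ha hb hab, b10b h3 h5 ha hb hab⟩,
      fun _ hi _ hj _ hg _ hh => b10c h3 hi hj hg hh⟩⟩

end H8.XO
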