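/-
S3101, chunk `OMa`: the isomorphism types of the groups `La J`.
-/
import Cfsg.Agent.H8.XO2

set_option autoImplicit false
set_option linter.unusedSectionVars false

open Cfsg Subgroup H18 H17.GS
open H19 hiding eq_bot_mono
open H17.X H12 QuadraticMap Module
open scoped MatrixGroups
namespace H8.XO

/-- no normal subgroup of odd order -/
def NO (G : Type*) [Group G] : Prop := ∀ N : Subgroup G, N.Normal → Odd (Nat.card N) → N = ⊥

section no
variable {G H : Type*} [Group G] [Group H]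

theorem NO.map (h : NO H) (f : G →* H) (hf : Function.Surjective f) {N : Subgroup G} (hN : N.Normal)
    (o : Odd (Nat.card N)) : N ≤ f.ker :=
  (Subgroup.map_eq_bot_iff _).1 (h _ (hN.map f hf) (o.of_dvd_nat (card_map_dvd _ f)))

theorem NO.of_ker (h : NO H) (f : G →* H) (hf : Function.Surjective f) (k : Nat.card f.ker ∣ 2) : NO G :=
  fun _ hN o => card_eq_one.1 ((Nat.coprime_self _).1 (Nat.Coprime.coprime_dvd_right
    ((card_dvd_of_le (h.map f hf hN o)).trans k) o.coprime_two_right))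

theorem NO.equiv (h : NO H) (e : G ≃* H) : NO G :=
  h.of_ker e.toMonoidHom e.surjective (by rw [(MonoidHom.ker_eq_bot_iff _).2 e.injective]; simp)

theorem NO.prod (h : NO G) (h' : NO H) : NO (G × H) := fun _ hN o => eq_bot_iff.2 fun _ hx =>
  Prod.ext (h.map (MonoidHom.fst G H) Prod.fst_surjective hN o hx) (h'.map (MonoidHom.snd G H) Prod.snd_surjective hN o hx)

theorem no_a4 : NO (alternatingGroup (Fin 4)) := fun N hN o => eq_bot_iff.2 fun x hx => by
  have k : ∀ x : alternatingGroup (Fin 4), (∀ g, (x⁻¹ * (g * x * g⁻¹)) ^ 3 = 1) → x = 1 := by decide +kernel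
  refine k x fun g => orderOf_dvd_iff_pow_eq_one.1 ?_
  have h1 := o.of_dvd_nat (N.orderOf_dvd_natCard (mul_mem (inv_mem hx) (hN.conj_mem x hx g)))
  have h2 := orderOf_dvd_natCard (x⁻¹ * (g * x * g⁻¹))
  rw [alternatingGroup.card_of_card_eq_four (by simp), show 12 = 2 ^ 2 * 3 from rfl] at h2
  exact (h1.coprime_two_right.pow_right 2).dvd_of_dvd_mul_left h2
end no

variable {F : Type} [Field F] [Fintype F] {J : Finset (Fin 7)} {i : Fin 7}

theorem no_psl (ho : Odd (Fintype.card F)) : NO PSL(2, F) := by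
  by_cases h3 : Fintype.card F = 3
  · exact no_a4.equiv (H11.nonempty_psl2_three_equiv h3).some
  obtain ⟨k, hk⟩ := ho
  have h1 : 1 < Fintype.card F := Fintype.one_lt_card
  refine fun N hN o => ((H11.psl2_simple (by omega)).eq_bot_or_eq_top_of_normal N hN).resolve_right fun e => ?_
  rw [e, card_top] at o
  have := H11.card_psl_two (F := F)
  rw [hk, show (2 * k + 1) ^ 2 - 1 = 2 ^ 2 * (k * (k + 1)) from Nat.sub_eq_of_eq_add (by ring)] at this
  have h4 : 2 ^ 2 ∣ Nat.gcd 2 (2 * k + 1 - 1) := (o.coprime_two_left.pow_left 2).dvd_of_dvd_mul_right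
    (this ▸ Dvd.dvd.mul_left (dvd_mul_right _ _) _)
  exact absurd (Nat.le_of_dvd (by decide) (h4.trans (Nat.gcd_dvd_left _ _))) (by decide)

theorem no_four (ho : Odd (Fintype.card F)) (h : J.card = 4) : NO (La F J) := by
  have h2 := odd_card_iff.1 ho
  have h1 : 1 < Fintype.card F := Fintype.one_lt_card
  obtain ⟨e⟩ := H11.nonempty_pomega4_equiv (F := F) (by obtain ⟨k, hk⟩ := ho; omega)
  refine NO.equiv ((((no_psl ho).prod (no_psl ho)).equiv e).of_ker (QuotientGroup.mk' _)
    (QuotientGroup.mk'_surjective _) ?_) (La_four h2 h).some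
  rw [QuotientGroup.ker_mk', H11.card_center_omega (H11.qPlus_nondeg 2) (notExc_of_two_ne_zero h2) (by simp)
    (H11.coe_qPlus 2)]
  split_ifs <;> decide

theorem core (ho : Odd (Fintype.card F)) (h : J.card = 5) (hi : i ∈ J) : O(La F J ⊓ C[ng F (J.erase i)]) = ⊥ := by
  have h2 := odd_card_iff.1 ho
  have o := og_iff.1 (O_og (La F J ⊓ C[ng F (J.erase i)]))
  have le : O(La F J ⊓ C[ng F (J.erase i)]) ≤ La F (J.erase i) := fun y hy => by
    have k := Oc_le _ _ hy
    refine ⟨k.1.1, fun l hl => ?_⟩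
    by_cases e : l = i
    · subst e
      refine odd_fix (o.of_dvd_nat (orderOf_dvd_card' hy)) (pm1 fun j hj => ?_)
      by_cases e : j ∈ J
      · exact c_pos h2 k.2 hl (Finset.mem_erase.2 ⟨hj, e⟩)
      · exact f_zero h2 (k.1.2 j e) hj.symm
    · exact k.1.2 l fun e' => hl (Finset.mem_erase.2 ⟨e, e'⟩)
  have n : La F (J.erase i) ≤ N(O(La F J ⊓ C[ng F (J.erase i)])) :=
    (le_inf (La_mono (J.erase_subset i)) (b9 h2 (.inl subset_rfl))).trans (Oc_norm _ _)
  have := no_four ho (J := J.erase i) (by rw [Finset.card_erase_of_mem hi, h]) _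
    ((normal_subgroupOf_iff_le_normalizer le).2 n) (by rwa [card_subgroupOf' le])
  exact (subgroupOf_eq_bot.1 this).eq_bot_of_le le

theorem nab (h2 : (2 : F) ≠ 0) (h : 3 ≤ J.card) : ¬ Ab (La F J) := fun k => by
  obtain ⟨a, b, c, ha, hb, hc, ab, ac, bc⟩ := Finset.two_lt_card_iff.1 h
  have m : pm F (Equiv.swap a b * Equiv.swap a c) ∈ La F J := b3 ((Equiv.Perm.support_mul_le _ _).trans (by
    simp [Equiv.Perm.support_swap, ab, ac, Finset.insert_subset_iff, ha, hb, hc])) (by
      simp [Equiv.Perm.sign_swap, ab, ac])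
  have := c_neg h2 (s := {a, b}) (k := a) (i := c) (mem_cent1.2 (mul_comm_of_comm k m (b2 h2 (by
    simp [Finset.insert_subset_iff, ha, hb]) (by simp [Finset.card_pair ab])))) (by simp) (by simp [ac.symm, bc.symm])
  rw [pm_ee] at this
  simp [ee_apply, Equiv.swap_apply_of_ne_of_ne ac.symm bc.symm] at this

theorem mod8 (ho : Odd (Fintype.card F)) (h : J.card = 5) (k : ¬ 2 ^ 7 ∣ #(La F J)) :
    Fintype.card F % 8 = 3 ∨ Fintype.card F % 8 = 5 := by
  have h2 := odd_card_iff.1 ho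
  obtain ⟨e⟩ := La_odd h2 (m := 2) (by decide) h
  have := H11.card_pomegaOdd h2 (m := 2) (by decide)
  rw [← Nat.card_congr e.toEquiv] at this
  simp only [Finset.prod_range_succ, Finset.prod_range_zero, one_mul] at this
  have h1 : 0 < Fintype.card F := Fintype.card_pos
  generalize Fintype.card F = q at *
  by_contra hn
  have m : 1 ≡ q ^ 2 [MOD 16] := by
    have : q % 16 = 1 ∨ q % 16 = 7 ∨ q % 16 = 9 ∨ q % 16 = 15 := by have := Nat.odd_iff.1 ho; omega
    unfold Nat.ModEq
    rcases this with e | e | e | e <;> simp [Nat.pow_mod, e]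
  have m' : 1 ≡ q ^ (2 * 2) [MOD 16] := by rw [pow_mul]; exact m.pow 2
  refine k (Nat.dvd_of_mul_dvd_mul_left two_pos (this ▸ Dvd.dvd.mul_left ?_ _))
  exact mul_dvd_mul (a := 16) (c := 16) ((Nat.modEq_iff_dvd' (Nat.one_le_pow _ _ h1)).1 m)
    ((Nat.modEq_iff_dvd' (Nat.one_le_pow _ _ h1)).1 m')

theorem oma : OMa := fun F _ _ ho => by
  have h2 := odd_card_iff.1 ho
  obtain ⟨e⟩ := La_odd h2 (J := .univ) (m := 3) (by decide) rfl
  refine ⟨⟨e⟩, haveI := H11.pomegaOdd_simple h2 (m := 3) (by decide); e.isSimpleGroup, fun J h => ?_,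
    fun h5 T h => ?_⟩
  · obtain ⟨e⟩ := La_odd h2 (m := 2) (by decide) h
    exact ⟨⟨e.trans (H11.nonempty_pomega5_equiv h2).some⟩,
      ⟨haveI := H11.pomegaOdd_simple h2 (m := 2) le_rfl; e.isSimpleGroup, nab h2 (by omega)⟩, mod8 ho h,
      fun _ => core ho h⟩
  · obtain ⟨e⟩ := La_odd h2 (m := 1) le_rfl h
    exact ⟨haveI := H11.psl2_simple (F := F) (by omega);
      (e.trans (H11.nonempty_pomega3_equiv h2).some).isSimpleGroup, nab h2 h.ge⟩

end H8.XO
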